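import Mathlib

/-!
helper25: in a finite cyclic group, subgroups of equal order are equal.
-/

set_option autoImplicit false

namespace Cfsg.Agent.H25

theorem cyclic_subgroup_eq_of_card_eq {G : Type*} [Group G] [Finite G] (hc : IsCyclic G)
    (H K : Subgroup G) (h : Nat.card H = Nat.card K) : H = K := by
  classical
  have := Fintype.ofFinite G
  obtain ⟨k, hk⟩ : ∃ k : ℕ, k = Nat.card H := ⟨_, rfl⟩
  have hkpos : 0 < k := by rw [hk]; exact Nat.card_pos
  have key : ∀ L : Subgroup G, Nat.card L = k → (L : Set G) = {a : G | a ^ k = 1} := by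
    intro L hL
    apply Set.eq_of_subset_of_ncard_le
    · intro x hx
      show x ^ k = 1
      rw [← hL]
      exact orderOf_dvd_iff_pow_eq_one.mp (Subgroup.orderOf_dvd_natCard L hx)
    · have h1 : (L : Set G).ncard = k := by
        rw [← hL]; exact (Nat.card_coe_set_eq (L : Set G)).symm
      rw [h1, Set.ncard_eq_toFinset_card', Set.toFinset_setOf]
      exact IsCyclic.card_pow_eq_one_le hkpos
    · exact Set.toFinite _
  exact SetLike.coe_injective ((key H hk.symm).trans (key K (by rw [← h, hk])).symm)

end Cfsg.Agent.H25
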