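import Cfsg.Agent.H52.SoDefs

/-!
# SO-NC (piece of S2943): a `J(T)`-component does not centralize `V`
-/

set_option autoImplicit false
open Cfsg
open scoped commutatorElement Pointwise

namespace Cfsg.Agent.H25.So

universe u

/-- SO-NC. -/
theorem nc : Cfsg.Agent.H52.Sn.StNC.{u} := by
  intro X _ _ T C Q M J K O hF hKC
  have hCJ : ⁅C, J⁆ ≤ Q := by
    refine le_trans ?_ hF.hTC
    rw [Subgroup.commutator_le]
    intro c hc a ha
    have haT : a ∈ T := hF.hJT ha
    have hcN : c ∈ Subgroup.normalizer (T : Set X) := hF.hCT hc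
    have h1 : c * a * c⁻¹ ∈ T := (Subgroup.mem_normalizer_iff.mp hcN a).mp haT
    have hC := hF.hC
    refine Subgroup.mem_inf.mpr ⟨?_, ?_⟩
    · rw [commutatorElement_def]
      exact T.mul_mem h1 (T.inv_mem haT)
    · have h2 : a * c⁻¹ * a⁻¹ ∈ C := hC.conj_mem _ (C.inv_mem hc) a
      have e : ⁅c, a⁆ = c * (a * c⁻¹ * a⁻¹) := by
        rw [commutatorElement_def]; group
      rw [e]
      exact C.mul_mem hc h2
  have hKQ : K ≤ Q := by
    calc K = ⁅K, J⁆ := hF.hKJ.symm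
      _ ≤ ⁅C, J⁆ := Subgroup.commutator_mono hKC le_rfl
      _ ≤ Q := hCJ
  have hKbot : K = ⊥ := by
    rw [← hF.hKgen, Subgroup.closure_eq_bot_iff]
    rintro g ⟨hg, hodd⟩
    obtain ⟨n, hn⟩ := hF.hQ2 ⟨g, hKQ hg⟩
    have hgn : g ^ (2 ^ n) = 1 := by
      have h2 := congrArg Subtype.val hn
      simpa using h2
    have hd : orderOf g ∣ 2 ^ n := orderOf_dvd_of_pow_eq_one hgn
    have hcop : Nat.Coprime (orderOf g) (2 ^ n) :=
      Nat.Coprime.pow_right n hodd.coprime_two_right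
    have h1 : orderOf g = 1 := Nat.Coprime.eq_one_of_dvd hcop hd
    exact orderOf_eq_one_iff.mp h1
  have h3 := hF.hO3
  have hO : O = ⊥ := by
    rw [eq_bot_iff, ← hKbot]; exact hF.hOK
  rw [hKbot, hO] at h3
  simp at h3

example : ∀ {X : Type u} [Group X] [Finite X] (T C Q M J K O : Subgroup X),
  Cfsg.Agent.H52.Sn.Facts T C Q M J K O → ¬ K ≤ C := nc

end Cfsg.Agent.H25.So
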