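import Cfsg.Agent.H52.SpDefs
import Cfsg.Agent.H59.SoConj

/-!
# SP-LE (piece of S2944): `N_G(K) ≤ N_G(W_K)`
-/

set_option autoImplicit false
open Cfsg

namespace Cfsg.Agent.H25.Sp

universe u

/-- Conjugation by an element of the normalizer fixes the subgroup. -/
theorem map_conj_of_mem_normalizer {G : Type u} [Group G] (K : Subgroup G) (g : G)
    (hg : g ∈ Subgroup.normalizer (K : Set G)) :
    K.map (MulAut.conj g).toMonoidHom = K := by
  have hg' := Subgroup.mem_normalizer_iff.mp hg
  ext x
  constructor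
  · rintro ⟨y, hy, rfl⟩
    simp only [MulEquiv.toMonoidHom_eq_coe, MonoidHom.coe_coe, MulAut.conj_apply]
    exact (hg' y).mp hy
  · intro hx
    refine ⟨g⁻¹ * x * g, ?_, ?_⟩
    · refine (hg' _).mpr ?_
      have e : g * (g⁻¹ * x * g) * g⁻¹ = x := by group
      rw [e]; exact hx
    · simp only [MulEquiv.toMonoidHom_eq_coe, MonoidHom.coe_coe, MulAut.conj_apply]
      group

/-- An element conjugating a subgroup onto itself normalizes it. -/
theorem mem_normalizer_of_map_conj {G : Type u} [Group G] (W : Subgroup G) (g : G)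
    (h : W.map (MulAut.conj g).toMonoidHom = W) :
    g ∈ Subgroup.normalizer (W : Set G) := by
  rw [Subgroup.mem_normalizer_iff]
  intro x
  constructor
  · intro hx
    rw [← h]
    exact ⟨x, hx, by simp [MulAut.conj_apply]⟩
  · intro hx
    rw [← h] at hx
    obtain ⟨y, hy, e⟩ := hx
    simp only [MulEquiv.toMonoidHom_eq_coe, MonoidHom.coe_coe, MulAut.conj_apply] at e
    have e2 : y = x := by
      have := congrArg (fun z => g⁻¹ * z * g) e
      simpa [mul_assoc] using this
    rw [← e2]; exact hy

/-- SP-LE. -/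
theorem le : Cfsg.Agent.H52.Sn.StLE.{u} := by
  intro G _ _ K g hg
  apply mem_normalizer_of_map_conj
  rw [← Cfsg.Agent.H59.So.wOf_map_conj, map_conj_of_mem_normalizer K g hg]

example : ∀ {G : Type u} [Group G] [Finite G] (K : Subgroup G),
  Subgroup.normalizer (K : Set G) ≤ Subgroup.normalizer (wOf K : Set G) := le

end Cfsg.Agent.H25.Sp
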