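import Cfsg.Agent.H19.SxDefs

/-!
# SX-SYLJ (piece of the EXIST project for S2948 / S2949): a 2-subgroup `S` of `L` containing
`J(T)` (`T` Sylow in `L`) has `J(S) = J(T)`

The first part (the `maxEA` toolkit) is copied from `Cfsg/Agent/S5306.lean`.
-/

set_option autoImplicit false
open Cfsg

namespace Cfsg.Agent.H25.Sx

universe u

section
variable {X : Type u} [Group X]

/-- The maximal-order elementary abelian `p`-subgroups of `X` inside `H`. -/
def maxEA (p : ℕ) (H : Subgroup X) : Set (Subgroup X) :=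
  {A | A ≤ H ∧ IsElementaryAbelian p A ∧
    ∀ B : Subgroup X, B ≤ H → IsElementaryAbelian p B → Nat.card B ≤ Nat.card A}

theorem ea_iff (p : ℕ) (A : Subgroup X) :
    IsElementaryAbelian p A ↔ (∀ a ∈ A, ∀ b ∈ A, a * b = b * a) ∧ ∀ a ∈ A, a ^ p = 1 := by
  unfold IsElementaryAbelian
  rw [isMulCommutative_iff]
  constructor
  · rintro ⟨h1, h2⟩
    exact ⟨fun a ha b hb => congrArg Subtype.val (h1 ⟨a, ha⟩ ⟨b, hb⟩), h2⟩
  · rintro ⟨h1, h2⟩
    exact ⟨fun a b => Subtype.ext (h1 a a.2 b b.2), h2⟩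

theorem ea_map_subtype (p : ℕ) (H : Subgroup X) (A : Subgroup H) :
    IsElementaryAbelian p (A.map H.subtype) ↔ IsElementaryAbelian p A := by
  rw [ea_iff, ea_iff]
  constructor
  · rintro ⟨h1, h2⟩
    refine ⟨fun a ha b hb => ?_, fun a ha => ?_⟩
    · apply Subtype.ext
      exact h1 a (Subgroup.mem_map_of_mem _ ha) b (Subgroup.mem_map_of_mem _ hb)
    · apply Subtype.ext
      have := h2 a (Subgroup.mem_map_of_mem _ ha)
      simpa using this
  · rintro ⟨h1, h2⟩
    refine ⟨?_, ?_⟩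
    · rintro _ ⟨a, ha, rfl⟩ _ ⟨b, hb, rfl⟩
      exact congrArg Subtype.val (h1 a ha b hb)
    · rintro _ ⟨a, ha, rfl⟩
      have := congrArg Subtype.val (h2 a ha)
      simpa using this

theorem card_map_subtype (H : Subgroup X) (A : Subgroup H) :
    Nat.card (A.map H.subtype) = Nat.card A :=
  Subgroup.card_map_of_injective H.subtype_injective

theorem thompsonSubgroupOf_eq (p : ℕ) (H : Subgroup X) :
    thompsonSubgroupOf p H = sSup (maxEA p H) := by
  unfold thompsonSubgroupOf thompsonSubgroup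
  apply le_antisymm
  · rw [Subgroup.map_le_iff_le_comap]
    apply sSup_le
    intro A hA
    rw [← Subgroup.map_le_iff_le_comap]
    apply le_sSup
    refine ⟨?_, (ea_map_subtype p H A).mpr hA.1, ?_⟩
    · rintro _ ⟨a, -, rfl⟩; exact a.2
    · intro B hBH hB
      have hB' : (B.subgroupOf H).map H.subtype = B := Subgroup.map_subgroupOf_eq_of_le hBH
      rw [card_map_subtype]
      have := hA.2 (B.subgroupOf H) ((ea_map_subtype p H _).mp (hB'.symm ▸ hB))
      rw [← hB', card_map_subtype]; exact this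
  · apply sSup_le
    rintro A ⟨hAH, hA, hmax⟩
    have hA' : (A.subgroupOf H).map H.subtype = A := Subgroup.map_subgroupOf_eq_of_le hAH
    rw [← hA']
    apply Subgroup.map_mono
    apply le_sSup
    refine ⟨(ea_map_subtype p H _).mp (hA'.symm ▸ hA), ?_⟩
    intro B hB
    have := hmax (B.map H.subtype) (by rintro _ ⟨b, -, rfl⟩; exact b.2)
      ((ea_map_subtype p H B).mpr hB)
    rw [card_map_subtype] at this
    rw [← card_map_subtype H (A.subgroupOf H), hA']
    exact this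

theorem ea_map_conj (p : ℕ) (g : X) (A : Subgroup X) (hA : IsElementaryAbelian p A) :
    IsElementaryAbelian p (A.map (MulAut.conj g).toMonoidHom) := by
  rw [ea_iff] at hA ⊢
  obtain ⟨h1, h2⟩ := hA
  refine ⟨?_, ?_⟩
  · rintro _ ⟨a, ha, rfl⟩ _ ⟨b, hb, rfl⟩
    simp only [MulEquiv.coe_toMonoidHom, ← map_mul]
    rw [h1 a ha b hb]
  · rintro _ ⟨a, ha, rfl⟩
    simp only [MulEquiv.coe_toMonoidHom, ← map_pow]
    rw [h2 a ha, map_one]

theorem card_map_conj (g : X) (A : Subgroup X) :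
    Nat.card (A.map (MulAut.conj g).toMonoidHom) = Nat.card A :=
  Subgroup.card_map_of_injective (MulAut.conj g).injective

theorem map_conj_inv_map_conj (g : X) (A : Subgroup X) :
    (A.map (MulAut.conj g).toMonoidHom).map (MulAut.conj g⁻¹).toMonoidHom = A := by
  ext x
  constructor
  · rintro ⟨_, ⟨a, ha, rfl⟩, rfl⟩
    simpa [mul_assoc] using ha
  · intro hx
    exact ⟨g * x * g⁻¹, ⟨x, hx, by simp⟩, by simp [mul_assoc]⟩

theorem map_conj_map_conj_inv (g : X) (A : Subgroup X) :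
    (A.map (MulAut.conj g⁻¹).toMonoidHom).map (MulAut.conj g).toMonoidHom = A := by
  have := map_conj_inv_map_conj g⁻¹ A
  rwa [inv_inv] at this

/-- maximal elementary abelian subgroups of `P` lying in a conjugate `P'` of `P` are maximal there -/
theorem maxEA_of_le_conj (p : ℕ) (h : X) (P : Subgroup X) (A : Subgroup X) (hA : A ∈ maxEA p P)
    (hAP' : A ≤ P.map (MulAut.conj h).toMonoidHom) :
    A ∈ maxEA p (P.map (MulAut.conj h).toMonoidHom) := by
  refine ⟨hAP', hA.2.1, ?_⟩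
  intro B hB hBea
  have h1 : B.map (MulAut.conj h⁻¹).toMonoidHom ≤ P := by
    have := Subgroup.map_mono (f := (MulAut.conj h⁻¹).toMonoidHom) hB
    rwa [map_conj_inv_map_conj] at this
  have := hA.2.2 _ h1 (ea_map_conj p h⁻¹ B hBea)
  rwa [card_map_conj] at this

/-- If `J(P)` lies in a conjugate `P'` of `P` then `J(P) ≤ J(P')`. -/
theorem thompson_le_of_le_conj (p : ℕ) (h : X) (P : Subgroup X)
    (hJ : thompsonSubgroupOf p P ≤ P.map (MulAut.conj h).toMonoidHom) :
    thompsonSubgroupOf p P ≤ thompsonSubgroupOf p (P.map (MulAut.conj h).toMonoidHom) := by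
  rw [thompsonSubgroupOf_eq] at hJ
  rw [thompsonSubgroupOf_eq, thompsonSubgroupOf_eq]
  apply sSup_le
  intro A hA
  apply le_sSup
  exact maxEA_of_le_conj p h P A hA ((le_sSup hA).trans hJ)

theorem thompson_map_conj_le (p : ℕ) (g : X) (P : Subgroup X) :
    (thompsonSubgroupOf p P).map (MulAut.conj g).toMonoidHom ≤
      thompsonSubgroupOf p (P.map (MulAut.conj g).toMonoidHom) := by
  rw [thompsonSubgroupOf_eq, thompsonSubgroupOf_eq, Subgroup.map_le_iff_le_comap]
  apply sSup_le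
  intro A hA
  rw [← Subgroup.map_le_iff_le_comap]
  apply le_sSup
  refine ⟨Subgroup.map_mono hA.1, ea_map_conj p g A hA.2.1, ?_⟩
  intro B hB hBea
  have h1 : B.map (MulAut.conj g⁻¹).toMonoidHom ≤ P := by
    have := Subgroup.map_mono (f := (MulAut.conj g⁻¹).toMonoidHom) hB
    rwa [map_conj_inv_map_conj] at this
  have := hA.2.2 _ h1 (ea_map_conj p g⁻¹ B hBea)
  rwa [card_map_conj, ← card_map_conj g A] at this

theorem thompson_map_conj (p : ℕ) (g : X) (P : Subgroup X) :
    thompsonSubgroupOf p (P.map (MulAut.conj g).toMonoidHom) =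
      (thompsonSubgroupOf p P).map (MulAut.conj g).toMonoidHom := by
  apply le_antisymm _ (thompson_map_conj_le p g P)
  have := thompson_map_conj_le p g⁻¹ (P.map (MulAut.conj g).toMonoidHom)
  rw [map_conj_inv_map_conj] at this
  have h2 := Subgroup.map_mono (f := (MulAut.conj g).toMonoidHom) this
  rwa [map_conj_map_conj_inv] at h2

/-- If `J(P)` lies in a conjugate `P'` of `P` (finite group) then `J(P) = J(P')`. -/
theorem thompson_eq_of_le_conj [Finite X] (p : ℕ) (h : X) (P : Subgroup X)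
    (hJ : thompsonSubgroupOf p P ≤ P.map (MulAut.conj h).toMonoidHom) :
    thompsonSubgroupOf p P = thompsonSubgroupOf p (P.map (MulAut.conj h).toMonoidHom) := by
  apply Subgroup.eq_of_le_of_card_ge (thompson_le_of_le_conj p h P hJ)
  rw [thompson_map_conj, card_map_conj]


/-- Existence of a largest elementary abelian subgroup inside `R`. -/
theorem maxEA_nonempty [Finite X] (p : ℕ) (R : Subgroup X) : ∃ A, A ∈ maxEA p R := by
  have hbot : IsElementaryAbelian p (⊥ : Subgroup X) := by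
    rw [ea_iff]
    refine ⟨?_, ?_⟩
    · intro a ha b hb
      rw [Subgroup.mem_bot] at ha hb
      rw [ha, hb]
    · intro a ha
      rw [Subgroup.mem_bot] at ha
      rw [ha, one_pow]
  have hne : Nonempty {B : Subgroup X // B ≤ R ∧ IsElementaryAbelian p B} :=
    ⟨⟨⊥, bot_le, hbot⟩⟩
  obtain ⟨A, hA⟩ := Finite.exists_max
    (fun B : {B : Subgroup X // B ≤ R ∧ IsElementaryAbelian p B} => Nat.card (B : Subgroup X))
  exact ⟨A.1, A.2.1, A.2.2, fun B hBR hB => hA ⟨B, hBR, hB⟩⟩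

/-- If `J(R) ≤ P ≤ R` then `J(P) = J(R)`. -/
theorem thompson_eq_of_sandwich [Finite X] (p : ℕ) (P R : Subgroup X) (hPR : P ≤ R)
    (hJ : thompsonSubgroupOf p R ≤ P) : thompsonSubgroupOf p P = thompsonSubgroupOf p R := by
  obtain ⟨A₀, hA₀⟩ := maxEA_nonempty p R
  have hin : ∀ A ∈ maxEA p R, A ≤ P := by
    intro A hA
    refine le_trans ?_ hJ
    rw [thompsonSubgroupOf_eq]
    exact le_sSup hA
  rw [thompsonSubgroupOf_eq, thompsonSubgroupOf_eq]
  apply le_antisymm
  · apply sSup_le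
    intro A hA
    apply le_sSup
    refine ⟨hA.1.trans hPR, hA.2.1, ?_⟩
    intro B hBR hB
    exact (hA₀.2.2 B hBR hB).trans (hA.2.2 A₀ (hin A₀ hA₀) hA₀.2.1)
  · apply sSup_le
    intro A hA
    apply le_sSup
    exact ⟨hin A hA, hA.2.1, fun B hBP hB => hA.2.2 B (hBP.trans hPR) hB⟩

end

/-- SX-SYLJ. -/
theorem sylJ : Cfsg.Agent.H19.Sx.StSylJ.{u} := by
  intro G _ _ T L S hTL hSL hS hJS
  obtain ⟨hTle, hT2, hTodd⟩ := hTL
  have hfact : Fact (Nat.Prime 2) := ⟨Nat.prime_two⟩
  have hT' : IsPGroup 2 ↥(T.subgroupOf L) := hT2.comap_subtype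
  have hidx : ¬ 2 ∣ (T.subgroupOf L).index := by
    have e : (T.subgroupOf L).index = T.relIndex L := rfl
    rw [e, ← even_iff_two_dvd, Nat.not_even_iff_odd]; exact hTodd
  obtain ⟨P, hP⟩ : ∃ P : Sylow 2 ↥L, (P : Subgroup ↥L) = T.subgroupOf L :=
    ⟨hT'.toSylow hidx, IsPGroup.toSylow_coe hT' hidx⟩
  have hS' : IsPGroup 2 ↥(S.subgroupOf L) := hS.comap_subtype
  obtain ⟨P', hP'⟩ := hS'.exists_le_sylow
  obtain ⟨c, hc⟩ := MulAction.exists_smul_eq ↥L P P'
  have hST : S ≤ T.map (MulAut.conj (c : G)).toMonoidHom := by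
    intro s hs
    have h1 : (⟨s, hSL hs⟩ : ↥L) ∈ ((c • P : Sylow 2 ↥L) : Subgroup ↥L) := by
      rw [hc]; exact hP' (Subgroup.mem_subgroupOf.mpr hs)
    rw [Sylow.coe_subgroup_smul, Subgroup.mem_smul_pointwise_iff_exists] at h1
    obtain ⟨y, hy, hys⟩ := h1
    rw [hP, Subgroup.mem_subgroupOf] at hy
    refine ⟨(y : G), hy, ?_⟩
    have h2 : ((MulAut.conj c • y : ↥L) : G) = s := congrArg Subtype.val hys
    rw [← h2]
    simp [MulAut.smul_def, MulAut.conj_apply]
  have h1 : thompsonSubgroupOf 2 T =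
      thompsonSubgroupOf 2 (T.map (MulAut.conj (c : G)).toMonoidHom) :=
    thompson_eq_of_le_conj 2 (c : G) T (hJS.trans hST)
  have h2 : thompsonSubgroupOf 2 S =
      thompsonSubgroupOf 2 (T.map (MulAut.conj (c : G)).toMonoidHom) :=
    thompson_eq_of_sandwich 2 S _ hST (by rw [← h1]; exact hJS)
  rw [h2, ← h1]

example : ∀ {G : Type u} [Group G] [Finite G] (T L S : Subgroup G),
  IsSylowTwoIn T L → S ≤ L → IsPGroup 2 ↥S → thompsonSubgroupOf 2 T ≤ S →
  thompsonSubgroupOf 2 S = thompsonSubgroupOf 2 T := sylJ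

end Cfsg.Agent.H25.Sx
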