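import Cfsg.Agent.H19.SxDefs
import Cfsg.Agent.H63.SnIfV

/-!
# SX-IFV2 (piece of the EXIST project for S2948 / S2949): `V = Ω₁(Z(O₂(L)))` inside `↥L` lies
in `O₂(L)` and contains the central involutions of `O₂(L)`
-/

set_option autoImplicit false
open Cfsg

namespace Cfsg.Agent.H25.Sx

universe u

/-- SX-IFV2. -/
theorem ifV2 : Cfsg.Agent.H19.Sx.StIfV2.{u} := by
  intro G _ _ L
  refine ⟨?_, ?_⟩
  · intro z hz
    have hz' : (z : G) ∈ omegaCenterOf (pCoreOf 2 L) := Subgroup.mem_subgroupOf.mp hz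
    have h1 := (Cfsg.Agent.H63.Sn.mem_omegaCenterOf _ hz').1
    obtain ⟨hx, h2⟩ := (Cfsg.Agent.H63.Sn.mem_pCoreOf L).mp h1
    exact h2
  · intro z hz hcomm hzz
    rw [Subgroup.mem_subgroupOf]
    apply Cfsg.Agent.H63.Sn.omegaCenterOf_mem
    · exact (Cfsg.Agent.H63.Sn.mem_pCoreOf L).mpr ⟨z.2, hz⟩
    · rw [Subgroup.mem_centralizer_iff]
      intro h hh
      obtain ⟨hhL, hq⟩ := (Cfsg.Agent.H63.Sn.mem_pCoreOf L).mp hh
      have h1 := congrArg Subtype.val (hcomm ⟨h, hhL⟩ hq)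
      exact h1
    · have h1 := congrArg Subtype.val hzz
      rw [pow_two]
      exact h1

example : ∀ {G : Type u} [Group G] [Finite G] (L : Subgroup G),
  (omegaCenterOf (pCoreOf 2 L)).subgroupOf L ≤ pCore 2 ↥L ∧
  ∀ z ∈ pCore 2 ↥L, (∀ q ∈ pCore 2 ↥L, q * z = z * q) → z * z = 1 →
    z ∈ (omegaCenterOf (pCoreOf 2 L)).subgroupOf L := ifV2

end Cfsg.Agent.H25.Sx
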