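import Cfsg.Agent.H64.JzDefs
import Cfsg.Agent.H51.SyFinal
import Cfsg.Agent.Helper55.UqBase
import Cfsg.Agent.H25.SpLE
import Cfsg.Agent.H25.SxSylJ
import Cfsg.Agent.H14.Thompson

/-!
# JZ-OUT2 (piece of S2951/S2952): `T = S`, `N_G(J(S)) ≤ L`, and a 2-local over `J(S)` not inside
`L` give a `J(S)`-component outside `L`
-/

set_option autoImplicit false
open Cfsg

namespace Cfsg.Agent.H25.Jz

universe u

/-- A Sylow 2-subgroup of `G` is a Sylow 2-subgroup of `⊤`. -/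
theorem sylow_top {G : Type u} [Group G] [Finite G] (S : Sylow 2 G) :
    IsSylowTwoIn (S : Subgroup G) ⊤ := by
  have hfact : Fact (Nat.Prime 2) := ⟨Nat.prime_two⟩
  refine ⟨le_top, S.isPGroup', ?_⟩
  rw [Subgroup.relIndex_top_right, ← Nat.not_even_iff_odd, even_iff_two_dvd]
  exact S.not_dvd_index

/-- A conjugate of a Sylow 2-subgroup of `G` is a Sylow 2-subgroup of `⊤`. -/
theorem sylow_top_conj {G : Type u} [Group G] [Finite G] (S : Sylow 2 G) (x : G) :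
    IsSylowTwoIn ((S : Subgroup G).map (MulAut.conj x).toMonoidHom) ⊤ := by
  have hfact : Fact (Nat.Prime 2) := ⟨Nat.prime_two⟩
  refine ⟨le_top, S.isPGroup'.map _, ?_⟩
  rw [Subgroup.relIndex_top_right, ← Nat.not_even_iff_odd, even_iff_two_dvd]
  have e : ((S : Subgroup G).map (MulAut.conj x).toMonoidHom).index = (S : Subgroup G).index :=
    Subgroup.index_map_equiv _ (MulAut.conj x)
  rw [e]
  exact S.not_dvd_index

/-- If `J(S) ≤ O₂(X)` for a Sylow 2-subgroup `S` of `G`, then `X` normalizes `J(S)`. -/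
theorem le_normalizer_J_of_le_pCoreOf {G : Type u} [Group G] [Finite G] (S : Sylow 2 G)
    (X : Subgroup G) (hle : thompsonSubgroupOf 2 (S : Subgroup G) ≤ pCoreOf 2 X) :
    X ≤ Subgroup.normalizer (thompsonSubgroupOf 2 (S : Subgroup G) : Set G) := by
  intro x hx
  apply Cfsg.Agent.H25.Sp.mem_normalizer_of_map_conj
  have hO2 : IsPGroup 2 ↥(pCoreOf 2 X) := Cfsg.Agent.Helper55.Uq.pCoreOf_isPGroup X
  have h1 : thompsonSubgroupOf 2 (pCoreOf 2 X) = thompsonSubgroupOf 2 (S : Subgroup G) :=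
    Cfsg.Agent.H25.Sx.sylJ (S : Subgroup G) ⊤ (pCoreOf 2 X) (sylow_top S) le_top hO2 hle
  have hxN : x ∈ Subgroup.normalizer (pCoreOf 2 X : Set G) :=
    Cfsg.Agent.Helper55.J48.le_normalizer_pCoreOf X hx
  have h2 : thompsonSubgroupOf 2 ((S : Subgroup G).map (MulAut.conj x).toMonoidHom) ≤
      pCoreOf 2 X := by
    rw [← Cfsg.Agent.H14.thompsonSubgroupOf_conj 2 x (S : Subgroup G)]
    calc (thompsonSubgroupOf 2 (S : Subgroup G)).map (MulAut.conj x).toMonoidHom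
        ≤ (pCoreOf 2 X).map (MulAut.conj x).toMonoidHom := Subgroup.map_mono hle
      _ = pCoreOf 2 X := Cfsg.Agent.H25.Sp.map_conj_of_mem_normalizer (pCoreOf 2 X) x hxN
  have h3 : thompsonSubgroupOf 2 (pCoreOf 2 X) =
      thompsonSubgroupOf 2 ((S : Subgroup G).map (MulAut.conj x).toMonoidHom) :=
    Cfsg.Agent.H25.Sx.sylJ _ ⊤ (pCoreOf 2 X) (sylow_top_conj S x) le_top hO2 h2
  rw [Cfsg.Agent.H14.thompsonSubgroupOf_conj 2 x (S : Subgroup G), ← h3, h1]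

/-- JZ-OUT2. -/
theorem out2 : Cfsg.Agent.H64.Jz.StOut2.{u} := by
  intro G _ _ S M T K L hB hTS hJL hX
  obtain ⟨hZN, hO, hM, hMJ, hT, hTS', hK, hLmax, hKL⟩ := hB
  obtain ⟨hL, hN, hZ⟩ := hZN
  obtain ⟨X, hX2, hJX, hXL⟩ := hX
  subst hTS
  have hfact : Fact (Nat.Prime 2) := ⟨Nat.prime_two⟩
  have hS2 : IsPGroup 2 ↥(S : Subgroup G) := S.isPGroup'
  have hJS : thompsonSubgroupOf 2 (S : Subgroup G) ≤ S := Cfsg.Agent.Helper55.ThJ.J_le _
  have hJ2 : IsPGroup 2 ↥(thompsonSubgroupOf 2 (S : Subgroup G)) := hS2.to_le hJS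
  have hSne : (S : Subgroup G) ≠ ⊥ := hT.1.2.1
  have hJne : thompsonSubgroupOf 2 (S : Subgroup G) ≠ ⊥ :=
    Cfsg.Agent.Helper55.ThJ.J_ne_bot hS2 hSne
  obtain ⟨SX, hSX, hJSX⟩ := Cfsg.Agent.Helper55.J48.exists_sylowIn hJ2 hJX
  have hJeq : thompsonSubgroupOf 2 SX = thompsonSubgroupOf 2 (S : Subgroup G) :=
    Cfsg.Agent.H25.Sx.sylJ (S : Subgroup G) ⊤ SX (sylow_top S) le_top hSX.2.1 hJSX
  have hSXne : SX ≠ ⊥ := by
    intro h0
    rw [h0] at hJSX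
    exact hJne (le_bot_iff.mp hJSX)
  -- `J(S) ⊄ O₂(X)`
  have hnot : ¬ thompsonSubgroupOf 2 SX ≤ pCoreOf 2 X := by
    rw [hJeq]
    intro hle
    exact hXL ((le_normalizer_J_of_le_pCoreOf S X hle).trans hJL)
  have hov : X ∈ jOvergroups SX :=
    ⟨hSX, hnot, Cfsg.Agent.Helper55.J48.centralizer_pCoreOf_le hL hX2⟩
  have hNJ : Subgroup.normalizer (thompsonSubgroupOf 2 SX : Set G) ⊓ X ≤ L := by
    rw [hJeq]
    exact inf_le_left.trans hJL
  obtain ⟨K', hK', hK'X, hK'L⟩ :=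
    Cfsg.Agent.H51.Sy.existGen_proved hL hN hZ SX hSX.2.1 hSXne X hov L hNJ hXL
  exact ⟨K', Cfsg.Agent.Helper55.Uq.isJComponent_congr hJeq hK', hK'L⟩

example : ∀ {G : Type u} [Group G] [Finite G] (S : Sylow 2 G) (M T K L : Subgroup G),
  Cfsg.Agent.H64.Jz.Base S M T K L → T = (S : Subgroup G) →
  Subgroup.normalizer (thompsonSubgroupOf 2 (S : Subgroup G) : Set G) ≤ L →
  (∃ X : Subgroup G, IsTwoLocal X ∧ thompsonSubgroupOf 2 (S : Subgroup G) ≤ X ∧ ¬ X ≤ L) →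
  ∃ K' : Subgroup G, IsJComponent T K' ∧ ¬ K' ≤ L := out2

end Cfsg.Agent.H25.Jz
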