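import Cfsg.Agent.H52.SoDefs

/-!
# SO-INJ (piece of S2943): a component is determined by its image modulo `C`
-/

set_option autoImplicit false
open Cfsg
open scoped commutatorElement Pointwise

namespace Cfsg.Agent.H25.So

universe u

/-- Powers of `k * q` with `q` normalizing `K`. -/
theorem pow_mul_mem {X : Type u} [Group X] (K : Subgroup X) (k q : X) (hk : k ∈ K)
    (hq : q ∈ Subgroup.normalizer (K : Set X)) (n : ℕ) :
    ∃ k' ∈ K, (k * q) ^ n = k' * q ^ n := by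
  induction n with
  | zero => exact ⟨1, K.one_mem, by simp⟩
  | succ n ih =>
    obtain ⟨k', hk', e⟩ := ih
    have hqn : q ^ n ∈ Subgroup.normalizer (K : Set X) := Subgroup.pow_mem _ hq n
    have h1 : q ^ n * k * (q ^ n)⁻¹ ∈ K := (Subgroup.mem_normalizer_iff.mp hqn k).mp hk
    refine ⟨k' * (q ^ n * k * (q ^ n)⁻¹), K.mul_mem hk' h1, ?_⟩
    rw [pow_succ, e, pow_succ]
    group

/-- An element of odd order of `K ⊔ Q`, with `Q` a 2-group normalizing `K`, lies in `K`. -/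
theorem odd_mem_of_mem_sup {X : Type u} [Group X] [Finite X] (K Q : Subgroup X)
    (hQ2 : IsPGroup 2 ↥Q) (hQK : Q ≤ Subgroup.normalizer (K : Set X)) (g : X)
    (hg : g ∈ K ⊔ Q) (hodd : Odd (orderOf g)) : g ∈ K := by
  have hg' : g ∈ (K : Set X) * (Q : Set X) := by
    rw [← Subgroup.coe_mul_of_right_le_normalizer_left K Q hQK]; exact hg
  obtain ⟨k, hk, q, hq, rfl⟩ := Set.mem_mul.mp hg'
  have hk : k ∈ K := hk
  have hq : q ∈ Q := hq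
  obtain ⟨k', hk', e⟩ := pow_mul_mem K k q hk (hQK hq) (orderOf (k * q))
  rw [pow_orderOf_eq_one] at e
  have hqm : q ^ orderOf (k * q) ∈ K := by
    have h1 : q ^ orderOf (k * q) = k'⁻¹ := (inv_eq_of_mul_eq_one_right e.symm).symm
    rw [h1]; exact K.inv_mem hk'
  obtain ⟨n, hn⟩ := hQ2 ⟨q, hq⟩
  have hqn : q ^ (2 ^ n) = 1 := by
    have h2 := congrArg Subtype.val hn
    simpa using h2
  have hcop : Nat.Coprime (orderOf (k * q)) (2 ^ n) :=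
    Nat.Coprime.pow_right n hodd.coprime_two_right
  have hcop' : Nat.Coprime (orderOf (k * q)) (orderOf q) :=
    Nat.Coprime.coprime_dvd_right (orderOf_dvd_of_pow_eq_one hqn) hcop
  obtain ⟨a, ha⟩ := exists_pow_eq_self_of_coprime hcop'
  have hq' : q ∈ K := by
    rw [← ha]; exact K.pow_mem hqm a
  exact K.mul_mem hk hq'

/-- One inclusion of INJ. -/
theorem inj_le {X : Type u} [Group X] [Finite X] (C Q J K₁ K₂ : Subgroup X)
    (hC : C.Normal) (hQ : Q.Normal) (hQ2 : IsPGroup 2 ↥Q) (hCJ : ⁅C, J⁆ ≤ Q)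
    (hgen₁ : Subgroup.closure {g : X | g ∈ K₁ ∧ Odd (orderOf g)} = K₁) (hKJ₁ : ⁅K₁, J⁆ = K₁)
    (hKJ₂ : ⁅K₂, J⁆ = K₂) (hQK₂ : Q ≤ Subgroup.normalizer (K₂ : Set X))
    (h : K₁ ⊔ C = K₂ ⊔ C) : K₁ ≤ K₂ := by
  have hA : ⁅K₂ ⊔ C, J⁆ ≤ K₂ ⊔ Q := by
    rw [Subgroup.commutator_le]
    intro x hx a ha
    have hx' : x ∈ (K₂ : Set X) * (C : Set X) := by
      rw [← Subgroup.mul_normal]; exact hx
    obtain ⟨k, hk, c, hc, rfl⟩ := Set.mem_mul.mp hx'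
    have hk : k ∈ K₂ := hk
    have hc : c ∈ C := hc
    have e : ⁅k * c, a⁆ = (k * ⁅c, a⁆ * k⁻¹) * ⁅k, a⁆ := by
      simp only [commutatorElement_def]; group
    rw [e]
    refine Subgroup.mul_mem _ ?_ ?_
    · exact Subgroup.mem_sup_right
        (hQ.conj_mem _ (hCJ (Subgroup.commutator_mem_commutator hc ha)) k)
    · refine Subgroup.mem_sup_left ?_
      rw [← hKJ₂]; exact Subgroup.commutator_mem_commutator hk ha
  have hB : K₁ ≤ K₂ ⊔ Q := by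
    calc K₁ = ⁅K₁, J⁆ := hKJ₁.symm
      _ ≤ ⁅K₁ ⊔ C, J⁆ := Subgroup.commutator_mono le_sup_left le_rfl
      _ = ⁅K₂ ⊔ C, J⁆ := by rw [h]
      _ ≤ K₂ ⊔ Q := hA
  rw [← hgen₁, Subgroup.closure_le]
  rintro g ⟨hg, hodd⟩
  have hg1 : g ∈ K₁ := by rw [← hgen₁]; exact Subgroup.subset_closure ⟨hg, hodd⟩
  exact odd_mem_of_mem_sup K₂ Q hQ2 hQK₂ g (hB hg1) hodd

/-- SO-INJ. -/
theorem inj : Cfsg.Agent.H52.Sn.StInj.{u} := by
  intro X _ _ C Q J K₁ K₂ hC hQ hQ2 hCJ hgen₁ hKJ₁ hQK₁ hgen₂ hKJ₂ hQK₂ h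
  exact le_antisymm (inj_le C Q J K₁ K₂ hC hQ hQ2 hCJ hgen₁ hKJ₁ hKJ₂ hQK₂ h)
    (inj_le C Q J K₂ K₁ hC hQ hQ2 hCJ hgen₂ hKJ₂ hKJ₁ hQK₁ h.symm)

example : ∀ {X : Type u} [Group X] [Finite X] (C Q J K₁ K₂ : Subgroup X),
  C.Normal → Q.Normal → IsPGroup 2 ↥Q → ⁅C, J⁆ ≤ Q →
  Subgroup.closure {g : X | g ∈ K₁ ∧ Odd (orderOf g)} = K₁ → ⁅K₁, J⁆ = K₁ →
  Q ≤ Subgroup.normalizer (K₁ : Set X) →
  Subgroup.closure {g : X | g ∈ K₂ ∧ Odd (orderOf g)} = K₂ → ⁅K₂, J⁆ = K₂ →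
  Q ≤ Subgroup.normalizer (K₂ : Set X) →
  K₁ ⊔ C = K₂ ⊔ C → K₁ = K₂ := inj

end Cfsg.Agent.H25.So
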