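import Cfsg.Agent.H19.SxDefs
import Cfsg.Agent.H25.SoInj

/-!
# SX-COMPB (piece of the EXIST project for S2948 / S2949): the subgroup `K` generated by the
odd-order elements of `⟨x⟩Q`
-/

set_option autoImplicit false
open Cfsg
open scoped commutatorElement

namespace Cfsg.Agent.H25.Sx

universe u

section
variable {X : Type u} [Group X]

/-- The subgroup generated by the odd-order elements of `R`. -/
def oddGen (R : Subgroup X) : Subgroup X :=
  Subgroup.closure {g : X | g ∈ R ∧ Odd (orderOf g)}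

theorem oddGen_le (R : Subgroup X) : oddGen R ≤ R := by
  unfold oddGen
  rw [Subgroup.closure_le]
  intro g hg
  exact hg.1

theorem mem_oddGen {R : Subgroup X} {g : X} (hg : g ∈ R) (ho : Odd (orderOf g)) :
    g ∈ oddGen R :=
  Subgroup.subset_closure ⟨hg, ho⟩

theorem oddGen_gen (R : Subgroup X) :
    Subgroup.closure {g : X | g ∈ oddGen R ∧ Odd (orderOf g)} = oddGen R := by
  apply le_antisymm
  · rw [Subgroup.closure_le]
    intro g hg
    exact hg.1
  · have h1 : oddGen R = Subgroup.closure {g : X | g ∈ R ∧ Odd (orderOf g)} := rfl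
    rw [h1]
    apply Subgroup.closure_mono
    intro g hg
    exact ⟨Subgroup.subset_closure hg, hg.2⟩

/-- An element conjugating `R` into itself conjugates `oddGen R` into itself. -/
theorem oddGen_conj (R : Subgroup X) (n : X) (hn : ∀ r ∈ R, n * r * n⁻¹ ∈ R) :
    ∀ k ∈ oddGen R, n * k * n⁻¹ ∈ oddGen R := by
  intro k hk
  have hle : oddGen R ≤ (oddGen R).comap (MulAut.conj n).toMonoidHom := by
    have h1 : oddGen R = Subgroup.closure {g : X | g ∈ R ∧ Odd (orderOf g)} := rfl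
    nth_rewrite 1 [h1]
    rw [Subgroup.closure_le]
    intro g hg
    have h2 : n * g * n⁻¹ ∈ oddGen R := by
      apply mem_oddGen (hn g hg.1)
      have e : orderOf (n * g * n⁻¹) = orderOf g := by
        have h3 := MulEquiv.orderOf_eq (MulAut.conj n) g
        rw [MulAut.conj_apply] at h3
        exact h3
      rw [e]; exact hg.2
    exact h2
  exact hle hk

theorem mem_normalizer_of_conj (K : Subgroup X) (n : X) (h1 : ∀ k ∈ K, n * k * n⁻¹ ∈ K)
    (h2 : ∀ k ∈ K, n⁻¹ * k * n⁻¹⁻¹ ∈ K) : n ∈ Subgroup.normalizer (K : Set X) := by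
  rw [Subgroup.mem_normalizer_iff]
  intro k
  constructor
  · exact h1 k
  · intro hk
    have h3 := h2 _ hk
    have e : n⁻¹ * (n * k * n⁻¹) * n⁻¹⁻¹ = k := by group
    rw [e] at h3; exact h3

/-- `K` normalizes `[K, J]`. -/
theorem le_normalizer_commutator (K J : Subgroup X) :
    K ≤ Subgroup.normalizer ((⁅K, J⁆ : Subgroup X) : Set X) := by
  have key : ∀ k ∈ K, ∀ d ∈ ⁅K, J⁆, k * d * k⁻¹ ∈ ⁅K, J⁆ := by
    intro k hk d hd
    have hle : ⁅K, J⁆ ≤ (⁅K, J⁆).comap (MulAut.conj k).toMonoidHom := by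
      rw [Subgroup.commutator_le]
      intro k' hk' j hj
      have h1 : k * ⁅k', j⁆ * k⁻¹ ∈ ⁅K, J⁆ := by
        have e : k * ⁅k', j⁆ * k⁻¹ = ⁅k * k', j⁆ * ⁅k, j⁆⁻¹ := by
          simp only [commutatorElement_def]; group
        rw [e]
        exact Subgroup.mul_mem _ (Subgroup.commutator_mem_commutator (K.mul_mem hk hk') hj)
          (Subgroup.inv_mem _ (Subgroup.commutator_mem_commutator hk hj))
      exact h1
    exact hle hd
  intro k hk
  exact mem_normalizer_of_conj _ k (key k hk) (key k⁻¹ (K.inv_mem hk))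

end

/-- SX-COMPB. -/
theorem compB : Cfsg.Agent.H19.Sx.StCompB.{u} := by
  intro X _ _ Q J a x hQn hQ2 haJ hxodd hxQ hx3 hax hJ
  obtain ⟨R, hR⟩ : ∃ R, R = Subgroup.zpowers x ⊔ Q := ⟨_, rfl⟩
  have hxR : x ∈ R := by rw [hR]; exact Subgroup.mem_sup_left (Subgroup.mem_zpowers x)
  have hQR : Q ≤ R := by rw [hR]; exact le_sup_right
  have hRel : ∀ r ∈ R, ∃ y ∈ Subgroup.zpowers x, ∃ z ∈ Q, y * z = r := by
    intro r hr
    rw [hR] at hr
    exact Subgroup.mem_sup_of_normal_right.mp hr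
  have hJR : ∀ g ∈ J, ∀ r ∈ R, g * r * g⁻¹ ∈ R := by
    intro g hg r hr
    obtain ⟨y, hy, z, hz, rfl⟩ := hRel r hr
    have e : g * (y * z) * g⁻¹ = (g * y * g⁻¹) * (g * z * g⁻¹) := by group
    rw [e]
    refine R.mul_mem ?_ (hQR (hQn.conj_mem z hz g))
    obtain ⟨i, rfl⟩ := Subgroup.mem_zpowers_iff.mp hy
    have e2 : g * x ^ i * g⁻¹ = (g * x * g⁻¹) ^ i := (conj_zpow).symm
    rw [e2]
    have h1 : g * x * g⁻¹ ∈ R := by rw [hR]; exact hJ g hg
    exact R.zpow_mem h1 i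
  obtain ⟨K, hK⟩ : ∃ K, K = oddGen R := ⟨_, rfl⟩
  have hKR : K ≤ R := by rw [hK]; exact oddGen_le R
  have hxK : x ∈ K := by rw [hK]; exact mem_oddGen hxR hxodd
  have hKgen : Subgroup.closure {g : X | g ∈ K ∧ Odd (orderOf g)} = K := by
    rw [hK]; exact oddGen_gen R
  have hRK : ∀ n : X, (∀ r ∈ R, n * r * n⁻¹ ∈ R) → (∀ r ∈ R, n⁻¹ * r * n⁻¹⁻¹ ∈ R) →
      n ∈ Subgroup.normalizer (K : Set X) := by
    intro n h1 h2
    rw [hK]
    exact mem_normalizer_of_conj _ n (oddGen_conj R n h1) (oddGen_conj R n⁻¹ h2)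
  have hRN : ∀ r ∈ R, r ∈ Subgroup.normalizer (K : Set X) := by
    intro r hr
    exact hRK r (fun s hs => R.mul_mem (R.mul_mem hr hs) (R.inv_mem hr))
      (fun s hs => R.mul_mem (R.mul_mem (R.inv_mem hr) hs) (R.inv_mem (R.inv_mem hr)))
  have hJN : J ≤ Subgroup.normalizer (K : Set X) := by
    intro g hg
    exact hRK g (hJR g hg) (hJR g⁻¹ (J.inv_mem hg))
  have hQN : Q ≤ Subgroup.normalizer (K : Set X) := fun q hq => hRN q (hQR hq)
  -- `[K, J] ≤ K`
  have hDK : ⁅K, J⁆ ≤ K := by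
    rw [Subgroup.commutator_le]
    intro k hk j hj
    have h1 : j * k⁻¹ * j⁻¹ ∈ K :=
      (Subgroup.mem_normalizer_iff.mp (hJN hj) k⁻¹).mp (K.inv_mem hk)
    have e : ⁅k, j⁆ = k * (j * k⁻¹ * j⁻¹) := by rw [commutatorElement_def]; group
    rw [e]; exact K.mul_mem hk h1
  -- `x ∈ [K, J]`
  have hxx : x * x ∈ ⁅K, J⁆ := by
    have e : ⁅x, a⁆ = x * x := by
      have h1 : a * x⁻¹ * a⁻¹ = x := by
        have e1 : a * x⁻¹ * a⁻¹ = (a * x * a⁻¹)⁻¹ := by group
        rw [e1, hax, inv_inv]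
      rw [commutatorElement_def, mul_assoc, mul_assoc, ← mul_assoc a, h1]
    rw [← e]
    exact Subgroup.commutator_mem_commutator hxK haJ
  have hxD : x ∈ ⁅K, J⁆ := by
    have hcop : Nat.Coprime 2 (orderOf x) := (hxodd.coprime_two_right).symm
    obtain ⟨m, hm⟩ := exists_pow_eq_self_of_coprime hcop
    rw [← hm, pow_two]
    exact Subgroup.pow_mem _ hxx m
  -- `K ≤ [K, J]`
  have hKD : K ≤ ⁅K, J⁆ := by
    have h2 : IsPGroup 2 ↥(K ⊓ Q) := hQ2.to_le inf_le_right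
    have hN : K ⊓ Q ≤ Subgroup.normalizer ((⁅K, J⁆ : Subgroup X) : Set X) :=
      inf_le_left.trans (le_normalizer_commutator K J)
    have hgen : ∀ g : X, g ∈ K → Odd (orderOf g) → g ∈ ⁅K, J⁆ := by
      intro g hg hodd
      apply Cfsg.Agent.H25.So.odd_mem_of_mem_sup (⁅K, J⁆) (K ⊓ Q) h2 hN g _ hodd
      obtain ⟨y, hy, z, hz, rfl⟩ := hRel g (hKR hg)
      obtain ⟨i, rfl⟩ := Subgroup.mem_zpowers_iff.mp hy
      have hyD : x ^ i ∈ ⁅K, J⁆ := Subgroup.zpow_mem _ hxD i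
      have hzK : z ∈ K := by
        have h3 : (x ^ i)⁻¹ * (x ^ i * z) ∈ K := K.mul_mem (K.inv_mem (hDK hyD)) hg
        rwa [inv_mul_cancel_left] at h3
      exact Subgroup.mul_mem_sup hyD (Subgroup.mem_inf.mpr ⟨hzK, hz⟩)
    have h4 : Subgroup.closure {g : X | g ∈ K ∧ Odd (orderOf g)} ≤ ⁅K, J⁆ := by
      rw [Subgroup.closure_le]
      intro g hg
      exact hgen g hg.1 hg.2
    rw [hKgen] at h4
    exact h4
  -- the index
  have hidx : (K ⊓ Q).relIndex K = 3 := by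
    rw [Subgroup.inf_relIndex_left]
    have hf3 : Fact (Nat.Prime 3) := ⟨by norm_num⟩
    have hnorm : (Q.subgroupOf K).Normal := Subgroup.normal_subgroupOf
    obtain ⟨ξ, hξ⟩ : ∃ ξ : ↥K ⧸ Q.subgroupOf K,
        ξ = QuotientGroup.mk (⟨x, hxK⟩ : ↥K) := ⟨_, rfl⟩
    have hξ3 : ξ ^ 3 = 1 := by
      rw [hξ, ← QuotientGroup.mk_pow, QuotientGroup.eq_one_iff, Subgroup.mem_subgroupOf]
      exact hx3
    have hξ1 : ξ ≠ 1 := by
      rw [hξ]
      intro h1
      rw [QuotientGroup.eq_one_iff, Subgroup.mem_subgroupOf] at h1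
      exact hxQ h1
    have hord : orderOf ξ = 3 := orderOf_eq_prime hξ3 hξ1
    have htop : Subgroup.zpowers ξ = ⊤ := by
      rw [eq_top_iff]
      intro c _
      induction c using QuotientGroup.induction_on with
      | H k =>
        obtain ⟨y, hy, z, hz, hyz⟩ := hRel (k : X) (hKR k.2)
        obtain ⟨i, rfl⟩ := Subgroup.mem_zpowers_iff.mp hy
        rw [Subgroup.mem_zpowers_iff]
        refine ⟨i, ?_⟩
        rw [hξ, ← QuotientGroup.mk_zpow, QuotientGroup.eq, Subgroup.mem_subgroupOf]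
        have e : (((⟨x, hxK⟩ : ↥K) ^ i)⁻¹ * k : ↥K) = ((x ^ i)⁻¹ * (k : X) : X) := by
          simp
        rw [e, ← hyz, inv_mul_cancel_left]
        exact hz
    have h5 : (Q.subgroupOf K).index = Nat.card (↥K ⧸ Q.subgroupOf K) := rfl
    unfold Subgroup.relIndex
    rw [h5, ← hord, ← Nat.card_zpowers, htop, Subgroup.card_top]
  exact ⟨K, hKgen, le_antisymm hDK hKD, hidx, hQN, hxK, by rw [← hR]; exact hKR⟩

example : ∀ {X : Type u} [Group X] [Finite X] (Q J : Subgroup X) (a x : X),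
  Q.Normal → IsPGroup 2 ↥Q → a ∈ J → Odd (orderOf x) → x ∉ Q → x ^ 3 ∈ Q →
  a * x * a⁻¹ = x⁻¹ →
  (∀ g ∈ J, g * x * g⁻¹ ∈ Subgroup.zpowers x ⊔ Q) →
  ∃ K : Subgroup X, Subgroup.closure {g : X | g ∈ K ∧ Odd (orderOf g)} = K ∧ ⁅K, J⁆ = K ∧
    (K ⊓ Q).relIndex K = 3 ∧ Q ≤ Subgroup.normalizer (K : Set X) ∧ x ∈ K ∧
    K ≤ Subgroup.zpowers x ⊔ Q := compB

end Cfsg.Agent.H25.Sx
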