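import Mathlib
import Cfsg.Agent.H83.AbIdxDefs
import Cfsg.Agent.H82.IndDeg
import Cfsg.Agent.H4.Chars
import Cfsg.Agent.H4.Induction
import Cfsg.Agent.H4.IrrCount

/-!
# S4463-L1 (helper25, for helper83's S4463 project)

If `ψ ∈ Irr(H)` has degree at least every irreducible degree of `G`, then `ψ` extends to `G`,
vanishes off the normal core of `H`, and the core has index at most `ψ(1)^2` in `H`.
-/

set_option autoImplicit false
set_option linter.style.haveILetI false

namespace Cfsg.Agent.H25.AbIdx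

open Cfsg Cfsg.Agent.H83.AbIdx
open scoped ComplexConjugate

universe u

theorem l1 (h : StmtL1Ext.{u}) : StmtL1.{u} := by
  intro G _ _ H ψ hb
  classical
  haveI : Fintype G := Fintype.ofFinite G
  haveI : Fintype H := Fintype.ofFinite H
  obtain ⟨hext, hval⟩ := h G H ψ hb
  refine ⟨hext, ?_⟩
  obtain ⟨Φ, hΦ⟩ : ∃ Φ : G → ℂ, Φ = indFun H ψ.1 := ⟨_, rfl⟩
  rw [← hΦ] at hval
  have hΦcf : IsClassFunction G Φ := by
    rw [hΦ]; exact Cfsg.Agent.H4.indFun_isClassFunction H ψ.1
  have hidx : H.index ≠ 0 := Subgroup.index_ne_zero_of_finite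
  have hidxC : (H.index : ℂ) ≠ 0 := by exact_mod_cast hidx
  have hGC : (Nat.card G : ℂ) ≠ 0 := by
    exact_mod_cast (Nat.card_pos (α := G)).ne'
  -- the norm of `Φ`
  have hnorm : classInner Φ Φ = (H.index : ℂ) := by
    have h1 := Cfsg.Agent.H4.frobenius_reciprocity H ψ.1 Φ hΦcf
    rw [← hΦ] at h1
    have hr : (fun h : H => Φ h) = (H.index : ℂ) • ψ.1 := by
      funext h; rw [hval h]; rfl
    rw [h1, hr, Cfsg.Agent.H4.classInner_smul_right, Complex.conj_natCast,
      Cfsg.Agent.H4.irr_inner_self, mul_one]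
  have hA : ∑ g : G, Complex.normSq (Φ g) = (H.index : ℝ) * Nat.card G := by
    have h1 : (Nat.card G : ℂ)⁻¹ * ∑ g : G, Φ g * conj (Φ g) = (H.index : ℂ) := hnorm
    have h2 : ∑ g : G, Φ g * conj (Φ g) = (H.index : ℂ) * Nat.card G := by
      rw [← h1]; field_simp
    have h3 : ((∑ g : G, Complex.normSq (Φ g) : ℝ) : ℂ) =
        (((H.index : ℝ) * Nat.card G : ℝ) : ℂ) := by
      push_cast
      rw [← h2]
      refine Finset.sum_congr rfl fun g _ => ?_
      rw [Complex.mul_conj]
    exact_mod_cast h3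
  have hψsq : ∑ h : H, Complex.normSq (ψ.1 h) = Nat.card H := by
    have h1 := Cfsg.Agent.H82.irr_norm_sq ψ
    have h3 : ((∑ h : H, Complex.normSq (ψ.1 h) : ℝ) : ℂ) = ((Nat.card H : ℝ) : ℂ) := by
      push_cast
      rw [← h1]
      refine Finset.sum_congr rfl fun g _ => ?_
      rw [Complex.mul_conj]
    exact_mod_cast h3
  have hB : ∑ h : H, Complex.normSq (Φ h) = (H.index : ℝ) ^ 2 * Nat.card H := by
    rw [← hψsq, Finset.mul_sum]
    refine Finset.sum_congr rfl fun h _ => ?_
    rw [hval h, Complex.normSq_mul, Complex.normSq_natCast]; ring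
  have hsplit : ∑ g : G, Complex.normSq (Φ g) = ∑ h : H, Complex.normSq (Φ h) +
      ∑ g ∈ Finset.univ.filter (fun g : G => g ∉ H), Complex.normSq (Φ g) := by
    rw [← Finset.sum_filter_add_sum_filter_not Finset.univ (fun g : G => g ∈ H)]
    congr 1
    exact Finset.sum_subtype (Finset.univ.filter (fun g : G => g ∈ H)) (by simp)
      (fun g => Complex.normSq (Φ g))
  have hvan : ∀ g : G, g ∉ H → Φ g = 0 := by
    intro g hg
    have hz : ∑ g ∈ Finset.univ.filter (fun g : G => g ∉ H), Complex.normSq (Φ g) = 0 := by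
      have hc : (Nat.card G : ℝ) = Nat.card H * H.index := by
        exact_mod_cast (Subgroup.card_mul_index H).symm
      rw [hA, hB, hc] at hsplit
      linarith
    have h0 := (Finset.sum_eq_zero_iff_of_nonneg (fun g _ => Complex.normSq_nonneg _)).mp hz g
      (by simp [hg])
    exact Complex.normSq_eq_zero.mp h0
  have hcore : ∀ h : H, (h : G) ∉ H.normalCore → ψ.1 h = 0 := by
    intro h hh
    have hx : ∃ x : G, x * (h : G) * x⁻¹ ∉ H := by
      by_contra hcon
      push Not at hcon
      exact hh hcon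
    obtain ⟨x, hx⟩ := hx
    have h1 : Φ (x * h * x⁻¹) = Φ h := hΦcf h x
    rw [hvan _ hx, hval h] at h1
    exact (mul_eq_zero.mp h1.symm).resolve_left hidxC
  refine ⟨hcore, ?_⟩
  -- the index bound
  obtain ⟨C, hC⟩ : ∃ C : Subgroup H, C = H.normalCore.subgroupOf H := ⟨_, rfl⟩
  haveI : Fintype C := Fintype.ofFinite C
  have hCcard : Nat.card C * H.normalCore.relIndex H = Nat.card H := by
    rw [hC]; exact Subgroup.card_mul_index (H.normalCore.subgroupOf H)
  have hbound : ∀ h : H, Complex.normSq (ψ.1 h) ≤ (charDegree ψ.1 : ℝ) ^ 2 := by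
    intro h
    obtain ⟨n, ρ, -, hχ, -, -, hd⟩ := Cfsg.Agent.H82.irr_rep ψ
    have hn := Cfsg.Agent.H4.character_norm_le ρ h
    rw [hχ, Module.finrank_fin_fun] at hn
    rw [hd, Complex.normSq_eq_norm_sq]
    exact pow_le_pow_left₀ (norm_nonneg _) hn 2
  have hle : (Nat.card H : ℝ) ≤ Nat.card C * (charDegree ψ.1 : ℝ) ^ 2 := by
    rw [← hψsq]
    calc ∑ h : H, Complex.normSq (ψ.1 h)
        = ∑ h ∈ Finset.univ.filter (fun h : H => h ∈ C), Complex.normSq (ψ.1 h) := by
          symm
          apply Finset.sum_subset (Finset.filter_subset _ _)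
          intro h _ hh
          have h2 : (h : G) ∉ H.normalCore := by
            intro h3
            apply hh
            rw [Finset.mem_filter]
            refine ⟨Finset.mem_univ _, ?_⟩
            rw [hC, Subgroup.mem_subgroupOf]
            exact h3
          rw [hcore h h2]; simp
      _ = ∑ c : C, Complex.normSq (ψ.1 c) :=
          Finset.sum_subtype (Finset.univ.filter (fun h : H => h ∈ C)) (by simp)
            (fun h => Complex.normSq (ψ.1 h))
      _ ≤ ∑ c : C, (charDegree ψ.1 : ℝ) ^ 2 := Finset.sum_le_sum fun c _ => hbound c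
      _ = Nat.card C * (charDegree ψ.1 : ℝ) ^ 2 := by
          rw [Finset.sum_const, Finset.card_univ, nsmul_eq_mul, Nat.card_eq_fintype_card]
  have hle' : Nat.card H ≤ Nat.card C * charDegree ψ.1 ^ 2 := by exact_mod_cast hle
  rw [← hCcard] at hle'
  exact Nat.le_of_mul_le_mul_left hle' Nat.card_pos

example (h : StmtL1Ext.{u}) : StmtL1.{u} := l1 h

end Cfsg.Agent.H25.AbIdx
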