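import Mathlib
import Cfsg.Agent.H83.AbIdxDefs
import Cfsg.Agent.H82.IndDeg
import Cfsg.Agent.H4.Chars
import Cfsg.Agent.H4.Induction
import Cfsg.Agent.H4.IrrCount

/-!
# S4463-L1EXT (helper25, for helper83's S4463 project)

A character `ψ` of `H` whose degree is at least every irreducible degree of `G` extends to `G`,
and the induced function restricts to `[G : H] ψ` on `H`.
-/

set_option autoImplicit false
set_option linter.style.haveILetI false

namespace Cfsg.Agent.H25.AbIdx

open Cfsg Cfsg.Agent.H83.AbIdx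
open scoped ComplexConjugate

universe u

/-- Every irreducible constituent of `ψ^G` restricts to `ψ`. -/
theorem l1Ext_res {G : Type u} [Group G] [Fintype G] (H : Subgroup G) [Fintype H]
    (ψ : IrrCharacter H)
    (hb : ∀ χ : IrrCharacter G, charDegree χ.1 ≤ charDegree ψ.1) (χ : IrrCharacter G)
    (hne : classInner (indFun H ψ.1) χ.1 ≠ 0) : ∀ h : H, χ.1 (h : G) = ψ.1 h := by
  classical
  rw [Cfsg.Agent.H4.frobenius_reciprocity H ψ.1 χ.1 (Cfsg.Agent.H4.irr_isClassFunction χ)] at hne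
  have hne' : classInner (fun h : H => χ.1 h) ψ.1 ≠ 0 := by
    rw [← Cfsg.Agent.H4.classInner_conj_symm]
    simpa using hne
  have hres : IsCharacter H (fun h : H => χ.1 h) :=
    Cfsg.Agent.H4.isCharacter_restrict H (Cfsg.Agent.H4.isCharacter_of_isIrrCharacter χ.2)
  obtain ⟨r, hr, hr0⟩ := Cfsg.Agent.H82.constituent_degree hres ψ hne'
  have h1 : χ.1 1 = (charDegree χ.1 : ℂ) := Cfsg.Agent.H82.irr_one_eq_charDegree χ
  have h2 : ψ.1 1 = (charDegree ψ.1 : ℂ) := Cfsg.Agent.H82.irr_one_eq_charDegree ψ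
  have h3 : (charDegree χ.1 : ℂ) = (charDegree ψ.1 : ℂ) + r := by
    rw [← h1, ← h2]; simpa using hr
  have h4 : charDegree χ.1 = charDegree ψ.1 + r := by exact_mod_cast h3
  have h5 : r = 0 := by have := hb χ; omega
  intro h
  exact congrFun (hr0 h5) h

theorem l1Ext : StmtL1Ext.{u} := by
  intro G _ _ H ψ hb
  classical
  haveI : Fintype H := Fintype.ofFinite H
  letI := Cfsg.Agent.H4.fintypeIrr G
  have hΦcf : IsClassFunction G (indFun H ψ.1) := Cfsg.Agent.H4.indFun_isClassFunction H ψ.1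
  have hdec := Cfsg.Agent.H4.classFunction_eq_finsum hΦcf
  have hval : ∀ h : H, indFun H ψ.1 (h : G) =
      (∑ χ : IrrCharacter G, classInner (indFun H ψ.1) χ.1) * ψ.1 h := by
    intro h
    conv_lhs => rw [hdec]
    rw [Cfsg.Agent.H4.finsum_irr_apply, Cfsg.Agent.H4.finsum_irr_eq_sum, Finset.sum_mul]
    refine Finset.sum_congr rfl fun χ _ => ?_
    by_cases hne : classInner (indFun H ψ.1) χ.1 = 0
    · rw [hne, zero_mul, zero_mul]
    · rw [l1Ext_res H ψ hb χ hne h]
  have hψ1 : ψ.1 1 ≠ 0 := Cfsg.Agent.H82.irr_one_ne_zero ψ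
  have hsum : (∑ χ : IrrCharacter G, classInner (indFun H ψ.1) χ.1) = (H.index : ℂ) := by
    have h1 := hval 1
    rw [show ((1 : H) : G) = 1 from rfl, Cfsg.Agent.H82.indFun_one] at h1
    exact (mul_right_cancel₀ hψ1 h1).symm
  refine ⟨?_, fun h => by rw [hval h, hsum]⟩
  by_contra hcon
  push Not at hcon
  have hz : ∀ χ : IrrCharacter G, classInner (indFun H ψ.1) χ.1 = 0 := by
    intro χ
    by_contra hne
    obtain ⟨h, hh⟩ := hcon χ
    exact hh (l1Ext_res H ψ hb χ hne h)
  have h0 : (H.index : ℂ) = 0 := by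
    rw [← hsum]; exact Finset.sum_eq_zero fun χ _ => hz χ
  have hidx : H.index ≠ 0 := Subgroup.index_ne_zero_of_finite
  exact hidx (by exact_mod_cast h0)

example : StmtL1Ext.{u} := l1Ext

end Cfsg.Agent.H25.AbIdx
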