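import Mathlib
import Cfsg.Agent.H46.B2F3Defs

/-!
# S2400-F3B (helper25, for helper46's S2400 project)

Over the field with three elements, every lift of `h` centralizes every lift of a long root
element.
-/

set_option autoImplicit false

namespace Cfsg.Agent.H25.B2F3

open Cfsg.Agent.H46.B2

universe u v w

/-- `3 = 0` in a field whose elements are `0, 1, -1` with `2 ≠ 0`. -/
theorem three_eq_zero {K : Type u} [Field K] (hK : ∀ t : K, t = 0 ∨ t = 1 ∨ t = -1)
    (h2 : (2 : K) ≠ 0) : (1 : K) + 1 + 1 = 0 := by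
  rcases hK (1 + 1) with h0 | h1 | hm
  · exfalso; apply h2; rw [← one_add_one_eq_two]; exact h0
  · exfalso
    have h : (1 : K) = 0 := by linear_combination h1
    exact one_ne_zero h
  · rw [hm]; ring

theorem pB : PB.{u, v, w} := by
  intro K _ G _ E _ ρ x h H q hq g e t hg he
  have hq8 : q < 8 := by simp at hq; omega
  have h3 : (1 : K) + 1 + 1 = 0 := three_eq_zero H.hK H.h2
  have hx0 : x q 0 = 1 := by
    have h0 := H.hx.add q hq8 0 0
    rw [add_zero] at h0
    exact mul_left_cancel (a := x q 0) (by rw [h0, mul_one])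
  have hx3 : x q t * x q t * x q t = 1 := by
    rw [H.hx.add q hq8, H.hx.add q hq8]
    have h0 : t + t + t = 0 := by linear_combination t * h3
    rw [h0, hx0]
  obtain ⟨ζ, hζ⟩ : ∃ ζ : E, ζ = g * e * g⁻¹ * e⁻¹ := ⟨_, rfl⟩
  have hζker : ζ ∈ ρ.ker := by
    rw [hζ, MonoidHom.mem_ker, map_mul, map_mul, map_mul, map_inv, map_inv, hg, he, H.hL q hq t]
    group
  have hcz := Subgroup.mem_center_iff.mp (H.hρc hζker)
  have hg2 : g * g ∈ Subgroup.center E :=
    H.hρc (by rw [MonoidHom.mem_ker, map_mul, hg, H.hh])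
  have he3 : e * e * e ∈ Subgroup.center E :=
    H.hρc (by rw [MonoidHom.mem_ker, map_mul, map_mul, he, hx3])
  have h1 : g * e * g⁻¹ = ζ * e := by rw [hζ]; group
  have hz2 : ζ * ζ = 1 := by
    have hc := Subgroup.mem_center_iff.mp hg2 e
    have e1 : g * (g * e * g⁻¹) * g⁻¹ = e := by
      calc g * (g * e * g⁻¹) * g⁻¹ = (g * g) * e * (g⁻¹ * g⁻¹) := by group
        _ = e * (g * g) * (g⁻¹ * g⁻¹) := by rw [hc]
        _ = e := by group
    rw [h1] at e1
    have e2 : g * (ζ * e) * g⁻¹ = ζ * (g * e * g⁻¹) := by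
      have h0 := hcz g
      calc g * (ζ * e) * g⁻¹ = (g * ζ) * e * g⁻¹ := by group
        _ = (ζ * g) * e * g⁻¹ := by rw [h0]
        _ = ζ * (g * e * g⁻¹) := by group
    rw [e2, h1] at e1
    have e3 : ζ * ζ * e = e := by rw [mul_assoc]; exact e1
    exact mul_right_cancel (b := e) (by rw [e3, one_mul])
  have hz3 : ζ * ζ * ζ = 1 := by
    have hc := Subgroup.mem_center_iff.mp he3 g
    have e1 : g * (e * e * e) * g⁻¹ = e * e * e := by rw [hc]; group
    have e2 : g * (e * e * e) * g⁻¹ = (g * e * g⁻¹) * (g * e * g⁻¹) * (g * e * g⁻¹) := by group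
    rw [e2, h1] at e1
    have hze := hcz e
    have e3 : ζ * e * (ζ * e) * (ζ * e) = ζ * ζ * ζ * (e * e * e) := by
      calc ζ * e * (ζ * e) * (ζ * e) = ζ * (e * ζ) * e * (ζ * e) := by group
        _ = ζ * (ζ * e) * e * (ζ * e) := by rw [hze]
        _ = ζ * ζ * e * (e * ζ) * e := by group
        _ = ζ * ζ * e * (ζ * e) * e := by rw [hze]
        _ = ζ * ζ * (e * ζ) * e * e := by group
        _ = ζ * ζ * (ζ * e) * e * e := by rw [hze]
        _ = ζ * ζ * ζ * (e * e * e) := by group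
    rw [e3] at e1
    exact mul_right_cancel (b := e * e * e) (by rw [e1, one_mul])
  have hz1 : ζ = 1 := by
    calc ζ = ζ * ζ * ζ * (ζ * ζ)⁻¹ := by group
      _ = 1 := by rw [hz3, hz2]; group
  rw [h1, hz1, one_mul]

example : PB.{u, v, w} := pB

end Cfsg.Agent.H25.B2F3
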