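import Mathlib
import Cfsg.Agent.H46.B2F3Defs
import Cfsg.Agent.H25.B2F3B

/-!
# S2400-F3C (helper25, for helper46's S2400 project)

Over the field with three elements, the short root lifts commute with every lift of a long root
element at 45°.
-/

set_option autoImplicit false

namespace Cfsg.Agent.H25.B2F3

open Cfsg.Agent.H46.B2

universe u v w

theorem pC : PC.{u, v, w} := by
  intro K _ G _ E _ ρ x h Y H hSh hFix s hs l hl hterms e t u he
  obtain ⟨hYρ, hYadd, hYinv⟩ := hSh s hs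
  have hs8 : s < 8 := by simp at hs; omega
  have hl8 : l < 8 := by simp at hl; omega
  have hls : l ≠ s := by simp at hs hl; omega
  have hls' : l ≠ 7 - s := by simp at hs hl; omega
  have h3 : (1 : K) + 1 + 1 = 0 := three_eq_zero H.hK H.h2
  have hY0 : Y s 0 = 1 := by
    have h0 := hYadd 0 0
    rw [add_zero] at h0
    exact mul_left_cancel (a := Y s 0) (by rw [← h0, mul_one])
  have hcommG : ∀ t' : K, x l u * x s t' = x s t' * x l u := by
    intro t'
    have h0 := H.hx.comm s hs8 l hl8 hls hls' t' u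
    unfold word at h0
    rw [hterms] at h0
    simp only [List.map_nil, List.prod_nil] at h0
    calc x l u * x s t' = x s t' * x l u * ((x l u)⁻¹ * (x s t')⁻¹ * x l u * x s t') := by group
      _ = x s t' * x l u := by rw [h0, mul_one]
  obtain ⟨f, hf⟩ : ∃ f : K → E, ∀ t' : K, f t' = e * Y s t' * e⁻¹ * (Y s t')⁻¹ :=
    ⟨fun t' => e * Y s t' * e⁻¹ * (Y s t')⁻¹, fun _ => rfl⟩
  have hfc : ∀ (t' : K) (g : E), g * f t' = f t' * g := by
    intro t'
    apply Subgroup.mem_center_iff.mp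
    apply H.hρc
    rw [hf, MonoidHom.mem_ker]
    simp only [map_mul, map_inv, he, hYρ]
    rw [hcommG t']; group
  have hfadd : ∀ a b : K, f (a + b) = f a * f b := by
    intro a b
    have hcb := hfc b (Y s a)⁻¹
    calc f (a + b) = e * (Y s a * Y s b) * e⁻¹ * (Y s a * Y s b)⁻¹ := by rw [hf, hYadd]
      _ = e * Y s a * e⁻¹ * (e * Y s b * e⁻¹ * (Y s b)⁻¹) * (Y s a)⁻¹ := by group
      _ = e * Y s a * e⁻¹ * (f b * (Y s a)⁻¹) := by rw [← hf b]; group
      _ = e * Y s a * e⁻¹ * ((Y s a)⁻¹ * f b) := by rw [hcb]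
      _ = f a * f b := by rw [hf a]; group
  have hf0 : f 0 = 1 := by rw [hf, hY0]; group
  have heven : ∀ t' : K, f (-t') = f t' := by
    intro t'
    obtain ⟨g, hg⟩ := H.hl
    have h1 : g * e * g⁻¹ = e := hFix l hl g e u hg he
    have h2 : g * Y s t' * g⁻¹ = Y s (-t') := hYinv g t' hg
    have h4 : g * f t' * g⁻¹ = f t' := by rw [hfc t' g]; group
    calc f (-t') = e * Y s (-t') * e⁻¹ * (Y s (-t'))⁻¹ := hf _
      _ = (g * e * g⁻¹) * (g * Y s t' * g⁻¹) * (g * e * g⁻¹)⁻¹ * (g * Y s t' * g⁻¹)⁻¹ := by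
          rw [h1, h2]
      _ = g * (e * Y s t' * e⁻¹ * (Y s t')⁻¹) * g⁻¹ := by group
      _ = g * f t' * g⁻¹ := by rw [← hf t']
      _ = f t' := h4
  have hz2 : f t * f t = 1 := by
    have h0 := hfadd t (-t)
    rw [add_neg_cancel, hf0, heven t] at h0
    exact h0.symm
  have hz3 : f t * f t * f t = 1 := by
    rw [← hfadd, ← hfadd]
    have h0 : t + t + t = 0 := by linear_combination t * h3
    rw [h0, hf0]
  have hz1 : f t = 1 := by
    calc f t = f t * f t * f t * (f t * f t)⁻¹ := by group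
      _ = 1 := by rw [hz3, hz2]; group
  rw [hf] at hz1
  calc Y s t * e = (e * Y s t * e⁻¹ * (Y s t)⁻¹)⁻¹ * (e * Y s t) := by group
    _ = e * Y s t := by rw [hz1, inv_one, one_mul]

example : PC.{u, v, w} := pC

end Cfsg.Agent.H25.B2F3
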