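import Mathlib
import Cfsg.Agent.Lib.Helper30.BG12TDefs
import Cfsg.Agent.H28.Coprime

/-!
# BG12T-GEN (helper25, for helper30's S1422/S1423 project)

A `p'`-subgroup `Q` normalized by a nonabelian group `P₁` of order `p³` and exponent `p` whose
centre centralizes `Q` lies in `L` as soon as `L` contains `C_Q(u)` for every noncentral
`u ∈ P₁`.  Proof: inside `Perm Q`, the left translations by `Q` are normalized by the
conjugations by `P₁`, which form an elementary abelian group of order `p²`; apply the
generation theorem `H28.le_iSup_hyperplane_centralizers` there.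
-/

set_option autoImplicit false

namespace Cfsg.Agent.H25.BG12T

open Cfsg Subgroup Cfsg.Agent.H58.BG10 Cfsg.Agent.H57.BG12 Cfsg.Agent.Lib.Helper30.BG12T

universe u

variable {G : Type u} [Group G] [Finite G]

theorem gen : StGen G := by
  intro p _ P₁ Q L hcard hexp hnc hnorm hQ hZ hL
  classical
  have hp : p.Prime := Fact.out
  have hconj : ∀ u ∈ P₁, ∀ q ∈ Q, u * q * u⁻¹ ∈ Q := fun u hu q hq =>
    ((Subgroup.mem_normalizer_iff.mp (hnorm hu)) q).mp hq
  have hconj' : ∀ u ∈ P₁, ∀ q ∈ Q, u⁻¹ * q * u ∈ Q := fun u hu q hq => by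
    have := hconj u⁻¹ (P₁.inv_mem hu) q hq
    simpa using this
  obtain ⟨c, hc⟩ : ∃ c : ↥P₁ →* Equiv.Perm ↥Q, ∀ (u : ↥P₁) (q : ↥Q),
      ((c u q : ↥Q) : G) = (u : G) * q * (u : G)⁻¹ := by
    refine ⟨{ toFun := fun u =>
                { toFun := fun q => ⟨(u : G) * q * (u : G)⁻¹, hconj u u.2 q q.2⟩
                  invFun := fun q => ⟨(u : G)⁻¹ * q * (u : G), hconj' u u.2 q q.2⟩
                  left_inv := fun q => Subtype.ext (by simp [mul_assoc])
                  right_inv := fun q => Subtype.ext (by simp [mul_assoc]) }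
              map_one' := by ext q; simp
              map_mul' := fun u v => by ext q; simp [mul_assoc] }, fun u q => rfl⟩
  obtain ⟨lam, hlam⟩ : ∃ lam : ↥Q →* Equiv.Perm ↥Q, ∀ q x : ↥Q, lam q x = q * x :=
    ⟨MulAction.toPermHom ↥Q ↥Q, fun q x => rfl⟩
  have hlam_inj : Function.Injective lam := by
    intro q q' h
    have h1 := congrArg (fun σ : Equiv.Perm ↥Q => σ 1) h
    simpa [hlam] using h1
  have hcmul : ∀ (u : ↥P₁) (a b : ↥Q), c u (a * b) = c u a * c u b := by
    intro u a b
    apply Subtype.ext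
    rw [Subgroup.coe_mul, hc, hc, hc, Subgroup.coe_mul]
    group
  have hcl : ∀ (u : ↥P₁) (q : ↥Q), c u * lam q * (c u)⁻¹ = lam (c u q) := by
    intro u q
    ext x
    simp only [Equiv.Perm.coe_mul, Function.comp_apply]
    rw [hlam, hlam, hcmul]
    simp
  have hZker : ∀ u : ↥P₁, (u : G) ∈ centralizer (P₁ : Set G) → c u = 1 := by
    intro u hu
    ext q
    rw [hc]
    have h1 := hZ u ⟨u.2, hu⟩ q q.2
    rw [h1]
    simp
  by_cases hA : ∃ u : ↥P₁, (u : G) ∉ centralizer (P₁ : Set G) ∧ c u = 1
  · obtain ⟨u, hu, hcu⟩ := hA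
    intro q hq
    apply hL u u.2 hu
    refine ⟨hq, ?_⟩
    show q ∈ centralizer ({(u : G)} : Set G)
    rw [Subgroup.mem_centralizer_iff]
    intro h hh
    rw [Set.mem_singleton_iff] at hh
    subst hh
    have h1 := hc u ⟨q, hq⟩
    rw [hcu] at h1
    have h2 : q = (u : G) * q * (u : G)⁻¹ := by simpa using h1
    calc (u : G) * q = ((u : G) * q * (u : G)⁻¹) * u := by group
      _ = q * u := by rw [← h2]
  · push Not at hA
    have hker : c.ker ≤ Subgroup.center ↥P₁ := by
      intro u hu
      rw [MonoidHom.mem_ker] at hu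
      have h1 : (u : G) ∈ centralizer (P₁ : Set G) := by
        by_contra h2
        exact hA u h2 hu
      rw [Subgroup.mem_center_iff]
      intro v
      apply Subtype.ext
      rw [Subgroup.coe_mul, Subgroup.coe_mul]
      exact (Subgroup.mem_centralizer_iff.mp h1) v v.2
    have hP : IsPGroup p ↥P₁ := IsPGroup.of_card hcard
    have hnt : Nontrivial ↥P₁ := by
      rw [← Finite.one_lt_card_iff_nontrivial, hcard]
      exact Nat.one_lt_pow (by norm_num) hp.one_lt
    have hcen := hP.center_nontrivial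
    obtain ⟨z, hz1⟩ := exists_ne (1 : Subgroup.center ↥P₁)
    have hzker : (z : ↥P₁) ∈ c.ker := by
      rw [MonoidHom.mem_ker]
      apply hZker
      rw [Subgroup.mem_centralizer_iff]
      intro v hv
      have h1 := (Subgroup.mem_center_iff.mp z.2) ⟨v, hv⟩
      exact congrArg Subtype.val h1
    have hkc : Nat.card c.ker * Nat.card c.range = p ^ 3 := by
      rw [← Subgroup.index_ker, Subgroup.card_mul_index, hcard]
    have hker1 : 1 < Nat.card c.ker := by
      rw [Finite.one_lt_card_iff_nontrivial]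
      refine ⟨⟨⟨(z : ↥P₁), hzker⟩, 1, fun h => hz1 ?_⟩⟩
      apply Subtype.ext
      exact congrArg (fun x : c.ker => (x : ↥P₁)) h
    obtain ⟨k, hk3, hk⟩ : ∃ k ≤ 3, Nat.card c.range = p ^ k :=
      (Nat.dvd_prime_pow hp).mp (Dvd.intro_left _ hkc)
    have hk2 : k = 2 := by
      have h3 : k ≠ 3 := by
        rintro rfl
        rw [hk] at hkc
        have h1 : Nat.card c.ker = 1 := by
          have hpos : 0 < p ^ 3 := pow_pos hp.pos 3
          exact Nat.eq_of_mul_eq_mul_right hpos (by rw [hkc, one_mul])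
        omega
      have h01 : ¬ k ≤ 1 := by
        intro hk1
        have hcyc : IsCyclic c.range := by
          rcases Nat.lt_or_ge k 1 with h0 | h1
          · have hk0 : k = 0 := by omega
            rw [hk0, pow_zero] at hk
            have hsub : Subsingleton c.range := (Nat.card_eq_one_iff_unique.mp hk).1
            exact isCyclic_of_subsingleton
          · have hk1' : k = 1 := by omega
            rw [hk1', pow_one] at hk
            exact isCyclic_of_prime_card hk
        have hcomm := c.rangeRestrict.isMulCommutative_of_isCyclic_of_ker_le_center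
          (by rw [MonoidHom.ker_rangeRestrict]; exact hker)
        exact hnc hcomm
      omega
    rw [hk2] at hk
    have hBel : IsElementaryAbelian p c.range := by
      refine ⟨IsPGroup.isMulCommutative_of_card_eq_prime_sq hk, ?_⟩
      rintro a ⟨u, rfl⟩
      rw [← map_pow]
      have h1 : u ^ p = 1 := Subtype.ext (by simpa using hexp u u.2)
      rw [h1, map_one]
    have hXcard : Nat.card lam.range = Nat.card ↥Q :=
      (Nat.card_congr (MonoidHom.ofInjective hlam_inj).toEquiv).symm
    have hXp : ¬ p ∣ Nat.card lam.range := by rw [hXcard]; exact hQ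
    have hBX : c.range ≤ normalizer (lam.range : Set (Equiv.Perm ↥Q)) := by
      rintro b ⟨u, rfl⟩
      rw [Subgroup.mem_normalizer_iff]
      intro x
      constructor
      · rintro ⟨q, rfl⟩
        exact ⟨c u q, (hcl u q).symm⟩
      · rintro ⟨q, hq⟩
        refine ⟨c u⁻¹ q, ?_⟩
        rw [← hcl u⁻¹ q, hq, map_inv]
        group
    have hgen := Cfsg.Agent.H28.le_iSup_hyperplane_centralizers p c.range lam.range hBel
      (by rw [hk]) hXp hBX
    have hterm : ∀ D : {D : Subgroup (Equiv.Perm ↥Q) // D ≤ c.range ∧ D.relIndex c.range = p},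
        lam.range ⊓ centralizer ((D : Subgroup (Equiv.Perm ↥Q)) : Set (Equiv.Perm ↥Q)) ≤
          (L.subgroupOf Q).map lam := by
      rintro ⟨D, hDB, hDrel⟩ x ⟨⟨q, rfl⟩, hxc⟩
      have hDne : D ≠ ⊥ := by
        rintro rfl
        rw [Subgroup.relIndex_bot_left, hk] at hDrel
        have h1 := hp.one_lt
        nlinarith
      obtain ⟨⟨d, hdD⟩, hd1⟩ := (Subgroup.ne_bot_iff_exists_ne_one).mp hDne
      obtain ⟨u, rfl⟩ := hDB hdD
      have hcu1 : c u ≠ 1 := fun h => hd1 (Subtype.ext h)
      have hu : (u : G) ∉ centralizer (P₁ : Set G) := fun h => hcu1 (hZker u h)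
      have hcomm : c u * lam q = lam q * c u := (Subgroup.mem_centralizer_iff.mp hxc) (c u) hdD
      have h1 : lam (c u q) = lam q := by
        rw [← hcl, hcomm]; group
      have h2 : c u q = q := hlam_inj h1
      have h3 : (u : G) * q * (u : G)⁻¹ = q := by rw [← hc, h2]
      refine ⟨q, ?_, rfl⟩
      show q ∈ L.subgroupOf Q
      rw [Subgroup.mem_subgroupOf]
      apply hL u u.2 hu
      refine ⟨q.2, ?_⟩
      show (q : G) ∈ centralizer ({(u : G)} : Set G)
      rw [Subgroup.mem_centralizer_iff]
      intro h hh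
      rw [Set.mem_singleton_iff] at hh
      subst hh
      calc (u : G) * q = ((u : G) * q * (u : G)⁻¹) * u := by group
        _ = q * u := by rw [h3]
    intro q hq
    have h1 : lam ⟨q, hq⟩ ∈ lam.range := ⟨_, rfl⟩
    obtain ⟨q', hq'L, hq'⟩ := (hgen.trans (iSup_le hterm)) h1
    have h2 := hlam_inj hq'
    rw [h2] at hq'L
    exact Subgroup.mem_subgroupOf.mp hq'L

example : StGen G := gen

end Cfsg.Agent.H25.BG12T
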