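import Mathlib
import Cfsg.Agent.Lib.Helper30.BG134Defs
import Cfsg.Agent.H57.BG126
import Cfsg.Agent.H73.BG129B
import Cfsg.Agent.Lib.Helper30.CoprimeIface
import Cfsg.Agent.Lib.Helper30.CoprimeAb
import Cfsg.Agent.S0027

/-!
# B&G 13.4 (S1428), piece BG134-SETUP (helper25 for helper30)

A counterexample inside a normal subgroup `N ≤ M_σ` of `M` yields a configuration with `Q1 ≤ N`.
-/

set_option autoImplicit false

namespace Cfsg.Agent.H25.BG134

open Cfsg Subgroup Cfsg.Agent.H58.BG10 Cfsg.Agent.Lib.Helper30.BG134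
open scoped commutatorElement

universe u

variable {G : Type u} [Group G]

/-- A subgroup of prime order is commutative. -/
theorem comm_of_prime_card {H : Subgroup G} (h : (Nat.card H).Prime) :
    ∀ a ∈ H, ∀ b ∈ H, a * b = b * a := by
  have : Fact (Nat.card H).Prime := ⟨h⟩
  have hc : IsCyclic H := isCyclic_of_prime_card rfl
  letI := IsCyclic.commGroup (α := H)
  intro a ha b hb
  exact congrArg Subtype.val (mul_comm (⟨a, ha⟩ : H) ⟨b, hb⟩)

/-- Two commuting commutative subgroups generate a commutative subgroup. -/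
theorem comm_sup (P R : Subgroup G) (hP : ∀ a ∈ P, ∀ b ∈ P, a * b = b * a)
    (hR : ∀ a ∈ R, ∀ b ∈ R, a * b = b * a) (hRP : R ≤ centralizer (P : Set G)) :
    ∀ a ∈ P ⊔ R, ∀ b ∈ P ⊔ R, a * b = b * a := by
  have h1 : P ⊔ R ≤ centralizer (P : Set G) :=
    sup_le (fun a ha => Subgroup.mem_centralizer_iff.mpr (fun b hb => hP b hb a ha)) hRP
  have h2 : P ⊔ R ≤ centralizer (R : Set G) :=
    sup_le (Subgroup.le_centralizer_iff.mp hRP)
      (fun a ha => Subgroup.mem_centralizer_iff.mpr (fun b hb => hR b hb a ha))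
  have h3 : P ⊔ R ≤ centralizer ((P ⊔ R : Subgroup G) : Set G) :=
    sup_le (Subgroup.le_centralizer_iff.mp h1) (Subgroup.le_centralizer_iff.mp h2)
  intro a ha b hb
  exact Subgroup.mem_centralizer_iff.mp (h3 hb) a ha

/-- In a commutative join, the exponent is inherited from the two factors. -/
theorem exp_sup (P R : Subgroup G) (p : ℕ)
    (hcomm : ∀ a ∈ P ⊔ R, ∀ b ∈ P ⊔ R, a * b = b * a)
    (hP : ∀ a ∈ P, a ^ p = 1) (hR : ∀ a ∈ R, a ^ p = 1) : ∀ a ∈ P ⊔ R, a ^ p = 1 := by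
  let K : Subgroup G :=
    { carrier := {a | a ∈ P ⊔ R ∧ a ^ p = 1}
      mul_mem' := by
        rintro a b ⟨ha, ha'⟩ ⟨hb, hb'⟩
        refine ⟨(P ⊔ R).mul_mem ha hb, ?_⟩
        have hc : Commute a b := hcomm a ha b hb
        rw [hc.mul_pow, ha', hb', one_mul]
      one_mem' := ⟨(P ⊔ R).one_mem, one_pow p⟩
      inv_mem' := by
        rintro a ⟨ha, ha'⟩
        exact ⟨(P ⊔ R).inv_mem ha, by rw [inv_pow, ha', inv_one]⟩ }
  have hK : P ⊔ R ≤ K :=
    sup_le (fun x hx => ⟨le_sup_left (a := P) (b := R) hx, hP x hx⟩)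
      (fun x hx => ⟨le_sup_right (a := P) (b := R) hx, hR x hx⟩)
  intro a ha
  exact (hK ha).2

/-- A subgroup `C` containing a Sylow `q`-subgroup of `Y` for every prime `q` contains `Y`. -/
theorem le_of_forall_sylow_le [Finite G] (Y C : Subgroup G)
    (h : ∀ (q : ℕ) [Fact q.Prime], ∃ Q : Sylow q Y, (Q : Subgroup Y).map Y.subtype ≤ C) :
    Y ≤ C := by
  have h1 : (C.subgroupOf Y).index = 1 := by
    by_contra hne
    obtain ⟨q, hq, hqd⟩ := Nat.exists_prime_and_dvd hne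
    haveI : Fact q.Prime := ⟨hq⟩
    obtain ⟨Q, hQ⟩ := h q
    have hle : (Q : Subgroup Y) ≤ C.subgroupOf Y := by
      intro y hy
      rw [Subgroup.mem_subgroupOf]
      exact hQ ⟨y, hy, rfl⟩
    have hdvd : (C.subgroupOf Y).index ∣ (Q : Subgroup Y).index := Subgroup.index_dvd_of_le hle
    exact Q.not_dvd_index (hqd.trans hdvd)
  exact Subgroup.subgroupOf_eq_top.mp (Subgroup.index_eq_one.mp h1)

/-- Coprime action of `R` on a commutative `Q`: the commutator `[Q, R]`. -/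
theorem comm_props [Finite G] (Q R : Subgroup G) (hRQ : R ≤ normalizer (Q : Set G))
    (hcop : (Nat.card R).Coprime (Nat.card Q))
    (hsolv : Group.IsSolvable R ∨ Group.IsSolvable Q)
    (hab : ∀ a ∈ Q, ∀ b ∈ Q, a * b = b * a) :
    ⁅Q, R⁆ ≤ Q ∧ R ≤ normalizer ((⁅Q, R⁆ : Subgroup G) : Set G) ∧
      ⁅Q, R⁆ ⊓ centralizer (R : Set G) = ⊥ ∧ ⁅Q, R⁆ ≤ ⁅⁅Q, R⁆, R⁆ := by
  have h1 : ⁅Q, R⁆ ≤ Q := by
    rw [Subgroup.commutator_le]
    intro a ha r hr
    have e1 : ⁅a, r⁆ = a * (r * a⁻¹ * r⁻¹) := by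
      rw [commutatorElement_def]
      group
    rw [e1]
    exact Q.mul_mem ha ((Subgroup.mem_normalizer_iff.mp (hRQ hr) a⁻¹).mp (Q.inv_mem ha))
  have h2 : R ≤ normalizer ((⁅Q, R⁆ : Subgroup G) : Set G) :=
    Cfsg.Agent.H1.le_normalizer_commutator R Q R hRQ Subgroup.le_normalizer
  have h4 : ⁅⁅Q, R⁆, R⁆ = ⁅Q, R⁆ := Cfsg.Agent.S0027.result R Q hRQ hcop hsolv
  have hbotN : ∀ X : Subgroup G, X ≤ normalizer ((⊥ : Subgroup G) : Set G) := by
    intro X
    have : normalizer ((⊥ : Subgroup G) : Set G) = ⊤ :=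
      Subgroup.normalizer_eq_top_iff.mpr inferInstance
    rw [this]
    exact le_top
  refine ⟨h1, h2, ?_, h4.ge⟩
  rw [eq_bot_iff]
  intro k hk
  refine Cfsg.Agent.Lib.Helper30.mem_of_fixed_of_abelian_section (A := R) (D := ⁅Q, R⁆)
    (M := ⊥) h2 (hbotN R) (hbotN _) bot_le ?_ ?_ ?_ hk.1 ?_
  · rw [Subgroup.commutator_le]
    intro a ha b hb
    rw [Subgroup.mem_bot, commutatorElement_eq_one_iff_mul_comm]
    exact hab a (h1 ha) b (h1 hb)
  · exact hcop.coprime_dvd_right (Subgroup.card_dvd_of_le h1)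
  · rw [h4]
    exact le_sup_left
  · intro a ha
    rw [Subgroup.mem_bot]
    have e1 : a * k = k * a := Subgroup.mem_centralizer_iff.mp hk.2 a ha
    rw [e1]
    group

/-- BG134-SETUP. -/
theorem setup [Finite G] (hG : IsMinSimpleOddOrder G) (h50 : St1350 G) (h22 : St1422 G)
    (hLA : StLA G) : StSetup G := by
  intro M E P R N p hM hE hp hPE hPc hRE hRprime hNσ hMN hnot
  have hp' := hp
  obtain ⟨hp_prime, hpσ, hpM, hpM', hprank⟩ := hp'
  haveI : Fact p.Prime := ⟨hp_prime⟩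
  have hEM : E ≤ M := hE.1
  have hσM : sigmaCore M ≤ M := hE.2.1
  have hPM : P ≤ M := hPE.trans hEM
  have hRE' : R ≤ E := fun x hx => (hRE hx).1
  have hRP : R ≤ centralizer (P : Set G) := fun x hx => (hRE hx).2
  have hRM : R ≤ M := hRE'.trans hEM
  obtain ⟨h50a, h50b, -⟩ := h50 M hM
  -- `r ∉ σ(M)`
  have hrσ : Nat.card R ∉ sigma M := by
    intro hr
    apply h50a.2.2 (Nat.card R) hRprime hr
    rw [← Cfsg.Agent.H73.BG12.card_eq_relIndex_of_isComplIn hE]
    exact Subgroup.card_dvd_of_le hRE'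
  -- `r ≠ p`
  have hrp : Nat.card R ≠ p := by
    intro hrp
    by_cases hRPeq : R = P
    · apply hnot
      rw [hRPeq]
      exact inf_le_right
    · apply hRPeq
      have hPcomm : ∀ a ∈ P, ∀ b ∈ P, a * b = b * a := comm_of_prime_card (by rw [hPc]; exact hp_prime)
      have hRcomm : ∀ a ∈ R, ∀ b ∈ R, a * b = b * a := comm_of_prime_card hRprime
      have hAcomm := comm_sup P R hPcomm hRcomm hRP
      have hPexp : ∀ a ∈ P, a ^ p = 1 := by
        intro a ha
        have := pow_card_eq_one' (G := P) (x := ⟨a, ha⟩)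
        rw [hPc] at this
        exact congrArg Subtype.val this
      have hRexp : ∀ a ∈ R, a ^ p = 1 := by
        intro a ha
        have := pow_card_eq_one' (G := R) (x := ⟨a, ha⟩)
        rw [hrp] at this
        exact congrArg Subtype.val this
      have hAexp := exp_sup P R p hAcomm hPexp hRexp
      have hAM : P ⊔ R ≤ M := sup_le hPM hRM
      have hcardA : Nat.card ↥(P ⊔ R) ≤ p ^ 1 := by
        have h1 := hprank ((P ⊔ R).subgroupOf M)
          ⟨⟨fun a b => Subtype.ext (Subtype.ext (hAcomm a.1.1 a.2 b.1.1 b.2))⟩⟩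
          (fun a ha => Subtype.ext (hAexp a.1 ha))
        rwa [Nat.card_congr (Subgroup.subgroupOfEquivOfLe hAM).toEquiv] at h1
      rw [pow_one] at hcardA
      have hPA : P ≤ P ⊔ R := le_sup_left
      have hPeqA : P = P ⊔ R :=
        Subgroup.eq_of_le_of_card_ge hPA (by rw [hPc]; exact hcardA)
      have hRleP : R ≤ P := by
        rw [hPeqA]
        exact le_sup_right
      exact Subgroup.eq_of_le_of_card_ge hRleP (by rw [hPc, hrp])
  -- a maximal subgroup over `N_G(P)`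
  have hP1 : P ≠ ⊥ := by
    intro h
    rw [h, Subgroup.card_bot] at hPc
    exact hp_prime.one_lt.ne' hPc.symm
  have hPtop : P ≠ ⊤ := fun h => hM.1 (top_le_iff.mp (h ▸ hPM))
  have hNtop : normalizer (P : Set G) ≠ ⊤ :=
    Cfsg.Agent.H51.BG10.normalizer_ne_top_of_ne hG hP1 hPtop
  obtain ⟨H, hH, hNH⟩ := Cfsg.Agent.H57.BG12.exists_coatom_ge hNtop
  obtain ⟨hnc, hY⟩ := hLA M H P p hM hH hp hPM hPc hNH
  -- `Y = N ∩ C(P)`
  obtain ⟨Y, hYdef⟩ : ∃ Y : Subgroup G, Y = N ⊓ centralizer (P : Set G) := ⟨_, rfl⟩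
  have hRY : R ≤ normalizer (Y : Set G) := by
    intro x hx
    have h1 := hMN (hRM hx)
    have h2 : x ∈ normalizer ((centralizer (P : Set G) : Subgroup G) : Set G) :=
      Subgroup.le_normalizer (hRP hx)
    rw [Subgroup.mem_normalizer_iff] at h1 h2 ⊢
    intro y
    rw [hYdef, Subgroup.mem_inf, Subgroup.mem_inf, h1 y, h2 y]
  have hYN : Y ≤ N := by
    rw [hYdef]
    exact inf_le_left
  have hYP : Y ≤ centralizer (P : Set G) := by
    rw [hYdef]
    exact inf_le_right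
  have hYσ : Y ≤ sigmaCore M := hYN.trans hNσ
  have hcop : (Nat.card R).Coprime (Nat.card Y) := by
    rw [Nat.Prime.coprime_iff_not_dvd hRprime]
    intro hd
    exact hrσ (h50a.2.1 _ hRprime (hd.trans (Subgroup.card_dvd_of_le hYσ)))
  have hRcomm : ∀ a ∈ R, ∀ b ∈ R, a * b = b * a := comm_of_prime_card hRprime
  have hsolvR : Group.IsSolvable R :=
    Group.isSolvable_of_comm (fun a b => Subtype.ext (hRcomm a a.2 b b.2))
  -- an `R`-invariant Sylow subgroup of `Y` not centralized by `R`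
  have hex : ∃ (q : ℕ) (Q : Subgroup G), q.Prime ∧ Q ≤ Y ∧ IsPGroup q Q ∧
      R ≤ normalizer (Q : Set G) ∧ ¬ Q ≤ centralizer (R : Set G) := by
    by_contra hcon
    push Not at hcon
    apply hnot
    rw [← hYdef]
    apply le_of_forall_sylow_le Y
    intro q hqf
    obtain ⟨Q, hQ⟩ := Cfsg.Agent.Lib.Helper30.coprime_exists_invariant_sylow R Y hRY hcop
      (Or.inl hsolvR) q
    exact ⟨Q, hcon q _ hqf.out (Subgroup.map_subtype_le _) (Q.isPGroup'.map _) hQ⟩
  obtain ⟨q, Q, hq, hQY, hQq, hRQ, hQR⟩ := hex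
  haveI : Fact q.Prime := ⟨hq⟩
  have hQM : Q ≤ M := hQY.trans (hYσ.trans hσM)
  have hYH : Y ≤ H := hYP.trans ((Subgroup.centralizer_le_normalizer _).trans hNH)
  have hQH : Q ≤ H := hQY.trans hYH
  have hHM : H ≠ M := by
    intro h
    apply hnc 1
    rw [h]
    ext x
    simp
  have hQab : IsMulCommutative Q := by
    by_contra hnab
    obtain ⟨L, -, huniq⟩ := h22 q Q hQq hnab
    have e1 := huniq M ⟨hM, hQM⟩
    have e2 := huniq H ⟨hH, hQH⟩
    exact hHM (e2.trans e1.symm)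
  have hcopQ : (Nat.card R).Coprime (Nat.card Q) :=
    hcop.coprime_dvd_right (Subgroup.card_dvd_of_le hQY)
  have habQ : ∀ a ∈ Q, ∀ b ∈ Q, a * b = b * a := fun a ha b hb =>
    congrArg Subtype.val (hQab.is_comm.comm (⟨a, ha⟩ : Q) ⟨b, hb⟩)
  obtain ⟨h1, h2, h3, h4⟩ := comm_props Q R hRQ hcopQ (Or.inl hsolvR) habQ
  have hQ1ne : (⁅Q, R⁆ : Subgroup G) ≠ ⊥ := fun h =>
    hQR (Subgroup.commutator_eq_bot_iff_le_centralizer.mp h)
  have hQ1q : IsPGroup q (⁅Q, R⁆ : Subgroup G) := hQq.to_le h1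
  have hQ1σ : (⁅Q, R⁆ : Subgroup G) ≤ sigmaCore M := h1.trans (hQY.trans hYσ)
  have hqσ : q ∈ sigma M := by
    apply h50a.2.1 q hq
    have hd : q ∣ Nat.card (⁅Q, R⁆ : Subgroup G) := by
      rcases hQ1q.card_eq_or_dvd with h5 | h5
      · exact absurd (Subgroup.card_eq_one.mp h5) hQ1ne
      · exact h5
    exact hd.trans (Subgroup.card_dvd_of_le hQ1σ)
  refine ⟨H, ⁅Q, R⁆, q, ?_, h1.trans (hQY.trans hYN)⟩
  exact
    { hM := hM
      hE := hE
      hp := hp
      hPE := hPE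
      hP := hPc
      hRE := hRE'
      hRP := hRP
      hR := rfl
      hr := hRprime
      hrp := hrp
      hrM := hrσ
      hH := hH
      hNP := hNH
      hPH := Subgroup.le_normalizer.trans hNH
      hRH := hRP.trans ((Subgroup.centralizer_le_normalizer _).trans hNH)
      hnc := hnc
      hY := hY
      hq := hq
      hqM := hqσ
      hQ1q := hQ1q
      hQ1 := hQ1ne
      hQ1M := hQ1σ
      hQ1H := h1.trans hQH
      hQ1P := h1.trans (hQY.trans hYP)
      hRQ1 := h2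
      hfree := h3
      hcomm := h4 }

example [Finite G] (hG : IsMinSimpleOddOrder G) (h50 : St1350 G) (h22 : St1422 G)
    (hLA : StLA G) : StSetup G := setup hG h50 h22 hLA

end Cfsg.Agent.H25.BG134
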