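import Mathlib
import Cfsg.Agent.H47.BG139Defs
import Cfsg.Agent.H71.BG10K
import Cfsg.Agent.H25.BG134Setup

/-!
# B&G 13.9 (S1378), piece BG139-FIX (helper25 for helper47)

`C_Q(N_G(Q)) = 1`: `Q` is an abelian Sylow `q`-subgroup of `G`, `N_G(Q) = Q V` with `V` a
`q'`-group (Schur–Zassenhaus), `Q = [Q, V]` (S1411), and coprime action on an abelian group has
`[Q, V] ∩ C_Q(V) = 1`.
-/

set_option autoImplicit false

namespace Cfsg.Agent.H25.BG139

open Cfsg Subgroup Cfsg.Agent.H58.BG10 Cfsg.Agent.H47.BG139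

universe u

variable {G : Type u} [Group G]

/-- BG139-FIX. -/
theorem fix [Finite G] (hAbel : StAbel G) (h11 : St1411 G) : StFix G := by
  intro M N Q q hC
  have hqf : Fact q.Prime := ⟨hC.hq⟩
  obtain ⟨-, hab⟩ := hAbel M N Q q hC
  obtain ⟨P, hP⟩ : ∃ P : Sylow q G, (P : Subgroup G) = Q :=
    ⟨hC.hQq.toSylow hC.hQi, IsPGroup.toSylow_coe _ _⟩
  obtain ⟨V, hV, hVcop⟩ := Cfsg.Agent.H71.BG10.exists_compl_sylow_normalizer P
  have h1 := (h11 q P V hV).1
  rw [hP] at hV h1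
  have hVD : V ≤ normalizer (Q : Set G) := hV.2.1
  obtain ⟨k, hk⟩ := IsPGroup.iff_card.mp hC.hQq
  have hcop : (Nat.card V).Coprime (Nat.card Q) := by
    rw [hk]
    exact Nat.Coprime.pow_right k hVcop
  have hsolv : Group.IsSolvable Q :=
    Group.isSolvable_of_comm (fun a b => Subtype.ext (hab a a.2 b b.2))
  obtain ⟨-, -, h3, -⟩ := Cfsg.Agent.H25.BG134.comm_props Q V hVD hcop (Or.inr hsolv) hab
  rw [← h1] at h3
  rw [eq_bot_iff, ← h3]
  intro z hz
  exact ⟨hz.1, Subgroup.centralizer_le (fun x hx => hVD hx) hz.2⟩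

example [Finite G] (hAbel : StAbel G) (h11 : St1411 G) : StFix G := fix hAbel h11

end Cfsg.Agent.H25.BG139
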