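import Mathlib
import Cfsg.Agent.H47.BG139Defs

/-!
# B&G 13.9 (S1378), piece BG139-INV (helper25 for helper47)

For `R ≤ N_G(Q)`, the subgroup `C_Q(R)` is normalized by `N_G(Q)`.
-/

set_option autoImplicit false

namespace Cfsg.Agent.H25.BG139

open Cfsg Subgroup Cfsg.Agent.H47.BG139
open scoped commutatorElement

universe u

variable {G : Type u} [Group G]

/-- BG139-INV. -/
theorem inv (hDer : StDer G) : StInv G := by
  intro M N Q q hC R hRQ
  have key : ∀ d ∈ normalizer (Q : Set G), ∀ z ∈ Q ⊓ centralizer (R : Set G),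
      d * z * d⁻¹ ∈ Q ⊓ centralizer (R : Set G) := by
    intro d hd z hz
    refine ⟨(Subgroup.mem_normalizer_iff.mp hd z).mp hz.1, Subgroup.mem_centralizer_iff.mpr ?_⟩
    intro x hx
    have hxD : x ∈ normalizer (Q : Set G) := hRQ hx
    have hw1 : x⁻¹ * d⁻¹ * x * d ∈ normalizer (Q : Set G) :=
      mul_mem (mul_mem (mul_mem (inv_mem hxD) (inv_mem hd)) hxD) hd
    have hw2 : x⁻¹ * d⁻¹ * x * d ∈ ⁅M, M⁆ := by
      have h1 := Subgroup.commutator_mem_commutator (hC.hNM (inv_mem hxD))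
        (hC.hNM (inv_mem hd))
      rw [commutatorElement_def, inv_inv, inv_inv] at h1
      exact h1
    have e1 := hDer M N Q q hC _ hw1 hw2 z hz.1
    have e2 : x * z = z * x := Subgroup.mem_centralizer_iff.mp hz.2 x hx
    have e3 : d⁻¹ * x * d * z = z * (d⁻¹ * x * d) := by
      have h1 : d⁻¹ * x * d = x * (x⁻¹ * d⁻¹ * x * d) := by group
      rw [h1, mul_assoc, e1, ← mul_assoc, e2, mul_assoc]
    calc x * (d * z * d⁻¹) = d * (d⁻¹ * x * d * z) * d⁻¹ := by group
      _ = d * (z * (d⁻¹ * x * d)) * d⁻¹ := by rw [e3]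
      _ = d * z * d⁻¹ * x := by group
  intro d hd
  rw [Subgroup.mem_normalizer_iff]
  intro z
  constructor
  · exact key d hd z
  · intro h
    have h1 := key d⁻¹ (inv_mem hd) _ h
    have e : d⁻¹ * (d * z * d⁻¹) * d⁻¹⁻¹ = z := by group
    rwa [e] at h1

example (hDer : StDer G) : StInv G := inv hDer

end Cfsg.Agent.H25.BG139
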