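import Mathlib
import Cfsg.Agent.H2.BrDefs
import Cfsg.Agent.H82.IndDeg
import Cfsg.Agent.H83.Basic
import Cfsg.Agent.H4.IrrCount
import Cfsg.Agent.S0944

/-!
# S4501-FORMULA3 (helper25, for helper2's S4501 project)

Brauer's order formula for a self-centralizing real element `z` of order `3` and an
involution `J`: `|G| (A - u)^2 = 3 |C(J)|^2 A B`, `u = χ_a(J)`, `|u| < A`.
-/

set_option autoImplicit false
set_option linter.style.haveILetI false

namespace Cfsg.Agent.H25.Br

open Cfsg Cfsg.Agent.H2.Br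

universe u

/-- Character values are bounded by the degree. -/
theorem irr_norm_le_charDegree {G : Type u} [Group G] [Finite G] (χ : IrrCharacter G) (g : G) :
    ‖χ.1 g‖ ≤ (charDegree χ.1 : ℝ) := by
  obtain ⟨n, ρ, -, hχ, -, -, hd⟩ := Cfsg.Agent.H82.irr_rep χ
  have h := Cfsg.Agent.H4.character_norm_le ρ g
  rw [hχ, Module.finrank_fin_fun] at h
  rw [hd]
  exact h

/-- An element whose character value has the norm of the degree is central modulo the kernel. -/
theorem irr_comm_of_norm_eq {G : Type u} [Group G] [Finite G] (χ : IrrCharacter G) (g : G)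
    (hg : ‖χ.1 g‖ = (charDegree χ.1 : ℝ)) (h : G) : χ.1 (g * h * g⁻¹ * h⁻¹) = χ.1 1 := by
  obtain ⟨n, ρ, -, hχ, -, -, hd⟩ := Cfsg.Agent.H82.irr_rep χ
  have h1 : ‖ρ.character g‖ = (Module.finrank ℂ (Fin n → ℂ) : ℝ) := by
    rw [hχ, Module.finrank_fin_fun, ← hd]; exact hg
  obtain ⟨ω, hω⟩ := (Cfsg.Agent.H4.character_norm_eq_iff ρ g).mp h1
  have h2 : ρ (g * h) = ρ (h * g) := by
    rw [map_mul, map_mul, hω]
    ext v
    simp
  have h3 : ρ (g * h * g⁻¹ * h⁻¹) = 1 := by
    have e : g * h * g⁻¹ * h⁻¹ = (g * h) * (g⁻¹ * h⁻¹) := by group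
    rw [e, map_mul, h2, ← map_mul]
    have e2 : h * g * (g⁻¹ * h⁻¹) = 1 := by group
    rw [e2, map_one]
  rw [← hχ]
  exact (Cfsg.Agent.H82.char_eq_one_iff ρ _).mpr h3

theorem formula3 (hF : StmtFaith.{u}) (hC : StmtCount3.{u}) : StmtFormula3.{u} := by
  intro G _ _ _ hnab z J hz hcent hreal hJ χa χb sa sb hdata
  classical
  obtain ⟨ha1, hb1, hab, hsa, hsb, haz, hbz, h3a, h3b, hvan, hrel⟩ := hdata
  obtain ⟨hA1, hfa⟩ := hF G hnab χa ha1
  obtain ⟨hB1, hfb⟩ := hF G hnab χb hb1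
  obtain ⟨u, hu, -⟩ := Cfsg.Agent.S0944.result χa J hJ
  obtain ⟨w, hw, -⟩ := Cfsg.Agent.S0944.result χb J hJ
  obtain ⟨A, hAdef⟩ : ∃ A : ℕ, A = charDegree (χa : G → ℂ) := ⟨_, rfl⟩
  obtain ⟨B, hBdef⟩ : ∃ B : ℕ, B = charDegree (χb : G → ℂ) := ⟨_, rfl⟩
  rw [← hAdef] at hA1 ⊢
  rw [← hBdef] at hB1 ⊢
  have hA : (χa : G → ℂ) 1 = (A : ℂ) := by
    rw [hAdef]; exact Cfsg.Agent.H82.irr_one_eq_charDegree χa
  have hB : (χb : G → ℂ) 1 = (B : ℂ) := by
    rw [hBdef]; exact Cfsg.Agent.H82.irr_one_eq_charDegree χb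
  have hJ1 : J ≠ 1 := by
    rintro rfl
    rw [orderOf_one] at hJ
    omega
  -- conjugacy
  have hJz : ¬ IsConj J z := by
    intro h
    obtain ⟨c, hc⟩ := isConj_iff.mp h
    have h1 := (MulAut.conj c).orderOf_eq J
    rw [MulAut.conj_apply, hc, hz, hJ] at h1
    omega
  have h1z : ¬ IsConj (1 : G) z := by
    intro h
    obtain ⟨c, hc⟩ := isConj_iff.mp h
    have h1 : z = 1 := by rw [← hc]; group
    rw [h1, orderOf_one] at hz
    omega
  -- the two relations
  have r1c := hrel J hJz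
  rw [hu, hw] at r1c
  have r1 : 1 + sa * u + sb * w = 0 := by exact_mod_cast r1c
  have r2c := hrel 1 h1z
  rw [hA, hB] at r2c
  have r2 : 1 + sa * (A : ℤ) + sb * (B : ℤ) = 0 := by exact_mod_cast r2c
  -- the bounds on `u`
  have hule : |u| ≤ (A : ℤ) := by
    have h1 := irr_norm_le_charDegree χa J
    rw [hu, ← hAdef, Complex.norm_intCast] at h1
    exact_mod_cast h1
  have huA : u ≠ (A : ℤ) := by
    intro h
    apply hJ1
    apply hfa J
    rw [hu, hA, h]
    simp
  have hcen : Subgroup.center G = ⊥ := by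
    rcases (inferInstance : (Subgroup.center G).Normal).eq_bot_or_eq_top with h | h
    · exact h
    · exfalso
      obtain ⟨x, y, hxy⟩ := hnab
      apply hxy
      have hx : x ∈ Subgroup.center G := by rw [h]; exact Subgroup.mem_top x
      exact (Subgroup.mem_center_iff.mp hx y).symm
  have huA' : u ≠ -(A : ℤ) := by
    intro h
    apply hJ1
    have h1 : ‖χa.1 J‖ = (charDegree χa.1 : ℝ) := by
      rw [hu, ← hAdef, h, Complex.norm_intCast]
      simp
    have h2 : J ∈ Subgroup.center G := by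
      rw [Subgroup.mem_center_iff]
      intro g
      have h3 := hfa _ (irr_comm_of_norm_eq χa J h1 g)
      calc g * J = (J * g * J⁻¹ * g⁻¹)⁻¹ * (J * g) := by group
        _ = J * g := by rw [h3, inv_one, one_mul]
    rw [hcen, Subgroup.mem_bot] at h2
    exact h2
  have hlt1 : -(A : ℤ) < u := by
    have := neg_abs_le u
    rcases lt_or_eq_of_le (show -(A : ℤ) ≤ u by linarith [abs_le.mp hule]) with h | h
    · exact h
    · exact absurd h.symm huA'
  have hlt2 : u < (A : ℤ) := by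
    rcases lt_or_eq_of_le (show u ≤ (A : ℤ) by linarith [abs_le.mp hule]) with h | h
    · exact h
    · exact absurd h huA
  refine ⟨u, hu, hlt1, hlt2, ?_⟩
  -- the character sum
  letI := Cfsg.Agent.H4.fintypeIrr G
  have hsum : (∑ᶠ χ : IrrCharacter G,
      (χ : G → ℂ) J * (χ : G → ℂ) J * (χ : G → ℂ) z / (χ : G → ℂ) 1) =
      1 + (u : ℂ) * u * sa / A + (w : ℂ) * w * sb / B := by
    rw [Cfsg.Agent.H4.finsum_irr_eq_sum]
    have hne1 : Cfsg.Agent.H83.trivChar G ≠ χa := by
      intro h; apply ha1; rw [← h]; rfl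
    have hne2 : Cfsg.Agent.H83.trivChar G ≠ χb := by
      intro h; apply hb1; rw [← h]; rfl
    have hsub : ∑ χ ∈ ({Cfsg.Agent.H83.trivChar G, χa, χb} : Finset (IrrCharacter G)),
        (χ : G → ℂ) J * (χ : G → ℂ) J * (χ : G → ℂ) z / (χ : G → ℂ) 1 =
        ∑ χ : IrrCharacter G, (χ : G → ℂ) J * (χ : G → ℂ) J * (χ : G → ℂ) z / (χ : G → ℂ) 1 := by
      apply Finset.sum_subset (Finset.subset_univ _)
      intro χ _ hχ
      simp only [Finset.mem_insert, Finset.mem_singleton, not_or] at hχ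
      have h1 : (χ : G → ℂ) ≠ (fun _ => 1) := by
        intro h
        apply hχ.1
        exact Subtype.ext h
      rw [hvan χ h1 hχ.2.1 hχ.2.2]
      simp
    rw [← hsub, Finset.sum_insert (by simp [hne1, hne2]), Finset.sum_pair hab]
    rw [haz, hbz, hu, hw, hA, hB]
    simp only [Cfsg.Agent.H83.trivChar_apply]
    ring
  have hAne : (A : ℂ) ≠ 0 := by
    have : A ≠ 0 := by omega
    exact_mod_cast this
  have hBne : (B : ℂ) ≠ 0 := by
    have : B ≠ 0 := by omega
    exact_mod_cast this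
  have hval : (1 : ℂ) + (u : ℂ) * u * sa / A + (w : ℂ) * w * sb / B =
      ((A : ℂ) - u) ^ 2 / (A * B) := by
    rcases hsa with rfl | rfl <;> rcases hsb with rfl | rfl
    · exfalso; omega
    · have hBA : (B : ℤ) = A + 1 := by omega
      have hwu : w = u + 1 := by omega
      have hBAc : (B : ℂ) = A + 1 := by exact_mod_cast hBA
      have hwuc : (w : ℂ) = u + 1 := by exact_mod_cast hwu
      have hA1ne : (A : ℂ) + 1 ≠ 0 := by rw [← hBAc]; exact hBne
      rw [hBAc, hwuc]
      push_cast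
      field_simp
      ring
    · have hBA : (A : ℤ) = B + 1 := by omega
      have hwu : u = w + 1 := by omega
      have hBAc : (A : ℂ) = B + 1 := by exact_mod_cast hBA
      have hwuc : (u : ℂ) = w + 1 := by exact_mod_cast hwu
      have hA1ne : (B : ℂ) + 1 ≠ 0 := by rw [← hBAc]; exact hAne
      rw [hBAc, hwuc]
      push_cast
      field_simp
      ring
    · exfalso; omega
  have hne : (∑ᶠ χ : IrrCharacter G,
      (χ : G → ℂ) J * (χ : G → ℂ) J * (χ : G → ℂ) z / (χ : G → ℂ) 1) ≠ 0 := by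
    rw [hsum, hval]
    apply div_ne_zero
    · apply pow_ne_zero
      intro h
      apply huA
      have : (A : ℂ) = (u : ℂ) := sub_eq_zero.mp h
      exact_mod_cast this.symm
    · exact mul_ne_zero hAne hBne
  have hcount := hC G z J hz hcent hreal hJ hne
  rw [hsum, hval] at hcount
  have hfin : ((Nat.card G : ℤ) * ((A : ℤ) - u) ^ 2 : ℂ) =
      ((3 * (Nat.card (Subgroup.centralizer ({J} : Set G)) : ℤ) ^ 2 * (A : ℤ) * (B : ℤ) : ℤ) : ℂ) := by
    push_cast
    have h1 : (Nat.card G : ℂ) * (((A : ℂ) - u) ^ 2 / (A * B)) * (A * B) =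
        3 * (Nat.card (Subgroup.centralizer ({J} : Set G)) : ℂ) ^ 2 * (A * B) := by
      rw [hcount]
    have h2 : (Nat.card G : ℂ) * (((A : ℂ) - u) ^ 2 / (A * B)) * (A * B) =
        (Nat.card G : ℂ) * ((A : ℂ) - u) ^ 2 := by
      field_simp
    rw [h2] at h1
    rw [h1]; ring
  exact_mod_cast hfin

example (hF : StmtFaith.{u}) (hC : StmtCount3.{u}) : StmtFormula3.{u} := formula3 hF hC

end Cfsg.Agent.H25.Br
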