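import Mathlib
import Cfsg.Agent.H2.BrDefs
import Cfsg.Agent.H82.IndDeg
import Cfsg.Agent.H16.GCChar
import Cfsg.Agent.S4500
import Cfsg.Agent.S0899

/-!
# S4501-SMALLP (helper25, for helper2's S4501 project)

A nonabelian simple group of order `3 p^a 2^b` (`p ≥ 5`, `1 ≤ a ≤ 2`) has `p < 16`: S4500 gives an
irreducible character of degree `3`, which is faithful, and S0899 then makes the Sylow
`p`-subgroup normal if `16 ≤ p`.
-/

set_option autoImplicit false
set_option linter.style.haveILetI false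

namespace Cfsg.Agent.H25.Br

open Cfsg Cfsg.Agent.H2.Br

universe u

/-- A nonabelian simple group is perfect. -/
theorem commutator_eq_top_of_nonab {G : Type u} [Group G] [IsSimpleGroup G]
    (hnab : ∃ x y : G, x * y ≠ y * x) : commutator G = ⊤ := by
  rcases (inferInstance : (commutator G).Normal).eq_bot_or_eq_top with h' | h'
  · exfalso
    obtain ⟨x, y, hxy⟩ := hnab
    apply hxy
    have h1 : x * y * x⁻¹ * y⁻¹ ∈ commutator G := Cfsg.Agent.H16.comm_mem_commutator x y
    rw [h', Subgroup.mem_bot] at h1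
    calc x * y = (x * y * x⁻¹ * y⁻¹) * (y * x) := by group
      _ = y * x := by rw [h1, one_mul]
  · exact h'

/-- In a nonabelian simple group, a nonprincipal irreducible character has trivial kernel. -/
theorem irrKer_eq_bot_of_simple {G : Type u} [Group G] [Finite G] [IsSimpleGroup G]
    (hnab : ∃ x y : G, x * y ≠ y * x) (χ : IrrCharacter G)
    (hχ : (χ : G → ℂ) ≠ (fun _ => 1)) : Cfsg.Agent.H82.irrKer χ = ⊥ := by
  classical
  rcases (Cfsg.Agent.H82.irrKer_normal χ).eq_bot_or_eq_top with h | h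
  · exact h
  · exfalso
    -- the derived subgroup is everything
    have hcomm : commutator G = ⊤ := commutator_eq_top_of_nonab hnab
    have hlin : charDegree χ.1 = 1 :=
      Cfsg.Agent.H16.linear_of_commutator_le_irrKer χ (by rw [h]; exact le_top)
    apply hχ
    funext g
    have hg : g ∈ Cfsg.Agent.H82.irrKer χ := by rw [h]; exact Subgroup.mem_top g
    rw [Cfsg.Agent.H82.mem_irrKer] at hg
    rw [hg, Cfsg.Agent.H82.irr_one_eq_charDegree, hlin]
    simp

theorem smallP : StmtSmallP.{u} := by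
  intro G _ _ _ hnab p a b hp hp2 hp3 ha1 ha2 hcard
  classical
  by_contra hlt
  push Not at hlt
  haveI : Fact p.Prime := ⟨hp⟩
  have hS := Cfsg.Agent.S4500.result (G := G) p 2 3 a b 1 hp Nat.prime_two Nat.prime_three hp2 hp3
    (by norm_num) ha2 (by rw [hcard]; ring)
  obtain ⟨-, χ, hχ1, k, hk⟩ := hS
  have hker := irrKer_eq_bot_of_simple hnab χ hχ1
  have hcomm : commutator G = ⊤ := commutator_eq_top_of_nonab hnab
  -- the degree is 3
  have hdvd : charDegree χ.1 ∣ Nat.card G := Cfsg.Agent.H82.charDegree_dvd_card χ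
  have hk0 : k ≠ 0 := by
    rintro rfl
    rw [pow_zero] at hk
    have h1 := Cfsg.Agent.H16.commutator_le_irrKer_of_linear χ hk
    rw [hcomm, hker] at h1
    obtain ⟨x, y, hxy⟩ := hnab
    apply hxy
    have h2 : x * y * x⁻¹ * y⁻¹ ∈ (⊥ : Subgroup G) := h1 (Subgroup.mem_top _)
    rw [Subgroup.mem_bot] at h2
    calc x * y = (x * y * x⁻¹ * y⁻¹) * (y * x) := by group
      _ = y * x := by rw [h2, one_mul]
  have hk1 : k ≤ 1 := by
    by_contra hk2
    push Not at hk2
    have h9 : 3 ^ 2 ∣ 3 * p ^ a * 2 ^ b := by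
      rw [← hcard]
      exact (pow_dvd_pow 3 hk2).trans (hk ▸ hdvd)
    have h3 : 3 ∣ p ^ a * 2 ^ b := by
      have h9' : 3 * 3 ∣ 3 * (p ^ a * 2 ^ b) := by
        rw [← mul_assoc]; exact h9
      exact (Nat.mul_dvd_mul_iff_left (by norm_num)).mp h9'
    rcases (Nat.Prime.dvd_mul Nat.prime_three).mp h3 with h | h
    · have := (Nat.prime_dvd_prime_iff_eq Nat.prime_three hp).mp (Nat.prime_three.dvd_of_dvd_pow h)
      exact hp3 this.symm
    · have := (Nat.prime_dvd_prime_iff_eq Nat.prime_three Nat.prime_two).mp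
        (Nat.prime_three.dvd_of_dvd_pow h)
      omega
  have hk' : k = 1 := by omega
  rw [hk', pow_one] at hk
  -- a faithful representation of degree 3
  obtain ⟨n, ρ, -, hρχ, -, -, hdeg⟩ := Cfsg.Agent.H82.irr_rep χ
  have hn3 : n = 3 := by rw [← hdeg, hk]
  have hinj : Function.Injective ρ := by
    intro g h hgh
    have h1 : ρ (g⁻¹ * h) = 1 := by
      rw [map_mul, ← hgh, ← map_mul, inv_mul_cancel, map_one]
    have h2 : g⁻¹ * h ∈ Cfsg.Agent.H82.irrKer χ :=
      (Cfsg.Agent.H82.mem_irrKer_iff_rep χ ρ hρχ _).mpr h1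
    rw [hker, Subgroup.mem_bot] at h2
    exact inv_mul_eq_one.mp h2
  obtain ⟨P⟩ : Nonempty (Sylow p G) := inferInstance
  have hPn : (P : Subgroup G).Normal :=
    Cfsg.Agent.S0899.result n ρ hinj p (Or.inl (by rw [hn3]; norm_num; exact hlt)) P
  have hPcard := P.card_eq_multiplicity
  have hpdvd : p ∣ Nat.card G := by
    rw [hcard]
    exact Dvd.dvd.mul_right (Dvd.dvd.mul_left (dvd_pow_self p (by omega)) 3) _
  rcases hPn.eq_bot_or_eq_top with h | h
  · have h1 : Nat.card (P : Subgroup G) = 1 := by rw [h]; exact Subgroup.card_bot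
    rw [hPcard] at h1
    have hfac : 0 < (Nat.card G).factorization p :=
      hp.factorization_pos_of_dvd Nat.card_pos.ne' hpdvd
    have h2 : 1 < p ^ (Nat.card G).factorization p := Nat.one_lt_pow hfac.ne' hp.one_lt
    omega
  · have h1 : Nat.card (P : Subgroup G) = Nat.card G := by rw [h]; exact Subgroup.card_top
    rw [hPcard, hcard] at h1
    have h3 : 3 ∣ p ^ (3 * p ^ a * 2 ^ b).factorization p := by
      rw [h1]
      exact Dvd.dvd.mul_right (Dvd.intro _ rfl) _
    have := (Nat.prime_dvd_prime_iff_eq Nat.prime_three hp).mp (Nat.prime_three.dvd_of_dvd_pow h3)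
    exact hp3 this.symm

example : StmtSmallP.{u} := smallP

end Cfsg.Agent.H25.Br
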