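import Mathlib
import Cfsg.Agent.H6.Co3Defs0

/-!
# Piece CO3-RHO of the team project S2071 (led by helper6)

The stabiliser of `a48` acts on the table of 552 vectors.  Port of helper33's `H33/MclRho.lean`
from the 275-level to the 552-level.
-/

set_option autoImplicit false
set_option maxRecDepth 100000

namespace Cfsg.Agent.H25.Co3P

open Cfsg Cfsg.Agent.H9 Cfsg.Agent.H93 Cfsg.Agent.H33 Cfsg.Agent.H6.Co3

/-- the 552 vectors -/
abbrev X552 : Set leechLattice := Xdot 24 a48

theorem X552_finite : X552.Finite :=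
  finite_sub (fun w => dotInt (a48 : GolayPt → ℤ) w = 24)

noncomputable instance fintypeX552 : Fintype ↥X552 := X552_finite.fintype

theorem ncard_X552 : X552.ncard = 552 := by
  rw [Xdot_ncard]
  exact cnt48_24 LF552A_mem_V

theorem card_X552 : Fintype.card ↥X552 = 552 := by
  rw [← Nat.card_eq_fintype_card, Nat.card_coe_set_eq]; exact ncard_X552

theorem table_X552 (x : leechLattice) (hx : x ∈ X552) :
    ∃ j < 552, (x : GolayPt → ℤ) = vec (fldW 192 LF552E j) := table_552 x hx

/-- the index of a vector in the table -/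
noncomputable def idx (x : ↥X552) : Fin 552 :=
  ⟨Classical.choose (table_X552 x.1 x.2),
    (Classical.choose_spec (table_X552 x.1 x.2)).1⟩

theorem idx_spec (x : ↥X552) :
    ((x.1 : leechLattice) : GolayPt → ℤ) = vec (fldW 192 LF552E (idx x).val) :=
  (Classical.choose_spec (table_X552 x.1 x.2)).2

theorem idx_injective : Function.Injective idx := by
  intro x y h
  apply Subtype.ext
  apply Subtype.ext
  rw [idx_spec x, idx_spec y, h]

theorem idx_bijective : Function.Bijective idx := by
  rw [Fintype.bijective_iff_injective_and_card]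
  exact ⟨idx_injective, by rw [card_X552, Fintype.card_fin]⟩

/-- the table as a bijection -/
noncomputable def eIdx : ↥X552 ≃ Fin 552 := Equiv.ofBijective idx idx_bijective

theorem eIdx_spec (x : ↥X552) :
    ((x.1 : leechLattice) : GolayPt → ℤ) = vec (fldW 192 LF552E (eIdx x).val) := idx_spec x

theorem eIdx_symm_spec (j : Fin 552) :
    (((eIdx.symm j).1 : leechLattice) : GolayPt → ℤ) = vec (fldW 192 LF552E j.val) := by
  have h := eIdx_spec (eIdx.symm j)
  rwa [Equiv.apply_symm_apply] at h

/-- the entries of the table are distinct -/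
theorem table_inj (j j' : Fin 552)
    (h : vec (fldW 192 LF552E j.val) = vec (fldW 192 LF552E j'.val)) : j = j' := by
  have e : eIdx.symm j = eIdx.symm j' := by
    apply Subtype.ext
    apply Subtype.ext
    rw [eIdx_symm_spec, eIdx_symm_spec, h]
  exact eIdx.symm.injective e

theorem X552_inv (g : Equiv.Perm leechLattice) (hg : g ∈ Co0) (ha : g a48 = a48)
    {x : leechLattice} (hx : x ∈ X552) : g x ∈ X552 := by
  have h := Xdot_inv 24 g hg a48 x hx
  rwa [ha] at h

theorem std_fix (k : ↥Co3std) : (k.1 : Equiv.Perm leechLattice) a48 = a48 :=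
  MulAction.mem_stabilizer_iff.mp k.2

theorem std_fix_inv (k : ↥Co3std) : (k.1 : Equiv.Perm leechLattice)⁻¹ a48 = a48 := by
  rw [Equiv.Perm.inv_eq_iff_eq]
  exact (std_fix k).symm

/-- the stabiliser of `a48` acts on the 552 vectors -/
noncomputable def actX : ↥Co3std →* Equiv.Perm ↥X552 where
  toFun k :=
    { toFun := fun x => ⟨(k.1 : Equiv.Perm leechLattice) x.1,
        X552_inv _ k.1.2 (std_fix k) x.2⟩
      invFun := fun x => ⟨(k.1 : Equiv.Perm leechLattice)⁻¹ x.1,
        X552_inv _ (inv_mem k.1.2) (std_fix_inv k) x.2⟩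
      left_inv := fun x => Subtype.ext (by simp)
      right_inv := fun x => Subtype.ext (by simp) }
  map_one' := by ext x; rfl
  map_mul' k k' := by ext x; rfl

theorem actX_apply (k : ↥Co3std) (x : ↥X552) :
    ((actX k) x).1 = (k.1 : Equiv.Perm leechLattice) x.1 := rfl

/-- the action on the indices of the table -/
noncomputable def rhoHom : ↥Co3std →* Equiv.Perm (Fin 552) :=
  (eIdx.permCongrHom).toMonoidHom.comp actX

theorem rhoHom_apply (k : ↥Co3std) (j : Fin 552) :
    rhoHom k j = eIdx ((actX k) (eIdx.symm j)) := rfl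

theorem rhoHom_acts (k : ↥Co3std) : ActsAs k.1 (rhoHom k) := by
  intro j v hv
  have ev : v = (eIdx.symm j).1 := Subtype.ext (hv.trans (eIdx_symm_spec j).symm)
  subst ev
  rw [rhoHom_apply]
  exact eIdx_spec ((actX k) (eIdx.symm j))

/-- piece CO3-RHO -/
theorem rho : StRho := by
  refine ⟨rhoHom, rhoHom_acts, ?_⟩
  intro k p hp
  ext j
  have h1 := hp j (eIdx.symm j).1 (eIdx_symm_spec j)
  have h2 := rhoHom_acts k j (eIdx.symm j).1 (eIdx_symm_spec j)
  exact congrArg Fin.val (table_inj _ _ (h2.symm.trans h1))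

example : StRho := rho

end Cfsg.Agent.H25.Co3P
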