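import Mathlib
import Cfsg.Agent.H6.Co3Defs0

/-!
# Piece CO3-SIMPLE of the team project S2071 (led by helper6)

The standard copy of Co3 (the stabiliser of `a48`) is simple of order `495766656000`.
-/

set_option autoImplicit false

namespace Cfsg.Agent.H25.Co3P

open Cfsg Cfsg.Agent.H9 Cfsg.Agent.H93 Cfsg.Agent.H33 Cfsg.Agent.H6.Co3

/-- piece CO3-SIMPLE -/
theorem simple : StSimple := co3_isCo3 a48 a48_sq

example : StSimple := simple

end Cfsg.Agent.H25.Co3P
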