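import Mathlib
import Cfsg.Agent.H6.Co3Defs

/-!
# Piece CO3-WORD of the team project S2071 (led by helper6)

The generators `px`, `py` of the permutation group on the 552 table vectors come from the
lattice: the words `WX`, `WY` give elements of the stabiliser of `a48` acting on the table as the
coded permutations.  Port of helper33's `H33/MclWord.lean` to the 552-level.
-/

set_option autoImplicit false
set_option maxRecDepth 100000

namespace Cfsg.Agent.H25.Co3P

open Cfsg Cfsg.Agent.H9 Cfsg.Agent.H93 Cfsg.Agent.H33 Cfsg.Agent.H6.Co3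

theorem WX_ok : genOK LF552A WX = true := by decide +kernel

theorem WY_ok : genOK LF552A WY = true := by decide +kernel

theorem WX_tab : allB (fun j => runOK WX (fldW 192 LF552E j) &&
    Nat.beq (runW WX (fldW 192 LF552E j)) (fldW 192 LF552E (f16 cX j))) 552 = true := by
  decide +kernel

theorem WY_tab : allB (fun j => runOK WY (fldW 192 LF552E j) &&
    Nat.beq (runW WY (fldW 192 LF552E j)) (fldW 192 LF552E (f16 cY j))) 552 = true := by
  decide +kernel

/-- a lattice word fixing `a48` and acting on the table as the coded permutation -/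
theorem word_acts {W : List (ℕ × ℕ)} {c ci : ℕ} (hc : invOK c ci = true)
    (hW : genOK LF552A W = true)
    (htab : allB (fun j => runOK W (fldW 192 LF552E j) &&
      Nat.beq (runW W (fldW 192 LF552E j)) (fldW 192 LF552E (f16 c j))) 552 = true) :
    ∃ g ∈ Co3std, ActsAs g (permOf c ci hc) := by
  obtain ⟨g, hg, ha, hrun⟩ := gen_elt LF552A_mem hW
  have ha' : g a48 = a48 := ha
  refine ⟨⟨g, hg⟩, MulAction.mem_stabilizer_iff.mpr ha', ?_⟩
  intro j v hv
  have hc' := (allB_iff _ _).mp htab j.val j.isLt
  simp only [Bool.and_eq_true] at hc'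
  obtain ⟨h1, h2⟩ := hc'
  have hm : vec (fldW 192 LF552E j.val) ∈ leechLattice := by rw [← hv]; exact v.2
  have ev : v = ⟨vec (fldW 192 LF552E j.val), hm⟩ := Subtype.ext hv
  have r1 := hrun _ h1 hm
  rw [ev]
  show ((g ⟨vec (fldW 192 LF552E j.val), hm⟩ : leechLattice) : GolayPt → ℤ)
    = vec (fldW 192 LF552E (f16 c j.val))
  rw [r1, Nat.eq_of_beq_eq_true h2]

/-- piece CO3-WORD -/
theorem word : StWord :=
  ⟨word_acts cX_ok WX_ok WX_tab, word_acts cY_ok WY_ok WY_tab⟩

example : StWord := word

end Cfsg.Agent.H25.Co3P
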