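import Mathlib

/-!
helper25: a `p`-group (`p` odd) acting faithfully on an abelian group `E` on which `p` acts
injectively, with all nonzero point stabilizers of the same order, has no normal subgroup
of order `p²` and exponent `p`.  (Trace-map argument.)
-/

set_option autoImplicit false

namespace Cfsg.Agent.H25

section Trace

variable {P E : Type*} [Group P] [AddCommGroup E] [DistribMulAction P E]

/-- `∑_{j<p} x^j • v`. -/
def trP (p : ℕ) (x : P) (v : E) : E := ∑ j ∈ Finset.range p, x ^ j • v

theorem trP_smul_self (p : ℕ) (x : P) (hx : x ^ p = 1) (v : E) :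
    x • trP p x v = trP p x v := by
  unfold trP
  rw [Finset.smul_sum]
  have h1 : ∀ j : ℕ, x • x ^ j • v = x ^ (j + 1) • v := fun j => by rw [pow_succ', mul_smul]
  simp only [h1]
  have h2 := Finset.sum_range_succ' (fun j => x ^ j • v) p
  have h3 := Finset.sum_range_succ (fun j => x ^ j • v) p
  beta_reduce at h2 h3
  rw [h3, hx] at h2
  simp only [pow_zero] at h2
  exact (add_right_cancel h2).symm

theorem pow_smul_of_fixed (x : P) (v : E) (h : x • v = v) (j : ℕ) : x ^ j • v = v := by
  induction j with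
  | zero => simp
  | succ j ih => rw [pow_succ, mul_smul, h, ih]

theorem zpow_smul_of_fixed (x : P) (v : E) (h : x • v = v) (j : ℤ) : x ^ j • v = v := by
  have hx : x ∈ MulAction.stabilizer P v := h
  exact (MulAction.stabilizer P v).zpow_mem hx j

theorem trP_of_fixed (p : ℕ) (x : P) (v : E) (h : x • v = v) : trP p x v = p • v := by
  unfold trP
  rw [Finset.sum_congr rfl (fun j _ => pow_smul_of_fixed x v h j), Finset.sum_const,
    Finset.card_range]

theorem smul_trP (p : ℕ) (g x : P) (v : E) :
    g • trP p x v = trP p (g * x * g⁻¹) (g • v) := by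
  unfold trP
  rw [Finset.smul_sum]
  refine Finset.sum_congr rfl (fun j _ => ?_)
  rw [conj_pow, ← mul_smul, ← mul_smul, inv_mul_cancel_right]

theorem trP_add (p : ℕ) (x : P) (u v : E) : trP p x (u + v) = trP p x u + trP p x v := by
  unfold trP
  rw [← Finset.sum_add_distrib]
  exact Finset.sum_congr rfl (fun j _ => smul_add _ _ _)

theorem trP_sub (p : ℕ) (x : P) (u v : E) : trP p x (u - v) = trP p x u - trP p x v := by
  unfold trP
  rw [← Finset.sum_sub_distrib]
  exact Finset.sum_congr rfl (fun j _ => smul_sub _ _ _)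

theorem trP_nsmul (p : ℕ) (x : P) (n : ℕ) (v : E) : trP p x (n • v) = n • trP p x v := by
  unfold trP
  rw [Finset.smul_sum]
  exact Finset.sum_congr rfl (fun j _ => smul_comm _ _ _)

theorem trP_mul_of_fixed (p : ℕ) (x w : P) (hc : Commute x w) (v : E) (h : x • v = v) :
    trP p (x * w) v = trP p w v := by
  unfold trP
  refine Finset.sum_congr rfl (fun j _ => ?_)
  rw [hc.mul_pow, (hc.pow_pow j j).eq, mul_smul, pow_smul_of_fixed x v h]

end Trace

section Const

variable {P E : Type*} [Group P] [Finite P] [AddCommGroup E] [DistribMulAction P E]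

theorem exists_central_of_normal' {p : ℕ} [Fact p.Prime] (hP : IsPGroup p P) (N : Subgroup P)
    [N.Normal] (hN : N ≠ ⊥) : ∃ z ∈ N, z ∈ Subgroup.center P ∧ z ≠ 1 := by
  have hpN : p ∣ Nat.card N := by
    have hN' : IsPGroup p N := hP.to_subgroup N
    obtain ⟨n, hn⟩ := IsPGroup.iff_card.mp hN'
    have hn0 : n ≠ 0 := by
      rintro rfl
      rw [pow_zero] at hn
      exact hN (Subgroup.card_eq_one.mp hn)
    rw [hn]; exact dvd_pow_self p hn0
  have h1 : (1 : N) ∈ MulAction.fixedPoints (ConjAct P) N := by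
    intro g; exact smul_one g
  obtain ⟨b, hb, hb1⟩ :=
    (hP.of_equiv ConjAct.toConjAct).exists_fixed_point_of_prime_dvd_card_of_fixed_point N hpN h1
  refine ⟨(b : P), b.2, ?_, ?_⟩
  · rw [Subgroup.mem_center_iff]; intro g
    have h3 := hb (ConjAct.toConjAct g)
    have h4 := congrArg (fun x : N => (x : P)) h3
    simp only [ConjAct.Subgroup.val_conj_smul, ConjAct.toConjAct_smul] at h4
    calc g * (b : P) = (g * (b : P) * g⁻¹) * g := by group
      _ = (b : P) * g := by rw [h4]
  · intro h; apply hb1; exact (Subtype.ext h).symm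

theorem stab_transfer
    (hconst : ∀ a b : E, a ≠ 0 → b ≠ 0 →
      Nat.card (MulAction.stabilizer P a) = Nat.card (MulAction.stabilizer P b))
    (a b : E) (ha : a ≠ 0) (hab : a + b ≠ 0)
    (H : ∀ g : P, g • (a + b) = a + b → g • a = a) :
    ∀ h : P, h • a = a → h • b = b := by
  intro h hh
  have hle : MulAction.stabilizer P (a + b) ≤ MulAction.stabilizer P a := fun g hg => H g hg
  have heq := Subgroup.eq_of_le_of_card_ge hle (hconst a (a + b) ha hab).le
  have h1 : h ∈ MulAction.stabilizer P (a + b) := by rw [heq]; exact hh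
  have h2 : h • (a + b) = a + b := h1
  rw [smul_add, hh] at h2
  exact add_left_cancel h2

theorem fpf_central [FaithfulSMul P E] (p : ℕ)
    (hpinj : ∀ v : E, p • v = 0 → v = 0)
    (hconst : ∀ a b : E, a ≠ 0 → b ≠ 0 →
      Nat.card (MulAction.stabilizer P a) = Nat.card (MulAction.stabilizer P b))
    (z : P) (hzc : ∀ g : P, g * z = z * g) (hzp : z ^ p = 1) (hz1 : z ≠ 1) :
    ∀ a : E, z • a = a → a = 0 := by
  intro a hza
  by_contra ha
  obtain ⟨b0, hb0⟩ : ∃ b0 : E, z • b0 ≠ b0 := by
    by_contra hcon
    push Not at hcon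
    exact hz1 (FaithfulSMul.eq_of_smul_eq_smul (α := E) (fun e => by rw [hcon e, one_smul]))
  obtain ⟨b', hb'⟩ : ∃ b' : E, b' = p • b0 - trP p z b0 := ⟨_, rfl⟩
  have htr : trP p z b' = 0 := by
    rw [hb', trP_sub, trP_nsmul, trP_of_fixed p z (trP p z b0) (trP_smul_self p z hzp b0),
      sub_self]
  have hzb' : z • b' ≠ b' := by
    intro h
    have h1 := trP_of_fixed p z b' h
    rw [htr] at h1
    have h2 : b' = 0 := hpinj b' h1.symm
    rw [hb', sub_eq_zero] at h2
    have h3 : z • (p • b0) = p • b0 := by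
      rw [h2]; exact trP_smul_self p z hzp b0
    rw [smul_comm] at h3
    have h4 : p • (z • b0 - b0) = 0 := by rw [smul_sub, h3, sub_self]
    exact hb0 (sub_eq_zero.mp (hpinj _ h4))
  have hab : a + b' ≠ 0 := by
    intro h
    have h1 : b' = -a := eq_neg_of_add_eq_zero_right h
    apply hzb'
    rw [h1, smul_neg, hza]
  have H : ∀ g : P, g • (a + b') = a + b' → g • a = a := by
    intro g hg
    have h1 : trP p z (a + b') = p • a := by
      rw [trP_add, htr, add_zero, trP_of_fixed p z a hza]
    have h2 : g • trP p z (a + b') = trP p z (a + b') := by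
      rw [smul_trP, hg]
      have : g * z * g⁻¹ = z := by rw [hzc g, mul_inv_cancel_right]
      rw [this]
    rw [h1, smul_comm] at h2
    have h4 : p • (g • a - a) = 0 := by rw [smul_sub, h2, sub_self]
    exact sub_eq_zero.mp (hpinj _ h4)
  exact hzb' (stab_transfer hconst a b' ha hab H z hza)

end Const

end Cfsg.Agent.H25
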