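import Mathlib
import Cfsg.Agent.H25.ConstStab

/-!
helper25: no normal subgroup of order `p²` and exponent `p` under constant stabilizer orders.
-/

set_option autoImplicit false

namespace Cfsg.Agent.H25

section Const2

variable {P E : Type*} [Group P] [Finite P] [AddCommGroup E] [DistribMulAction P E]

theorem no_normal_rank_two [FaithfulSMul P E] (p : ℕ) [Fact p.Prime] (hp2 : p ≠ 2)
    (hP : IsPGroup p P)
    (hpinj : ∀ v : E, p • v = 0 → v = 0)
    (hconst : ∀ a b : E, a ≠ 0 → b ≠ 0 →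
      Nat.card (MulAction.stabilizer P a) = Nat.card (MulAction.stabilizer P b))
    (A : Subgroup P) (hAn : A.Normal) (hAe : ∀ a ∈ A, a ^ p = 1) (hAc : Nat.card A = p ^ 2) :
    False := by
  have hpp : p.Prime := Fact.out
  have hp1 := hpp.one_lt
  have hAbot : A ≠ ⊥ := by
    intro h
    rw [h, Subgroup.card_bot] at hAc
    nlinarith
  obtain ⟨z, hzA, hzZ, hz1⟩ := exists_central_of_normal' hP A hAbot
  have hzc : ∀ g : P, g * z = z * g := fun g => Subgroup.mem_center_iff.mp hzZ g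
  have hzp : z ^ p = 1 := hAe z hzA
  have hoz : orderOf z = p := orderOf_eq_prime hzp hz1
  obtain ⟨Zs, hZs⟩ : ∃ Zs : Subgroup P, Zs = Subgroup.zpowers z := ⟨_, rfl⟩
  have hzZs : ∀ i : ℕ, z ^ i ∈ Zs := fun i => by
    rw [hZs]; exact Subgroup.pow_mem _ (Subgroup.mem_zpowers z) i
  have hZc : ∀ w ∈ Zs, ∀ g : P, g * w = w * g := by
    intro w hw g
    rw [hZs] at hw
    obtain ⟨k, rfl⟩ := Subgroup.mem_zpowers_iff.mp hw
    exact ((show Commute g z from hzc g).zpow_right k).eq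
  have hZp : ∀ w ∈ Zs, w ^ p = 1 := by
    intro w hw
    rw [hZs] at hw
    obtain ⟨k, rfl⟩ := Subgroup.mem_zpowers_iff.mp hw
    rw [← zpow_natCast, ← zpow_mul, mul_comm, zpow_mul, zpow_natCast, hzp, one_zpow]
  have hZA : Zs ≤ A := by rw [hZs]; exact Subgroup.zpowers_le.mpr hzA
  have hZcard : Nat.card Zs = p := by rw [hZs, Nat.card_zpowers, hoz]
  have hZn : Zs.Normal := by
    refine ⟨fun w hw g => ?_⟩
    have : g * w * g⁻¹ = w := by rw [hZc w hw g, mul_inv_cancel_right]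
    rw [this]; exact hw
  have hfpf : ∀ w ∈ Zs, w ≠ 1 → ∀ a : E, w • a = a → a = 0 := fun w hw hw1 =>
    fpf_central p hpinj hconst w (hZc w hw) (hZp w hw) hw1
  have htr0 : ∀ w ∈ Zs, w ≠ 1 → ∀ v : E, trP p w v = 0 := fun w hw hw1 v =>
    hfpf w hw hw1 _ (trP_smul_self p w (hZp w hw) v)
  obtain ⟨y, hyA, hyZ⟩ : ∃ y ∈ A, y ∉ Zs := by
    by_contra hcon
    push Not at hcon
    have hle : A ≤ Zs := hcon
    have := Subgroup.card_le_of_le hle
    rw [hAc, hZcard] at this
    nlinarith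
  have hgen : ∀ x ∈ A, x ∉ Zs → ∀ x' ∈ A, ∃ (j : ℤ) (w : P), w ∈ Zs ∧ x' = x ^ j * w := by
    intro x hxA hxZ x' hx'A
    have hKle : Subgroup.zpowers x ⊔ Zs ≤ A := sup_le (Subgroup.zpowers_le.mpr hxA) hZA
    have hK : Subgroup.zpowers x ⊔ Zs = A := by
      apply Subgroup.eq_of_le_of_card_ge hKle
      have hdvd1 : Nat.card (Subgroup.zpowers x ⊔ Zs : Subgroup P) ∣ p ^ 2 := by
        rw [← hAc]; exact Subgroup.card_dvd_of_le hKle
      have hdvd2 : p ∣ Nat.card (Subgroup.zpowers x ⊔ Zs : Subgroup P) := by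
        rw [← hZcard]; exact Subgroup.card_dvd_of_le le_sup_right
      obtain ⟨i, hi, hci⟩ := (Nat.dvd_prime_pow hpp).mp hdvd1
      have hne : Nat.card (Subgroup.zpowers x ⊔ Zs : Subgroup P) ≠ p := by
        intro h
        have h5 : Zs = Subgroup.zpowers x ⊔ Zs :=
          Subgroup.eq_of_le_of_card_ge le_sup_right (by rw [h, hZcard])
        apply hxZ
        rw [h5]
        exact Subgroup.mem_sup_left (Subgroup.mem_zpowers x)
      rw [hAc, hci]
      interval_cases i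
      · rw [hci, pow_zero] at hdvd2
        exact absurd (Nat.dvd_one.mp hdvd2) hp1.ne'
      · exact absurd (by rw [hci, pow_one]) hne
      · exact le_refl _
    rw [← hK] at hx'A
    obtain ⟨x'', hx'', w, hw, rfl⟩ := Subgroup.mem_sup_of_normal_right.mp hx'A
    obtain ⟨j, rfl⟩ := Subgroup.mem_zpowers_iff.mp hx''
    exact ⟨j, w, hw, rfl⟩
  have hL2 : ∀ x ∈ A, x ∉ Zs → ∀ v : E, x • v = v → ∀ x' ∈ A,
      trP p x' v = p • v ∨ trP p x' v = 0 := by
    intro x hxA hxZ v hxv x' hx'A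
    obtain ⟨j, w, hw, rfl⟩ := hgen x hxA hxZ x' hx'A
    have hc : Commute (x ^ j) w := (hZc w hw (x ^ j))
    rw [trP_mul_of_fixed p (x ^ j) w hc v (zpow_smul_of_fixed x v hxv j)]
    by_cases hw1 : w = 1
    · left; rw [hw1]; exact trP_of_fixed p 1 v (one_smul _ _)
    · right; exact htr0 w hw hw1 v
  have hmain : ∀ v : E, ∑ i ∈ Finset.range p, trP p (y * z ^ i) v = p • v := by
    intro v
    have h1 : ∀ i : ℕ, trP p (y * z ^ i) v =
        ∑ j ∈ Finset.range p, y ^ j • ((z ^ j) ^ i • v) := by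
      intro i
      unfold trP
      refine Finset.sum_congr rfl (fun j _ => ?_)
      have hc : Commute y (z ^ i) := ((show Commute y z from hzc y).pow_right i)
      rw [hc.mul_pow, mul_smul, ← pow_mul, ← pow_mul, mul_comm i j]
    simp only [h1]
    rw [Finset.sum_comm]
    have h2 : ∀ j : ℕ, ∑ i ∈ Finset.range p, y ^ j • ((z ^ j) ^ i • v) =
        y ^ j • trP p (z ^ j) v := by
      intro j; unfold trP; rw [Finset.smul_sum]
    simp only [h2]
    rw [Finset.sum_eq_single 0]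
    · rw [pow_zero, pow_zero, one_smul]; exact trP_of_fixed p 1 v (one_smul _ _)
    · intro j hj hj0
      have hzj : z ^ j ≠ 1 := by
        intro h
        have h5 := orderOf_dvd_of_pow_eq_one h
        rw [hoz] at h5
        have h6 := Nat.le_of_dvd (Nat.pos_of_ne_zero hj0) h5
        exact absurd (Finset.mem_range.mp hj) (by omega)
      rw [htr0 (z ^ j) (hzZs j) hzj v, smul_zero]
    · intro h; exact absurd (Finset.mem_range.mpr hpp.pos) h
  have hyzA : ∀ i : ℕ, y * z ^ i ∈ A := fun i => A.mul_mem hyA (A.pow_mem hzA i)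
  have hyzZ : ∀ i : ℕ, y * z ^ i ∉ Zs := by
    intro i h
    apply hyZ
    have h5 : y = y * z ^ i * (z ^ i)⁻¹ := by group
    rw [h5]
    exact Zs.mul_mem h (Zs.inv_mem (hzZs i))
  have hmoves : ∀ x : P, x ≠ 1 → ∃ v : E, x • v ≠ v := by
    intro x hx
    by_contra hcon
    push Not at hcon
    exact hx (FaithfulSMul.eq_of_smul_eq_smul (α := E) (fun e => by rw [hcon e, one_smul]))
  have hy1 : y ≠ 1 := fun h => hyZ (h ▸ Zs.one_mem)
  -- x0, a
  obtain ⟨v0, hv0⟩ := hmoves y hy1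
  have hv00 : v0 ≠ 0 := by
    rintro rfl; exact hv0 (smul_zero y)
  obtain ⟨i0, hi0, ha0⟩ : ∃ i0 ∈ Finset.range p, trP p (y * z ^ i0) v0 ≠ 0 := by
    by_contra hcon
    push Not at hcon
    have h5 := hmain v0
    rw [Finset.sum_eq_zero hcon] at h5
    exact hv00 (hpinj v0 h5.symm)
  obtain ⟨x0, hx0⟩ : ∃ x0 : P, x0 = y * z ^ i0 := ⟨_, rfl⟩
  obtain ⟨a, ha⟩ : ∃ a : E, a = trP p x0 v0 := ⟨_, rfl⟩
  have hx0A : x0 ∈ A := hx0 ▸ hyzA i0
  have hx0Z : x0 ∉ Zs := hx0 ▸ hyzZ i0
  have hane : a ≠ 0 := by rw [ha, hx0]; exact ha0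
  have hx0a : x0 • a = a := by rw [ha]; exact trP_smul_self p x0 (hAe x0 hx0A) v0
  have hx01 : x0 ≠ 1 := fun h => hx0Z (h ▸ Zs.one_mem)
  -- x1, b
  obtain ⟨v1, hv1⟩ := hmoves x0 hx01
  obtain ⟨i1, hi1, hi10, hb0⟩ :
      ∃ i1 ∈ Finset.range p, i1 ≠ i0 ∧ trP p (y * z ^ i1) v1 ≠ 0 := by
    by_contra hcon
    push Not at hcon
    have h1 := hmain v1
    rw [Finset.sum_eq_single i0 (fun i hi hne => hcon i hi hne) (fun h => absurd hi0 h)] at h1
    have h3 : x0 • (p • v1) = p • v1 := by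
      rw [← h1, ← hx0]; exact trP_smul_self p x0 (hAe x0 hx0A) v1
    rw [smul_comm] at h3
    have h4 : p • (x0 • v1 - v1) = 0 := by rw [smul_sub, h3, sub_self]
    exact hv1 (sub_eq_zero.mp (hpinj _ h4))
  obtain ⟨x1, hx1⟩ : ∃ x1 : P, x1 = y * z ^ i1 := ⟨_, rfl⟩
  obtain ⟨b, hb⟩ : ∃ b : E, b = trP p x1 v1 := ⟨_, rfl⟩
  have hx1A : x1 ∈ A := hx1 ▸ hyzA i1
  have hx1Z : x1 ∉ Zs := hx1 ▸ hyzZ i1
  have hbne : b ≠ 0 := by rw [hb, hx1]; exact hb0
  have hx1b : x1 • b = b := by rw [hb]; exact trP_smul_self p x1 (hAe x1 hx1A) v1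
  -- w0
  obtain ⟨w0, hw0⟩ : ∃ w0 : P, w0 = x0⁻¹ * x1 := ⟨_, rfl⟩
  have hw0Z : w0 ∈ Zs := by
    have h5 : w0 = (z ^ i0)⁻¹ * z ^ i1 := by rw [hw0, hx0, hx1]; group
    rw [h5]
    exact Zs.mul_mem (Zs.inv_mem (hzZs i0)) (hzZs i1)
  have hw01 : w0 ≠ 1 := by
    intro h
    have h1 : x0 = x1 := by
      rw [hw0] at h; exact inv_mul_eq_one.mp h
    rw [hx0, hx1] at h1
    have h2 : z ^ i0 = z ^ i1 := mul_left_cancel h1
    have h3 := pow_injOn_Iio_orderOf
      (by rw [hoz]; exact Finset.mem_range.mp hi0 : i0 ∈ Set.Iio (orderOf z))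
      (by rw [hoz]; exact Finset.mem_range.mp hi1 : i1 ∈ Set.Iio (orderOf z)) h2
    exact hi10 h3.symm
  have hx1eq : x1 = x0 * w0 := by rw [hw0, mul_inv_cancel_left]
  have hx0eq : x0 = x1 * w0⁻¹ := by rw [hx1eq, mul_inv_cancel_right]
  have htx0b : trP p x0 b = 0 := by
    rw [hx0eq, trP_mul_of_fixed p x1 w0⁻¹ (hZc _ (Zs.inv_mem hw0Z) x1) b hx1b]
    exact htr0 _ (Zs.inv_mem hw0Z) (inv_ne_one.mpr hw01) b
  have hnofix : ∀ c : E, x0 • c = c → x1 • c = c → c = 0 := by
    intro c h0 h1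
    apply hfpf w0 hw0Z hw01
    rw [hw0, mul_smul, h1]
    exact inv_smul_eq_iff.mpr h0.symm
  have hK : x0 • b = b := by
    by_cases hab : a + b = 0
    · have h1 : b = -a := eq_neg_of_add_eq_zero_right hab
      rw [h1, smul_neg, hx0a]
    · refine stab_transfer hconst a b hane hab ?_ x0 hx0a
      intro g hg
      have hx0' : g * x0 * g⁻¹ ∈ A := hAn.conj_mem x0 hx0A g
      have h1 : trP p (g * x0 * g⁻¹) (a + b) = p • (g • a) := by
        conv_lhs => rw [← hg]
        rw [← smul_trP, trP_add, htx0b, add_zero, trP_of_fixed p x0 a hx0a, smul_comm]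
      rw [trP_add] at h1
      rcases hL2 x0 hx0A hx0Z a hx0a _ hx0' with ha1 | ha1 <;>
        rcases hL2 x1 hx1A hx1Z b hx1b _ hx0' with hb1 | hb1
      · rw [ha1, hb1, ← smul_add] at h1
        have h2 : g • a = a + b := by
          have h3 : p • (a + b - g • a) = 0 := by rw [smul_sub, h1, sub_self]
          exact (sub_eq_zero.mp (hpinj _ h3)).symm
        exfalso
        have h4 : g • b = 0 := by
          have h5 := hg
          rw [smul_add, h2] at h5
          exact add_left_cancel (a := a + b) (by rw [h5, add_zero])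
        exact hbne ((smul_eq_zero_iff_eq g).mp h4)
      · rw [ha1, hb1, add_zero] at h1
        have h3 : p • (g • a - a) = 0 := by rw [smul_sub, ← h1, sub_self]
        exact sub_eq_zero.mp (hpinj _ h3)
      · rw [ha1, hb1, zero_add] at h1
        have h2 : g • a = b := by
          have h3 : p • (g • a - b) = 0 := by rw [smul_sub, ← h1, sub_self]
          exact sub_eq_zero.mp (hpinj _ h3)
        have h4 : g • b = a := by
          have h5 := hg
          rw [smul_add, h2] at h5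
          have h6 : g • b + b = a + b := by rw [add_comm]; exact h5
          exact add_right_cancel h6
        have hg2 : (g ^ 2) • a = a := by rw [pow_two, mul_smul, h2, h4]
        obtain ⟨k, hk⟩ := (IsPGroup.iff_orderOf.mp hP) g
        have hodd : Odd (orderOf g) := by
          rw [hk]; exact (hpp.odd_of_ne_two hp2).pow
        obtain ⟨m, hm⟩ := hodd
        have hgg : g = (g ^ 2) ^ (m + 1) := by
          rw [← pow_mul, show 2 * (m + 1) = orderOf g + 1 by omega, pow_succ,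
            pow_orderOf_eq_one, one_mul]
        have hga : g • a = a := by
          rw [hgg]; exact pow_smul_of_fixed (g ^ 2) a hg2 (m + 1)
        have hab' : a = b := by rw [← h2, hga]
        exfalso
        exact hane (hnofix a hx0a (by rw [hab']; exact hx1b))
      · rw [ha1, hb1, add_zero] at h1
        exfalso
        exact hane ((smul_eq_zero_iff_eq g).mp (hpinj _ h1.symm))
  exact hbne (hnofix b hK hx1b)

end Const2

end Cfsg.Agent.H25
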