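import Mathlib
import Cfsg.Agent.H14.CqDefs
import Cfsg.Agent.H98.OtFib

set_option autoImplicit false
set_option maxHeartbeats 1000000

/-! COUNT sub-tree (helper14), piece CQ-EXT: the number of singular vectors orthogonal to, but
outside, the span of a linearly independent totally singular `m`-tuple. -/

namespace Cfsg.Agent.H25.Cq

open Cfsg.Agent.H77.Tq Cfsg.Agent.H77.Tm Cfsg.Agent.H14.Cq Module

universe u v

theorem ext (hA : StAvg.{u, v}) : StExt.{u, v} := by
  intro F _ _ V _ _ _ Q hnd m v hli h0 hpol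
  classical
  have hfin : Finite V := Module.finite_of_finite F
  obtain ⟨U, hU⟩ : ∃ U : Submodule F V, U = Submodule.span F (Set.range v) := ⟨_, rfl⟩
  have hUts : ∀ u ∈ U, Q u = 0 := by
    rw [hU]
    exact Cfsg.Agent.H98.Ot.span_ts Q m v h0 hpol
  have hUpol : ∀ u ∈ U, ∀ w ∈ U, QuadraticMap.polar (⇑Q) u w = 0 := by
    rw [hU]
    exact Cfsg.Agent.H98.Ot.span_polar Q m v hpol
  have hUd : finrank F U = m := by
    rw [hU, finrank_span_eq_card hli, Fintype.card_fin]
  have h := hA F V Q hnd U hUts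
  rw [hUd] at h
  have hset : {w : V | Q w = 0 ∧ ∀ u ∈ U, QuadraticMap.polar (⇑Q) u w = 0} =
      {w : V | Q w = 0 ∧ (∀ a, QuadraticMap.polar (⇑Q) (v a) w = 0) ∧
        w ∉ Submodule.span F (Set.range v)} ∪ (U : Set V) := by
    ext w
    simp only [Set.mem_ofPred_eq, Set.mem_union, SetLike.mem_coe]
    constructor
    · rintro ⟨hw0, hw⟩
      by_cases hwU : w ∈ U
      · exact Or.inr hwU
      · refine Or.inl ⟨hw0, fun a => hw (v a) ?_, ?_⟩
        · rw [hU]
          exact Submodule.subset_span ⟨a, rfl⟩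
        · rw [← hU]
          exact hwU
    · rintro (⟨hw0, hw, -⟩ | hwU)
      · refine ⟨hw0, ?_⟩
        intro u hu
        rw [hU] at hu
        refine Submodule.span_induction
          (p := fun u _ => QuadraticMap.polar (⇑Q) u w = 0) ?_ ?_ ?_ ?_ hu
        · rintro _ ⟨a, rfl⟩
          exact hw a
        · simp
        · intro x y _ _ hx hy
          rw [QuadraticMap.polar_add_left, hx, hy, add_zero]
        · intro c x _ hx
          rw [QuadraticMap.polar_smul_left, hx, smul_zero]
      · exact ⟨hUts w hwU, fun u hu => hUpol u hu w hwU⟩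
  have hdisj : Disjoint {w : V | Q w = 0 ∧ (∀ a, QuadraticMap.polar (⇑Q) (v a) w = 0) ∧
      w ∉ Submodule.span F (Set.range v)} (U : Set V) := by
    rw [Set.disjoint_left]
    rintro w ⟨-, -, hw⟩ hwU
    apply hw
    rw [← hU]
    exact hwU
  have hUc : (U : Set V).ncard = Fintype.card F ^ m := by
    rw [← Nat.card_coe_set_eq, ← Nat.card_eq_fintype_card]
    conv_rhs => rw [← hUd]
    exact Module.natCard_eq_pow_finrank (K := F) (V := U)
  have hcard := Set.ncard_union_eq hdisj (Set.toFinite _) (Set.toFinite _)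
  rw [← hset, hUc] at hcard
  have e1 : Nat.card {w : V // Q w = 0 ∧ ∀ u ∈ U, QuadraticMap.polar (⇑Q) u w = 0} =
      Nat.card {w : V // Q w = 0 ∧ (∀ a, QuadraticMap.polar (⇑Q) (v a) w = 0) ∧
        w ∉ Submodule.span F (Set.range v)} + Fintype.card F ^ m := hcard
  rw [e1] at h
  omega

example (hA : StAvg.{u, v}) : StExt.{u, v} := ext hA

end Cfsg.Agent.H25.Cq
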