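import Mathlib
import Cfsg.Agent.H14.CqDefs

set_option autoImplicit false
set_option maxHeartbeats 1000000

/-! COUNT sub-tree (helper14), piece CQ-TUPLES: the number of linearly independent `m`-tuples of
pairwise orthogonal singular vectors. -/

namespace Cfsg.Agent.H25.Cq

open Cfsg.Agent.H77.Tq Cfsg.Agent.H77.Tm Cfsg.Agent.H14.Cq Module

universe u v

theorem tuples (hE : StExt.{u, v}) : StTuples.{u, v} := by
  classical
  intro F _ _ V _ _ _ Q hnd m
  have hfin : Finite V := Module.finite_of_finite F
  induction m with
  | zero =>
    rw [Finset.prod_range_zero]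
    have : Unique {v : Fin 0 → V // LinearIndependent F v ∧ (∀ a, Q (v a) = 0) ∧
        ∀ a b, QuadraticMap.polar (⇑Q) (v a) (v b) = 0} :=
      { default := ⟨fun i => i.elim0, linearIndependent_empty_type, fun a => a.elim0,
          fun a => a.elim0⟩
        uniq := fun x => Subtype.ext (Subsingleton.elim _ _) }
    exact Nat.card_unique
  | succ m ih =>
    rw [Finset.prod_range_succ, ← ih]
    let g : {v : Fin (m + 1) → V // LinearIndependent F v ∧ (∀ a, Q (v a) = 0) ∧
        ∀ a b, QuadraticMap.polar (⇑Q) (v a) (v b) = 0} →
        {v : Fin m → V // LinearIndependent F v ∧ (∀ a, Q (v a) = 0) ∧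
        ∀ a b, QuadraticMap.polar (⇑Q) (v a) (v b) = 0} :=
      fun u => ⟨Fin.init u.1, u.2.1.comp _ (Fin.castSucc_injective m),
        fun a => u.2.2.1 a.castSucc, fun a b => u.2.2.2 a.castSucc b.castSucc⟩
    have hfib : ∀ v : {v : Fin m → V // LinearIndependent F v ∧ (∀ a, Q (v a) = 0) ∧
        ∀ a b, QuadraticMap.polar (⇑Q) (v a) (v b) = 0},
        Nat.card {u // g u = v} = Nat.card {w : V // Q w = 0} +
          Fintype.card F ^ (Module.finrank F V - 1 - m) -
          Fintype.card F ^ (Module.finrank F V - 1) - Fintype.card F ^ m := by
      intro v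
      have hext := hE F V Q hnd m v.1 v.2.1 v.2.2.1 v.2.2.2
      have hc : Nat.card {u // g u = v} =
          Nat.card {w : V // Q w = 0 ∧ (∀ a, QuadraticMap.polar (⇑Q) (v.1 a) w = 0) ∧
            w ∉ Submodule.span F (Set.range v.1)} := by
        refine Nat.card_congr ?_
        refine
          { toFun := fun u => ⟨u.1.1 (Fin.last m), ?_, ?_, ?_⟩
            invFun := fun w => ⟨⟨Fin.snoc v.1 w.1, ?_, ?_, ?_⟩, ?_⟩
            left_inv := ?_
            right_inv := ?_ }
        · exact u.1.2.2.1 (Fin.last m)
        · intro a
          have h1 : Fin.init u.1.1 = v.1 := congrArg Subtype.val u.2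
          rw [← h1]
          exact u.1.2.2.2 a.castSucc (Fin.last m)
        · have h1 : Fin.init u.1.1 = v.1 := congrArg Subtype.val u.2
          have h2 := u.1.2.1
          rw [← Fin.snoc_init_self u.1.1, linearIndependent_finSnoc, h1] at h2
          exact h2.2
        · exact linearIndependent_finSnoc.mpr ⟨v.2.1, w.2.2.2⟩
        · intro a
          induction a using Fin.lastCases with
          | last =>
            rw [Fin.snoc_last]
            exact w.2.1
          | cast a =>
            rw [Fin.snoc_castSucc]
            exact v.2.2.1 a
        · intro a b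
          induction a using Fin.lastCases with
          | last =>
            induction b using Fin.lastCases with
            | last =>
              rw [Fin.snoc_last, QuadraticMap.polar_self, w.2.1, smul_zero]
            | cast b =>
              rw [Fin.snoc_last, Fin.snoc_castSucc, QuadraticMap.polar_comm]
              exact w.2.2.1 b
          | cast a =>
            induction b using Fin.lastCases with
            | last =>
              rw [Fin.snoc_last, Fin.snoc_castSucc]
              exact w.2.2.1 a
            | cast b =>
              rw [Fin.snoc_castSucc, Fin.snoc_castSucc]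
              exact v.2.2.2 a b
        · refine Subtype.ext ?_
          show Fin.init (Fin.snoc (α := fun _ => V) v.1 w.1) = v.1
          exact Fin.init_snoc _ _
        · intro u
          have h1 : Fin.init u.1.1 = v.1 := congrArg Subtype.val u.2
          refine Subtype.ext (Subtype.ext ?_)
          show Fin.snoc v.1 (u.1.1 (Fin.last m)) = u.1.1
          rw [← h1]
          exact Fin.snoc_init_self _
        · intro w
          refine Subtype.ext ?_
          show Fin.snoc (α := fun _ => V) v.1 w.1 (Fin.last m) = w.1
          exact Fin.snoc_last _ _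
      rw [hc]
      omega
    have : Fintype {v : Fin m → V // LinearIndependent F v ∧ (∀ a, Q (v a) = 0) ∧
        ∀ a b, QuadraticMap.polar (⇑Q) (v a) (v b) = 0} := Fintype.ofFinite _
    rw [← Nat.card_congr (Equiv.sigmaFiberEquiv g), Nat.card_sigma,
      Finset.sum_congr rfl (fun v _ => hfib v), Finset.sum_const, Finset.card_univ,
      smul_eq_mul, Fintype.card_eq_nat_card]

example (hE : StExt.{u, v}) : StTuples.{u, v} := tuples hE

end Cfsg.Agent.H25.Cq
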