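import Mathlib
import Cfsg.Agent.H86.Ev2Defs

set_option autoImplicit false
set_option maxHeartbeats 1000000

/-! EV2 team project (helper86), piece EV2-INVLOWE: in dimension `2 d`, an isometry `T` with
`T * T = 1` fixes a totally isotropic `m`-space for every `m ≤ d - 2`.  Also the shared
eigenspace lemmas `inv_core`, `inv_build`, `witt0` (used by EV2-INVMINUS). -/

namespace Cfsg.Agent.H25.Ev2

open Cfsg.Agent.H45 Cfsg.Agent.H42.Spd Cfsg.Agent.H42.Ti Cfsg.Agent.H14.Ot Cfsg.Agent.H95.Oh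
  Cfsg.Agent.H86.Ev2 Module

universe u v

/-- A subspace has subspaces of every smaller dimension. -/
theorem exists_le_finrank_eq {F : Type u} [Field F] {V : Type v} [AddCommGroup V] [Module F V]
    [FiniteDimensional F V] (U : Submodule F V) (n : ℕ) (hn : n ≤ finrank F U) :
    ∃ U₁ : Submodule F V, U₁ ≤ U ∧ finrank F U₁ = n := by
  obtain ⟨b, -⟩ : ∃ b : Basis (Fin (finrank F U)) F U, b = Module.finBasis F U := ⟨_, rfl⟩
  refine ⟨Submodule.span F (Set.range (fun i : Fin n => (b (Fin.castLE hn i) : V))), ?_, ?_⟩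
  · rw [Submodule.span_le]
    rintro _ ⟨i, rfl⟩
    exact (b _).2
  · have h1 : LinearIndependent F (fun i => (b i : V)) :=
      b.linearIndependent.map' U.subtype (Submodule.ker_subtype U)
    have hli : LinearIndependent F (fun i : Fin n => (b (Fin.castLE hn i) : V)) :=
      h1.comp _ (Fin.castLE_injective hn)
    rw [finrank_span_eq_card hli, Fintype.card_fin]

/-- The eigenspace decomposition of an involutory isometry (`2 ≠ 0`). -/
theorem inv_core {F : Type u} [Field F] {V : Type v} [AddCommGroup V] [Module F V]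
    [FiniteDimensional F V] (B : V →ₗ[F] V →ₗ[F] F) (T : Module.End F V) (h2 : (2 : F) ≠ 0)
    (hsymm : ∀ x y, B x y = B y x) (hnd : ∀ x, (∀ y, B x y = 0) → x = 0)
    (hTB : ∀ x y, B (T x) (T y) = B x y) (hT1 : T * T = 1) :
    ∃ Vp Vm : Submodule F V, (∀ v, v ∈ Vp ↔ T v = v) ∧ (∀ v, v ∈ Vm ↔ T v = -v) ∧
      (∀ u ∈ Vp, ∀ w ∈ Vm, B u w = 0) ∧ Vp ⊓ perp B Vp = ⊥ ∧ Vm ⊓ perp B Vm = ⊥ ∧
      Vp ⊓ Vm = ⊥ ∧ Vp ⊔ Vm = ⊤ ∧ finrank F Vp + finrank F Vm = finrank F V := by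
  have hTT : ∀ v, T (T v) = v := by
    intro v
    have h := congrArg (fun f : Module.End F V => f v) hT1
    simpa using h
  obtain ⟨Vp, hVp⟩ : ∃ Vp : Submodule F V, Vp = LinearMap.ker (T - 1) := ⟨_, rfl⟩
  obtain ⟨Vm, hVm⟩ : ∃ Vm : Submodule F V, Vm = LinearMap.ker (T + 1) := ⟨_, rfl⟩
  have hmemp : ∀ v, v ∈ Vp ↔ T v = v := by
    intro v
    rw [hVp, LinearMap.mem_ker, LinearMap.sub_apply, Module.End.one_apply, sub_eq_zero]
  have hmemm : ∀ v, v ∈ Vm ↔ T v = -v := by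
    intro v
    rw [hVm, LinearMap.mem_ker, LinearMap.add_apply, Module.End.one_apply,
      add_eq_zero_iff_eq_neg]
  have h2inv : (2 : F) * (2 : F)⁻¹ = 1 := mul_inv_cancel₀ h2
  have horth : ∀ u ∈ Vp, ∀ w ∈ Vm, B u w = 0 := by
    intro u hu w hw
    have h1 := hTB u w
    rw [(hmemp u).1 hu, (hmemm w).1 hw, map_neg] at h1
    have h3 : (2 : F) * B u w = 0 := by
      rw [two_mul]
      nth_rewrite 1 [← h1]
      exact neg_add_cancel _
    rcases mul_eq_zero.1 h3 with h | h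
    · exact absurd h h2
    · exact h
  have hsplit : ∀ v, ∃ u ∈ Vp, ∃ w ∈ Vm, v = u + w := by
    intro v
    refine ⟨(2 : F)⁻¹ • (v + T v), ?_, (2 : F)⁻¹ • (v - T v), ?_, ?_⟩
    · rw [hmemp, map_smul, map_add, hTT, add_comm]
    · rw [hmemm, map_smul, map_sub, hTT, ← smul_neg, neg_sub]
    · rw [← smul_add]
      have e : v + T v + (v - T v) = (2 : F) • v := by
        rw [two_smul]
        abel
      rw [e, smul_smul, mul_comm, h2inv, one_smul]
  have hVpnd : Vp ⊓ perp B Vp = ⊥ := by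
    rw [eq_bot_iff]
    rintro y ⟨hyV, hyp⟩
    rw [Submodule.mem_bot]
    apply hnd
    intro v
    obtain ⟨u, hu, w, hw, rfl⟩ := hsplit v
    rw [map_add, hsymm y u, hyp u hu, horth y hyV w hw, add_zero]
  have hVmnd : Vm ⊓ perp B Vm = ⊥ := by
    rw [eq_bot_iff]
    rintro y ⟨hyV, hyp⟩
    rw [Submodule.mem_bot]
    apply hnd
    intro v
    obtain ⟨u, hu, w, hw, rfl⟩ := hsplit v
    rw [map_add, hsymm y w, hyp w hw, hsymm y u, horth u hu y hyV, add_zero]
  have hdisj : Vp ⊓ Vm = ⊥ := by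
    rw [eq_bot_iff]
    rintro y ⟨hyp, hym⟩
    rw [Submodule.mem_bot]
    have h1 : y = -y := by
      rw [← (hmemm y).1 hym]
      exact ((hmemp y).1 hyp).symm
    have h3 : (2 : F) • y = 0 := by
      rw [two_smul]
      nth_rewrite 1 [h1]
      exact neg_add_cancel y
    rcases smul_eq_zero.1 h3 with h | h
    · exact absurd h h2
    · exact h
  have hsup : Vp ⊔ Vm = ⊤ := by
    rw [eq_top_iff]
    intro v _
    obtain ⟨u, hu, w, hw, rfl⟩ := hsplit v
    exact Submodule.add_mem_sup hu hw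
  have hdim : finrank F Vp + finrank F Vm = finrank F V := by
    have h3 := Submodule.finrank_sup_add_finrank_inf_eq Vp Vm
    rw [hsup, hdisj, finrank_bot, finrank_top] at h3
    omega
  exact ⟨Vp, Vm, hmemp, hmemm, horth, hVpnd, hVmnd, hdisj, hsup, hdim⟩

/-- From totally isotropic subspaces of the two eigenspaces: an invariant totally isotropic
subspace of any dimension up to the sum of theirs. -/
theorem inv_build {F : Type u} [Field F] {V : Type v} [AddCommGroup V] [Module F V]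
    [FiniteDimensional F V] (B : V →ₗ[F] V →ₗ[F] F) (T : Module.End F V)
    (Vp Vm : Submodule F V) (hmemp : ∀ v, v ∈ Vp ↔ T v = v) (hmemm : ∀ v, v ∈ Vm ↔ T v = -v)
    (horth : ∀ u ∈ Vp, ∀ w ∈ Vm, B u w = 0) (hsymm : ∀ x y, B x y = B y x)
    (hdisj : Vp ⊓ Vm = ⊥)
    (Jp Jm : Submodule F V) (hJpV : Jp ≤ Vp) (hJmV : Jm ≤ Vm) (hJpTI : TI B Jp)
    (hJmTI : TI B Jm) (m : ℕ) (hm : m ≤ finrank F Jp + finrank F Jm) :
    ∃ W : Submodule F V, W ∈ T.invtSubmodule ∧ TI B W ∧ finrank F W = m := by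
  obtain ⟨Ip, hIp, hIpd⟩ := exists_le_finrank_eq Jp (min m (finrank F Jp)) (min_le_right _ _)
  obtain ⟨Im, hIm, hImd⟩ := exists_le_finrank_eq Jm (m - min m (finrank F Jp)) (by omega)
  refine ⟨Ip ⊔ Im, ?_, ?_, ?_⟩
  · rw [Module.End.mem_invtSubmodule]
    intro w hw
    rw [Submodule.mem_comap]
    obtain ⟨u, hu, v, hv, rfl⟩ := Submodule.mem_sup.1 hw
    rw [map_add, (hmemp u).1 (hJpV (hIp hu)), (hmemm v).1 (hJmV (hIm hv))]
    exact Submodule.add_mem_sup hu (Im.neg_mem hv)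
  · intro w hw w' hw'
    obtain ⟨u, hu, v, hv, rfl⟩ := Submodule.mem_sup.1 hw
    obtain ⟨u', hu', v', hv', rfl⟩ := Submodule.mem_sup.1 hw'
    rw [map_add, map_add, LinearMap.add_apply, LinearMap.add_apply,
      hJpTI u (hIp hu) u' (hIp hu'), hJmTI v (hIm hv) v' (hIm hv'),
      horth u (hJpV (hIp hu)) v' (hJmV (hIm hv')), hsymm v u',
      horth u' (hJpV (hIp hu')) v (hJmV (hIm hv))]
    simp
  · have h3 := Submodule.finrank_sup_add_finrank_inf_eq Ip Im
    have h4 : Ip ⊓ Im = ⊥ := by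
      rw [eq_bot_iff, ← hdisj]
      exact inf_le_inf (hIp.trans hJpV) (hIm.trans hJmV)
    rw [h4, finrank_bot] at h3
    omega

/-- Witt's lemma `StOWitt` with the degenerate case `j = 0` allowed. -/
theorem witt0 (hW : StOWitt.{u, v}) {F : Type u} [Field F] [Fintype F] {V : Type v}
    [AddCommGroup V] [Module F V] [FiniteDimensional F V] (B : V →ₗ[F] V →ₗ[F] F)
    (h2 : (2 : F) ≠ 0) (hsymm : ∀ x y, B x y = B y x) (K : Submodule F V) (j : ℕ)
    (hK : K ⊓ perp B K = ⊥) (hj : j = 0 ∨ 2 * j + 1 ≤ finrank F K) :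
    ∃ J : Submodule F V, J ≤ K ∧ TI B J ∧ finrank F J = j := by
  rcases hj with rfl | hj
  · refine ⟨⊥, bot_le, ?_, finrank_bot F _⟩
    intro u hu v _
    rw [Submodule.mem_bot] at hu
    rw [hu, map_zero, LinearMap.zero_apply]
  · exact hW F V B h2 hsymm K j hK hj

theorem invLowE (hW : StOWitt.{u, v}) : StInvLowE.{u, v} := by
  intro F _ _ V _ _ _ B T h2 hsymm hnd hTB hT1 d m hd hmd
  obtain ⟨Vp, Vm, hmemp, hmemm, horth, hVpnd, hVmnd, hdisj, hsup, hdim⟩ :=
    inv_core B T h2 hsymm hnd hTB hT1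
  obtain ⟨Jp, hJpV, hJpTI, hJpdim⟩ := witt0 hW B h2 hsymm Vp ((finrank F Vp - 1) / 2) hVpnd
    (by omega)
  obtain ⟨Jm, hJmV, hJmTI, hJmdim⟩ := witt0 hW B h2 hsymm Vm ((finrank F Vm - 1) / 2) hVmnd
    (by omega)
  exact inv_build B T Vp Vm hmemp hmemm horth hsymm hdisj Jp Jm hJpV hJmV hJpTI hJmTI m
    (by omega)

example (hW : StOWitt.{u, v}) : StInvLowE.{u, v} := invLowE hW

end Cfsg.Agent.H25.Ev2
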