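import Mathlib
import Cfsg.Agent.H86.Ev2Defs
import Cfsg.Agent.H25.Ev2InvLowE

set_option autoImplicit false
set_option maxHeartbeats 1000000

/-! EV2 team project (helper86), piece EV2-INVMINUS: if the space (dimension `2 d`) is not of
plus type, an isometry `T` with `T * T = 1` fixes a totally isotropic `m`-space for every
`m ≤ d - 1`. -/

namespace Cfsg.Agent.H25.Ev2

open Cfsg.Agent.H45 Cfsg.Agent.H42.Spd Cfsg.Agent.H42.Ti Cfsg.Agent.H14.Ot Cfsg.Agent.H95.Oh
  Cfsg.Agent.H86.Ev2 Module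

universe u v

theorem invMinus (hW : StOWitt.{u, v}) (hSum : StSumType.{u, v}) : StInvMinus.{u, v} := by
  intro F _ _ V _ _ _ B T h2 hsymm hnd hTB hT1 hnP d m hd hmd
  obtain ⟨Vp, Vm, hmemp, hmemm, horth, hVpnd, hVmnd, hdisj, hsup, hdim⟩ :=
    inv_core B T h2 hsymm hnd hTB hT1
  by_cases hodd : Odd (finrank F Vp)
  · -- both eigenspaces of odd dimension
    have hodd' : Odd (finrank F Vm) := by
      rcases hodd with ⟨k, hk⟩
      refine ⟨d - k - 1, ?_⟩
      omega
    obtain ⟨Jp, hJpV, hJpTI, hJpdim⟩ := witt0 hW B h2 hsymm Vp ((finrank F Vp - 1) / 2) hVpnd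
      (by omega)
    obtain ⟨Jm, hJmV, hJmTI, hJmdim⟩ := witt0 hW B h2 hsymm Vm ((finrank F Vm - 1) / 2) hVmnd
      (by omega)
    refine inv_build B T Vp Vm hmemp hmemm horth hsymm hdisj Jp Jm hJpV hJmV hJpTI hJmTI m ?_
    rcases hodd with ⟨k, hk⟩
    rcases hodd' with ⟨k', hk'⟩
    omega
  · have hev : Even (finrank F Vp) := Nat.not_odd_iff_even.1 hodd
    have hev' : Even (finrank F Vm) := by
      rcases hev with ⟨k, hk⟩
      refine ⟨d - k, ?_⟩
      omega
    by_cases hz : finrank F Vp = 0 ∨ finrank F Vm = 0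
    · obtain ⟨Jp, hJpV, hJpTI, hJpdim⟩ := witt0 hW B h2 hsymm Vp ((finrank F Vp - 1) / 2) hVpnd
        (by omega)
      obtain ⟨Jm, hJmV, hJmTI, hJmdim⟩ := witt0 hW B h2 hsymm Vm ((finrank F Vm - 1) / 2) hVmnd
        (by omega)
      refine inv_build B T Vp Vm hmemp hmemm horth hsymm hdisj Jp Jm hJpV hJmV hJpTI hJmTI m ?_
      rcases hev with ⟨k, hk⟩
      rcases hev' with ⟨k', hk'⟩
      omega
    · push Not at hz
      have hVmperp : Vm ≤ perp B Vp := fun w hw u hu => horth u hu w hw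
      obtain ⟨-, -, hiff⟩ := hSum F V B h2 hsymm Vp Vm hVpnd hVmnd hVmperp hev hev'
      rw [hsup] at hiff
      have hne : ¬ (Plus B Vp ↔ Plus B Vm) := fun h => hnP (hiff.2 h)
      rcases hev with ⟨k, hk⟩
      rcases hev' with ⟨k', hk'⟩
      by_cases hPp : Plus B Vp
      · obtain ⟨Jp, hJpV, hJpTI, hJpdim⟩ := hPp
        obtain ⟨Jm, hJmV, hJmTI, hJmdim⟩ := witt0 hW B h2 hsymm Vm (k' - 1) hVmnd
          (by omega)
        refine inv_build B T Vp Vm hmemp hmemm horth hsymm hdisj Jp Jm hJpV hJmV hJpTI hJmTI m ?_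
        omega
      · have hPm : Plus B Vm := by
          by_contra hPm
          exact hne ⟨fun h => absurd h hPp, fun h => absurd h hPm⟩
        obtain ⟨Jm, hJmV, hJmTI, hJmdim⟩ := hPm
        obtain ⟨Jp, hJpV, hJpTI, hJpdim⟩ := witt0 hW B h2 hsymm Vp (k - 1) hVpnd
          (by omega)
        refine inv_build B T Vp Vm hmemp hmemm horth hsymm hdisj Jp Jm hJpV hJmV hJpTI hJmTI m ?_
        omega

example (hW : StOWitt.{u, v}) (hSum : StSumType.{u, v}) : StInvMinus.{u, v} :=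
  invMinus hW hSum

end Cfsg.Agent.H25.Ev2
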