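import Mathlib
import Cfsg.Agent.H86.Ev2Defs
import Cfsg.Agent.H86.OtInvOmega
import Cfsg.Agent.H25.Ev2InvLowE

set_option autoImplicit false
set_option maxHeartbeats 1000000

/-! EV2 team project (helper86), piece EV2-INVSQ: if `-1` is a square and the space (dimension
`2 d`) has a totally singular `d`-space, every `x ∈ Ω` with `x ^ 2 = 1` fixes a totally singular
`m`-space for all `m ≤ d`. -/

namespace Cfsg.Agent.H25.Ev2

open Cfsg.Agent.H45 Cfsg.Agent.H42.Spd Cfsg.Agent.H42.Ti Cfsg.Agent.H14.Ot Cfsg.Agent.H95.Oh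
  Cfsg.Agent.H86.Ev2 Module

universe u

theorem invSq (hSum : Cfsg.Agent.H95.Oh.StSumType.{u, u}) : StInvSq.{u} := by
  intro F _ _ ι _ _ Q h2 hsq1 hndQ d hcard hU x hxΩ hx2 m hmd
  obtain ⟨U, hUQ, hUd⟩ := hU
  classical
  obtain ⟨g, hg, hgx⟩ := (Cfsg.Agent.H49.mem_omegaGL_iff (⇑Q) x).1 hxΩ
  have hx : x ∈ Cfsg.isometryGroup F (⇑Q) := by
    rw [← hgx]
    exact g.2
  obtain ⟨B, hB⟩ : ∃ B : (ι → F) →ₗ[F] (ι → F) →ₗ[F] F,
      B = QuadraticMap.polarBilin Q := ⟨_, rfl⟩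
  have hBapp : ∀ u v, B u v = QuadraticMap.polar Q u v := by
    intro u v
    rw [hB]
    rfl
  have hsymm : ∀ u v, B u v = B v u := by
    intro u v
    rw [hBapp, hBapp]
    exact QuadraticMap.polar_comm Q u v
  have hBself : ∀ v, B v v = 2 * Q v := by
    intro v
    rw [hBapp, QuadraticMap.polar_self]
    simp [two_mul]
  have hnd : ∀ u, (∀ v, B u v = 0) → u = 0 := by
    intro u hu
    apply hndQ u
    intro v
    rw [← hBapp]
    exact hu v
  have hQ0 : ∀ J : Submodule F (ι → F), (∀ u ∈ J, Q u = 0) → TI B J := by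
    intro J hJ u hu v hv
    rw [hBapp]
    unfold QuadraticMap.polar
    rw [hJ _ (J.add_mem hu hv), hJ u hu, hJ v hv]
    simp
  obtain ⟨T, hT⟩ : ∃ T : Module.End F (ι → F),
      T = Matrix.toLin' (x : Matrix ι ι F) := ⟨_, rfl⟩
  have hTapp : ∀ v, T v = Matrix.mulVec (x : Matrix ι ι F) v := by
    intro v
    rw [hT, Matrix.toLin'_apply]
  have hTT : ∀ v, T (T v) = v := by
    intro v
    rw [hTapp, hTapp, Matrix.mulVec_mulVec]
    have h1 : (x : Matrix ι ι F) * (x : Matrix ι ι F) = 1 := by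
      rw [← Units.val_mul, ← pow_two, hx2, Units.val_one]
    rw [h1, Matrix.one_mulVec]
  have hT1 : T * T = 1 := by
    apply LinearMap.ext
    intro v
    rw [Module.End.mul_apply, hTT, Module.End.one_apply]
  have hTQ : ∀ v, Q (T v) = Q v := by
    intro v
    rw [hTapp]
    exact (Cfsg.Agent.H95.mem_isometryGroup_iff _ x).1 hx v
  have hTB : ∀ u v, B (T u) (T v) = B u v := by
    intro u v
    rw [hBapp, hBapp]
    unfold QuadraticMap.polar
    rw [← map_add, hTQ, hTQ, hTQ]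
  obtain ⟨Vp, Vm, hmemp, hmemm, horth, hVpnd, hVmnd, hdisj, hsup, hdim⟩ :=
    inv_core B T h2 hsymm hnd hTB hT1
  have hsplit : ∀ v, ∃ u ∈ Vp, ∃ w ∈ Vm, v = u + w := by
    intro v
    have hv : v ∈ Vp ⊔ Vm := by
      rw [hsup]
      exact Submodule.mem_top
    obtain ⟨u, hu, w, hw, huw⟩ := Submodule.mem_sup.1 hv
    exact ⟨u, hu, w, hw, huw.symm⟩
  -- an orthogonal basis of the `-1`-eigenspace
  obtain ⟨vs, hlen, hpw, hne, hspan⟩ := Cfsg.Agent.H86.Ot.exists_orth_list B h2 hsymm Vm hVmnd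
  have hpwQ : vs.Pairwise (fun u w => QuadraticMap.polar (⇑Q) u w = 0) := by
    refine hpw.imp ?_
    intro u w h
    rw [← hBapp]
    exact h
  have hneQ : ∀ v ∈ vs, Q v ≠ 0 := by
    intro v hv h0
    apply hne v hv
    rw [hBself, h0, mul_zero]
  have hvsVm : ∀ v ∈ vs, v ∈ Vm := by
    intro v hv
    rw [← hspan]
    exact Submodule.subset_span hv
  have hRneg : ∀ w ∈ Submodule.span F {v | v ∈ vs},
      Matrix.mulVec (vs.map (fun v => Cfsg.reflectionMatrix (⇑Q) v)).prod w = -w := by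
    intro w hw
    induction hw using Submodule.span_induction with
    | mem v hv => exact Cfsg.Agent.H45.prod_refl_neg Q vs hpwQ hneQ v hv
    | zero => rw [Matrix.mulVec_zero, neg_zero]
    | add a b _ _ ha hb => rw [Matrix.mulVec_add, ha, hb, neg_add]
    | smul c a _ ha => rw [Matrix.mulVec_smul, ha, smul_neg]
  have hR : (x : Matrix ι ι F) =
      (vs.map (fun v => Cfsg.reflectionMatrix (⇑Q) v)).prod := by
    apply Cfsg.Agent.H49.matrix_ext_mulVec
    intro y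
    obtain ⟨u, hu, w, hw, rfl⟩ := hsplit y
    rw [Matrix.mulVec_add, Matrix.mulVec_add]
    congr 1
    · rw [← hTapp, (hmemp u).1 hu, Cfsg.Agent.H45.prod_refl_fix Q vs u]
      intro v hv
      rw [← hBapp, hsymm]
      exact horth u hu v (hvsVm v hv)
    · rw [← hTapp, (hmemm w).1 hw]
      exact (hRneg w (by rw [hspan]; exact hw)).symm
  have hspin := (Cfsg.Agent.H49.mem_commutator_iff_of_prod_refl Q h2 g vs hneQ
    (by rw [hgx]; exact hR)).1 hg
  obtain ⟨⟨n, hn⟩, hsqprod⟩ := hspin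
  obtain ⟨s, hs⟩ := hsq1
  have hpair := Cfsg.Agent.H86.Ot.pairing Q h2 s hs.symm n vs (by omega) hpwQ hneQ hsqprod
  obtain ⟨Jm, hJmV', hJmQ, hJmdim⟩ := hpair n le_rfl
  have hJmV : Jm ≤ Vm := by
    rw [← hspan]
    exact hJmV'
  have hJmTI : TI B Jm := hQ0 Jm hJmQ
  have hPm : Plus B Vm := ⟨Jm, hJmV, hJmTI, by omega⟩
  have hfin : finrank F (ι → F) = 2 * d := by
    rw [Module.finrank_fintype_fun_eq_card, hcard]
  have hPtop : Plus B (⊤ : Submodule F (ι → F)) := by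
    refine ⟨U, le_top, hQ0 U hUQ, ?_⟩
    rw [finrank_top, hfin, hUd]
  have hVmperp : Vm ≤ perp B Vp := fun w hw u hu => horth u hu w hw
  have hevm : Even (finrank F Vm) := ⟨n, by omega⟩
  have hevp : Even (finrank F Vp) := ⟨d - n, by omega⟩
  obtain ⟨-, -, hiff⟩ := hSum F (ι → F) B h2 hsymm Vp Vm hVpnd hVmnd hVmperp hevp hevm
  rw [hsup] at hiff
  obtain ⟨Jp, hJpV, hJpTI, hJpdim⟩ := (hiff.1 hPtop).2 hPm
  obtain ⟨W, hWinv, hWTI, hWdim⟩ :=
    inv_build B T Vp Vm hmemp hmemm horth hsymm hdisj Jp Jm hJpV hJmV hJpTI hJmTI m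
      (by omega)
  refine ⟨W, hWdim, ?_, ?_⟩
  · intro w hw
    have h := hBself w
    rw [hWTI w hw w hw] at h
    rcases mul_eq_zero.1 h.symm with h' | h'
    · exact absurd h' h2
    · exact h'
  · rw [Submodule.map_le_iff_le_comap, ← hT]
    exact (Module.End.mem_invtSubmodule T).1 hWinv

example (hSum : Cfsg.Agent.H95.Oh.StSumType.{u, u}) : StInvSq.{u} := invSq hSum

end Cfsg.Agent.H25.Ev2
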