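import Mathlib
import Cfsg.Agent.H66.GrossDefs

set_option autoImplicit false

/-!
# S3795, piece CYC (helper25 for helper66)

An abelian subgroup of exponent `q` acts on a common eigenvector through a cyclic quotient.
-/

namespace Cfsg.Agent.H25.Gross

open Cfsg.Agent.H66.Gross

universe u

theorem cyc_holds : CycStatement.{u} := by
  intro H _ _ q hq K _ V _ _ ρ A hexp _ w hw hA
  classical
  have hqp : q.Prime := hq.out
  choose χ hχ using (fun a : A => hA a a.2)
  -- scalars are determined by their action on `w`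
  have hinj : ∀ c c' : K, c • w = c' • w → c = c' := by
    intro c c' h
    by_contra hne
    have h0 : (c - c') • w = 0 := by rw [sub_smul, h, sub_self]
    rcases smul_eq_zero.mp h0 with h1 | h1
    · exact hne (sub_eq_zero.mp h1)
    · exact hw h1
  have hmul : ∀ a b : A, χ (a * b) = χ a * χ b := by
    intro a b
    apply hinj
    rw [← hχ (a * b), Subgroup.coe_mul, map_mul, Module.End.mul_apply, hχ b, map_smul, hχ a,
      smul_smul, mul_comm]
  have hone : χ 1 = 1 := by
    apply hinj
    rw [← hχ 1, Subgroup.coe_one, map_one, Module.End.one_apply, one_smul]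
  have hpow : ∀ (a : A) (i : ℕ), χ (a ^ i) = χ a ^ i := by
    intro a i
    induction i with
    | zero => rw [pow_zero, pow_zero, hone]
    | succ i ih => rw [pow_succ, pow_succ, hmul, ih]
  have hq1 : ∀ a : A, χ a ^ q = 1 := by
    intro a
    rw [← hpow]
    have : a ^ q = 1 := Subtype.ext (by rw [Subgroup.coe_pow, hexp a a.2, Subgroup.coe_one])
    rw [this, hone]
  by_cases hall : ∀ a : A, χ a = 1
  · refine ⟨1, A.one_mem, fun c hc => ⟨0, ?_⟩⟩
    rw [pow_zero, mul_one]
    have := hχ ⟨c, hc⟩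
    rw [hall, one_smul] at this
    exact this
  · obtain ⟨c₀, hc₀⟩ := not_forall.mp hall
    refine ⟨c₀, c₀.2, fun c hc => ?_⟩
    have hord : orderOf (χ c₀) = q := by
      have hdvd : orderOf (χ c₀) ∣ q := orderOf_dvd_of_pow_eq_one (hq1 c₀)
      rcases (Nat.dvd_prime hqp).mp hdvd with h | h
      · exact absurd (orderOf_eq_one_iff.mp h) hc₀
      · exact h
    have hprim : IsPrimitiveRoot (χ c₀) q := hord ▸ IsPrimitiveRoot.orderOf (χ c₀)
    have : NeZero q := ⟨hqp.ne_zero⟩
    have hc0 : χ ⟨c, hc⟩ ≠ 0 := by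
      intro h
      have := hq1 ⟨c, hc⟩
      rw [h, zero_pow hqp.ne_zero] at this
      exact zero_ne_one this
    have hinv : (χ ⟨c, hc⟩)⁻¹ ^ q = 1 := by
      rw [inv_pow, hq1, inv_one]
    obtain ⟨i, -, hi⟩ := hprim.eq_pow_of_pow_eq_one hinv
    refine ⟨i, ?_⟩
    have h1 := hχ (⟨c, hc⟩ * c₀ ^ i)
    rw [hmul, hpow, hi, mul_inv_cancel₀ hc0, one_smul] at h1
    exact h1

end Cfsg.Agent.H25.Gross
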