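import Mathlib
import Cfsg.Agent.H66.GrossDefs
import Cfsg.Agent.H66.GrossSmall

set_option autoImplicit false

/-!
# S3795, piece G1 (helper25 for helper66)

The glue step: inverted `s`-elements of `σ`-invariant `s`-subgroups centralise `O_q(H)`.
-/

namespace Cfsg.Agent.H25.Gross

open Cfsg Cfsg.Agent.H66.Gross
open scoped commutatorElement

universe u

/-- A group with a fixed-point-free automorphism of `2`-power order has odd order. -/
theorem odd_card_of_fpf {H : Type*} [Group H] [Finite H] (σ : MulAut H) (n : ℕ)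
    (hσ : σ ^ (2 ^ n) = 1) (hfix : ∀ h : H, σ h = h → h = 1) : Odd (Nat.card H) := by
  classical
  have hP : IsPGroup 2 (Subgroup.zpowers σ) := by
    rintro ⟨g, k, rfl⟩
    refine ⟨n, ?_⟩
    apply Subtype.ext
    show (σ ^ k) ^ 2 ^ n = 1
    rw [← zpow_natCast, ← zpow_mul, mul_comm, zpow_mul, zpow_natCast, hσ, one_zpow]
  have h1 := hP.card_modEq_card_fixedPoints H
  have h2 : MulAction.fixedPoints (Subgroup.zpowers σ) H = {1} := by
    ext h
    simp only [MulAction.mem_fixedPoints, Set.mem_singleton_iff]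
    constructor
    · intro hh
      exact hfix h (hh ⟨σ, Subgroup.mem_zpowers σ⟩)
    · rintro rfl g
      exact map_one (g : MulAut H)
  rw [h2] at h1
  have h3 : Nat.card ({1} : Set H) = 1 := by simp
  rw [h3] at h1
  exact Nat.odd_iff.mpr h1

theorem commute_of_sq_of_odd {H : Type*} [Group H] [Finite H] (hodd : Odd (Nat.card H))
    (t z : H) (h : Commute (t * t) z) : Commute t z := by
  have ho : Odd (orderOf t) := hodd.of_dvd_nat (orderOf_dvd_natCard t)
  obtain ⟨m, hm⟩ := ho
  have ht : (t * t) ^ (m + 1) = t := by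
    rw [← pow_two, ← pow_mul]
    have : 2 * (m + 1) = orderOf t + 1 := by omega
    rw [this, pow_succ, pow_orderOf_eq_one, one_mul]
  rw [← ht]
  exact h.pow_left _

theorem conj_pow_eq {H : Type*} [Group H] (a b c : H) (hcb : a * b * a⁻¹ = c * b)
    (hc : Commute a c) (k : ℕ) : a ^ k * b * (a ^ k)⁻¹ = c ^ k * b := by
  induction k with
  | zero => simp
  | succ k ih =>
    have e1 : a ^ (k + 1) * b * (a ^ (k + 1))⁻¹ = a * (a ^ k * b * (a ^ k)⁻¹) * a⁻¹ := by
      rw [pow_succ']; group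
    rw [e1, ih]
    have hck : a * c ^ k = c ^ k * a := (hc.pow_right k).eq
    calc a * (c ^ k * b) * a⁻¹ = (a * c ^ k) * b * a⁻¹ := by simp only [mul_assoc]
      _ = c ^ k * (a * b * a⁻¹) := by rw [hck]; simp only [mul_assoc]
      _ = c ^ (k + 1) * b := by rw [hcb, pow_succ]; simp only [mul_assoc]

theorem g1_holds (hR1 : R1Statement.{u}) (hL : LGroupStatement.{u}) (hU : UGroupStatement.{u})
    (hCrit : CritStatement.{u}) (hSpan : SpanStatement.{u}) (hCyc : CycStatement.{u})
    (hStab : StabStatement.{u}) : G1Statement.{u} := by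
  intro H _ _ σ n hn hσ hfix q s hq hs hqs hLS S hS hSσ y hyS hτy
  classical
  have hqp : q.Prime := hq.out
  have hsp : s.Prime := hs.out
  have hodd : Odd (Nat.card H) := odd_card_of_fpf σ n hσ hfix
  -- the critical pair
  obtain ⟨C, Z, hCq, hZC, hCchar, hZchar, hcent, hcomm, hpowq, hself, hlast⟩ := hCrit H q
  have hpC : IsPGroup q (pCore q H) := Sylow.sSup_of_normal _ (fun _ h => h.2) (fun _ h => h.1)
  have hCp : IsPGroup q C := hpC.to_le hCq
  have hZp : IsPGroup q Z := hCp.to_le hZC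
  have hCn : C.Normal := inferInstance
  have hZn : Z.Normal := inferInstance
  have hautC : ∀ (φ : MulAut H) (x : H), x ∈ C → φ x ∈ C := by
    intro φ x hx
    exact Subgroup.characteristic_iff_map_le.mp hCchar φ ⟨x, hx, rfl⟩
  have hautZ : ∀ (φ : MulAut H) (x : H), x ∈ Z → φ x ∈ Z := by
    intro φ x hx
    exact Subgroup.characteristic_iff_map_le.mp hZchar φ ⟨x, hx, rfl⟩
  have hZcomm : ∀ a ∈ Z, ∀ b ∈ Z, a * b = b * a := fun a ha b hb => hcent a (hZC ha) b hb
  have hcardZ : ∀ (K : Type) [Field K], (q : K) ≠ 0 → (Nat.card Z : K) ≠ 0 := by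
    intro K _ hqK
    obtain ⟨m, hm⟩ := IsPGroup.iff_card.mp hZp
    rw [hm, Nat.cast_pow]
    exact pow_ne_zero m hqK
  -- Step 1: `τ` fixes `Z` pointwise
  have hτZ : ∀ z ∈ Z, (σ ^ (2 ^ (n - 1))) z = z := by
    intro z hz
    by_contra hne
    have hx : (σ ^ (2 ^ (n - 1))) z * z⁻¹ ∈ Z := Z.mul_mem (hautZ _ z hz) (Z.inv_mem hz)
    have hx1 : (σ ^ (2 ^ (n - 1))) z * z⁻¹ ≠ 1 := fun h => hne (mul_inv_eq_one.mp h)
    obtain ⟨K, _, _, V, _, _, _, ρ, X, h2K, hqK, hfpf, hρ⟩ := hLS _ (hCq (hZC hx)) hx1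
    apply hρ
    have := hR1 H σ n hn K V ρ X hfpf Z (fun b hb => hautZ σ b hb)
      (fun a ha b hb => by rw [← map_mul, ← map_mul, hZcomm a ha b hb]) (hcardZ K hqK) z hz
    rw [map_mul, this, ← map_mul, mul_inv_cancel, map_one]
  have hCP : IsCritPair σ n q C Z :=
    ⟨hCp, hZC, fun x hx => hautC σ x hx, fun z hz => hautZ σ z hz, hcent, hcomm, hpowq, hτZ⟩
  -- Step 2: the subgroup `T`
  let T : Subgroup H := Subgroup.closure {t | t ∈ S ∧ (σ ^ (2 ^ (n - 1))) t = t⁻¹}
  have hTS : T ≤ S := (Subgroup.closure_le S).mpr (fun t ht => ht.1)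
  have hTs : IsPGroup s T := hS.to_le hTS
  have hyT : y ∈ T := Subgroup.subset_closure ⟨hyS, hτy⟩
  have hTσ : ∀ t ∈ T, σ t ∈ T := by
    intro t ht
    refine Subgroup.closure_induction (p := fun t _ => σ t ∈ T) ?_ ?_ ?_ ?_ ht
    · intro x hx
      apply Subgroup.subset_closure
      refine ⟨hSσ x hx.1, ?_⟩
      rw [pow_apply_comm, hx.2, map_inv]
    · rw [map_one]; exact T.one_mem
    · intro a b _ _ ha hb; rw [map_mul]; exact T.mul_mem ha hb
    · intro a _ ha; rw [map_inv]; exact T.inv_mem ha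
  have hTC : ∀ t ∈ T, ∀ x ∈ C, t * x * t⁻¹ ∈ C := fun t _ x hx => hCn.conj_mem x hx t
  have hTZ : ∀ t ∈ T, ∀ z ∈ Z, t * z = z * t := by
    have hle : T ≤ Subgroup.centralizer (Z : Set H) := by
      rw [Subgroup.closure_le]
      rintro t ⟨htS, htτ⟩
      rw [SetLike.mem_coe, Subgroup.mem_centralizer_iff]
      intro z hz
      have h1 : t * z * t⁻¹ ∈ Z := hZn.conj_mem z hz t
      have h2 := hτZ _ h1
      rw [map_mul, map_mul, map_inv, htτ, hτZ z hz, inv_inv] at h2
      have h3 : Commute (t * t) z := by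
        show t * t * z = z * (t * t)
        have e : t * t * z = t * (t * z * t⁻¹) * t := by group
        rw [e, ← h2]; group
      exact (commute_of_sq_of_odd hodd t z h3).eq.symm
    intro t ht z hz
    exact ((Subgroup.mem_centralizer_iff.mp (hle ht)) z hz).symm
  -- Step 3
  have hcop : ∀ t ∈ T, (orderOf t).Coprime q := by
    intro t ht
    obtain ⟨k, hk⟩ := hTs ⟨t, ht⟩
    have hk' : t ^ s ^ k = 1 := by simpa using congrArg Subtype.val hk
    have hd : orderOf t ∣ s ^ k := orderOf_dvd_of_pow_eq_one hk'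
    exact Nat.Coprime.coprime_dvd_left hd
      (Nat.Coprime.pow_left k ((Nat.coprime_primes hsp hqp).mpr (Ne.symm hqs)))
  by_contra hcon
  have hyC : ∃ x ∈ C, y * x ≠ x * y := by
    by_contra h
    apply hcon
    apply hlast y (hcop y hyT)
    intro x hx
    by_contra hne
    exact h ⟨x, hx, hne⟩
  obtain ⟨z, hzT, ⟨x0, hx0C, hzx0⟩, hzD⟩ :=
    hU H σ n hn hσ hfix q s hqs C Z hCP T hTs hTσ hTC hTZ ⟨y, hyT, hτy, hyC⟩
  have hzxC : ∀ x ∈ C, ⁅z, x⁆ ∈ C := by
    intro x hx
    rw [commutatorElement_def]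
    exact C.mul_mem (hCn.conj_mem x hx z) (C.inv_mem hx)
  -- Step 4
  have hcomm1 : ∀ x ∈ C, ∀ y' ∈ C, ⁅⁅z, x⁆, y'⁆ = 1 := by
    intro x hx y' hy'
    by_contra hu1
    have huZ : ⁅⁅z, x⁆, y'⁆ ∈ Z := hcomm _ (hzxC x hx) _ hy'
    obtain ⟨K, _, _, V, _, _, _, ρ, X, h2K, hqK, hfpf, hρ⟩ := hLS _ (hCq (hZC huZ)) hu1
    apply hρ
    have hspan := hSpan H K V ρ Z (hcardZ K hqK)
      (fun a ha b hb => by rw [← map_mul, ← map_mul, hZcomm a ha b hb])
    apply LinearMap.ext_on hspan
    intro w hw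
    rw [Module.End.one_apply]
    by_cases hw0 : w = 0
    · rw [hw0, map_zero]
    · let D : Subgroup H :=
        { carrier := {h | ρ h w = w}
          mul_mem' := by
            intro a b ha hb
            show ρ (a * b) w = w
            rw [map_mul, Module.End.mul_apply, show ρ b w = w from hb, show ρ a w = w from ha]
          one_mem' := by
            show ρ 1 w = w
            rw [map_one, Module.End.one_apply]
          inv_mem' := by
            intro a ha
            show ρ a⁻¹ w = w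
            have h := congrArg (ρ a⁻¹) (show ρ a w = w from ha)
            rw [← Module.End.mul_apply, ← map_mul, inv_mul_cancel, map_one,
              Module.End.one_apply] at h
            exact h.symm }
      have hCCZ : ⁅C, C⁆ ≤ Z := Subgroup.commutator_le.mpr hcomm
      have hexp : ∀ a ∈ ⁅C, C⁆, a ^ q = 1 := by
        let E : Subgroup H :=
          { carrier := {g | g ∈ Z ∧ g ^ q = 1}
            mul_mem' := by
              rintro a b ⟨ha, ha'⟩ ⟨hb, hb'⟩
              refine ⟨Z.mul_mem ha hb, ?_⟩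
              rw [(show Commute a b from hZcomm a ha b hb).mul_pow, ha', hb', one_mul]
            one_mem' := ⟨Z.one_mem, one_pow q⟩
            inv_mem' := by
              rintro a ⟨ha, ha'⟩
              exact ⟨Z.inv_mem ha, by rw [inv_pow, ha', inv_one]⟩ }
        have hle : ⁅C, C⁆ ≤ E := by
          rw [Subgroup.commutator_le]
          intro a ha b hb
          refine ⟨hcomm a ha b hb, ?_⟩
          have hc : Commute a ⁅a, b⁆ := hcent a ha _ (hcomm a ha b hb)
          have h1 := conj_pow_eq a b ⁅a, b⁆ (by rw [commutatorElement_def]; group) hc q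
          have h2 : a ^ q * b = b * a ^ q := (hcent b hb _ (hpowq a ha)).symm
          have h3 : a ^ q * b * (a ^ q)⁻¹ = b := by rw [h2]; group
          rw [h3] at h1
          exact mul_right_cancel (h1.symm.trans (one_mul b).symm)
        intro a ha
        exact (hle ha).2
      have hcyc : ∃ c₀ ∈ ⁅C, C⁆, ∀ c ∈ ⁅C, C⁆, ∃ i : ℕ, c * c₀ ^ i ∈ D :=
        hCyc H q K V ρ ⁅C, C⁆ hexp (fun a ha b hb => hZcomm a (hCCZ ha) b (hCCZ hb)) w hw0
          (fun a ha => hw a (hCCZ ha))
      have hrank := hL H σ n hn q K V ρ X hfpf h2K hqK hfix C Z hCP w hw0 hw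
      exact hzD D hcyc hrank x hx y' hy'
  -- Step 5
  have hzxZ : ∀ x ∈ C, ⁅z, x⁆ ∈ Z := by
    intro x hx
    apply hself _ (hzxC x hx)
    intro y' hy'
    exact (commutatorElement_eq_one_iff_commute.mp (hcomm1 x hx y' hy')).eq
  exact hzx0 (hStab H q C Z hCp hZC z (hcop z hzT) (fun k hk => hTZ z hzT k hk) hzxZ x0 hx0C)

end Cfsg.Agent.H25.Gross
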