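import Mathlib
import Cfsg.Agent.H66.GrossDefs

set_option autoImplicit false

/-!
# S3795, piece PAIR (helper25 for helper66)

Two isotropic vectors of the `(-1)`-eigenspace of an involution are dependent modulo the radical
of an invariant alternating form of rank at most two on that eigenspace.
-/

namespace Cfsg.Agent.H25.Gross

open Cfsg.Agent.H66.Gross

universe u

/-- Three vectors of `K²` are linearly dependent. -/
theorem exists_rel_three {K : Type*} [Field K] (p1 p2 p3 q1 q2 q3 : K) :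
    ∃ c1 c2 c3 : K, c1 * p1 + c2 * p2 + c3 * p3 = 0 ∧ c1 * q1 + c2 * q2 + c3 * q3 = 0 ∧
      ¬(c1 = 0 ∧ c2 = 0 ∧ c3 = 0) := by
  classical
  have hnl : ¬ LinearIndependent K (![![p1, q1], ![p2, q2], ![p3, q3]] : Fin 3 → Fin 2 → K) := by
    intro h
    have := h.fintype_card_le_finrank
    simp at this
  obtain ⟨g, hg, hne⟩ := Fintype.not_linearIndependent_iff.mp hnl
  refine ⟨g 0, g 1, g 2, ?_, ?_, ?_⟩
  · have := congrFun hg 0
    simpa [Fin.sum_univ_three] using this
  · have := congrFun hg 1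
    simpa [Fin.sum_univ_three] using this
  · rintro ⟨h0, h1, h2⟩
    obtain ⟨i, hi⟩ := hne
    fin_cases i
    · exact hi h0
    · exact hi h1
    · exact hi h2

theorem pair_holds : PairStatement.{u} := by
  intro K _ V _ _ h2 T β hTT halt hinv hrank v w hv hw hvw
  classical
  by_contra hcon
  have hcon' : ∀ a b : K, (∀ y, β (a • v + b • w) y = 0) → a = 0 ∧ b = 0 := by
    intro a b h
    by_contra hab
    exact hcon ⟨a, b, hab, h⟩
  -- antisymmetry
  have hanti : ∀ x y, β x y = - β y x := by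
    intro x y
    have h := halt (x + y)
    simp only [map_add, LinearMap.add_apply] at h
    linear_combination h - halt x - halt y
  have hT2 : ∀ x, T (T x) = x := by
    intro x
    have := congrArg (fun f : Module.End K V => f x) hTT
    simpa using this
  -- dual vectors
  obtain ⟨y0, hy0⟩ : ∃ y0, β v y0 ≠ 0 := by
    by_contra h
    have h' : ∀ y, β v y = 0 := by
      intro y
      by_contra hy
      exact h ⟨y, hy⟩
    have := (hcon' 1 0 (by intro y; rw [one_smul, zero_smul, add_zero]; exact h' y)).1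
    exact one_ne_zero this
  obtain ⟨y0', e0⟩ : ∃ y0', β v y0' = 1 :=
    ⟨(β v y0)⁻¹ • y0, by rw [map_smul, smul_eq_mul, inv_mul_cancel₀ hy0]⟩
  obtain ⟨t, ht⟩ : ∃ t, t = β w y0' := ⟨_, rfl⟩
  obtain ⟨y2, hy2⟩ : ∃ y2, β w y2 - t * β v y2 ≠ 0 := by
    by_contra h
    have h' : ∀ y, β w y - t * β v y = 0 := by
      intro y
      by_contra hy
      exact h ⟨y, hy⟩
    have := (hcon' (-t) 1 (by
      intro y
      simp only [map_add, LinearMap.add_apply, map_smul, LinearMap.smul_apply, smul_eq_mul]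
      linear_combination h' y)).2
    exact one_ne_zero this
  -- `z2`: `β v z2 = 0`, `β w z2 = 1`
  obtain ⟨z2, ev2, ew2⟩ : ∃ z2, β v z2 = 0 ∧ β w z2 = 1 := by
    refine ⟨(β w y2 - t * β v y2)⁻¹ • (y2 - β v y2 • y0'), ?_, ?_⟩
    · simp only [map_smul, map_sub, smul_eq_mul, e0]
      ring
    · simp only [map_smul, map_sub, smul_eq_mul, ← ht]
      have : β w y2 - β v y2 * t = β w y2 - t * β v y2 := by ring
      rw [this, inv_mul_cancel₀ hy2]
  -- `z1`: `β v z1 = 1`, `β w z1 = 0`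
  obtain ⟨z1, ev1, ew1⟩ : ∃ z1, β v z1 = 1 ∧ β w z1 = 0 := by
    refine ⟨y0' - t • z2, ?_, ?_⟩
    · rw [map_sub, map_smul, e0, ev2, smul_eq_mul, mul_zero, sub_zero]
    · rw [map_sub, map_smul, ew2, smul_eq_mul, mul_one, ← ht, sub_self]
  -- projections to the `(-1)`-eigenspace
  have hproj : ∀ y, T ((2 : K)⁻¹ • (y - T y)) = -((2 : K)⁻¹ • (y - T y)) := by
    intro y
    rw [map_smul, map_sub, hT2, ← smul_neg, neg_sub]
  have hβT : ∀ x, T x = -x → ∀ y, β x (T y) = - β x y := by
    intro x hx y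
    have := hinv x (T y)
    rw [hT2, hx, map_neg, LinearMap.neg_apply] at this
    exact this.symm
  have hβproj : ∀ x, T x = -x → ∀ y, β x ((2 : K)⁻¹ • (y - T y)) = β x y := by
    intro x hx y
    rw [map_smul, map_sub, hβT x hx, smul_eq_mul]
    field_simp
    ring
  obtain ⟨u1, hu1T, fv1, fw1⟩ : ∃ u1, T u1 = -u1 ∧ β v u1 = 1 ∧ β w u1 = 0 :=
    ⟨_, hproj z1, by rw [hβproj v hv, ev1], by rw [hβproj w hw, ew1]⟩
  obtain ⟨u2, hu2T, fv2, fw2⟩ : ∃ u2, T u2 = -u2 ∧ β v u2 = 0 ∧ β w u2 = 1 :=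
    ⟨_, hproj z2, by rw [hβproj v hv, ev2], by rw [hβproj w hw, ew2]⟩
  -- the rank condition
  obtain ⟨x₁, x₂, hx⟩ := hrank
  obtain ⟨a1, b1, h1⟩ := hx v hv
  obtain ⟨a2, b2, h2'⟩ := hx w hw
  obtain ⟨a3, b3, h3⟩ := hx u1 hu1T
  obtain ⟨g0, g1, g2, hgp, hgq, hgne⟩ := exists_rel_three a1 a2 a3 b1 b2 b3
  have key : ∀ y, T y = -y → g0 * β v y + g1 * β w y + g2 * β u1 y = 0 := by
    intro y hy
    have k1 := h1 y hy
    have k2 := h2' y hy
    have k3 := h3 y hy
    simp only [map_sub, map_smul, LinearMap.sub_apply, LinearMap.smul_apply, smul_eq_mul]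
      at k1 k2 k3
    linear_combination g0 * k1 + g1 * k2 + g2 * k3 + β x₁ y * hgp + β x₂ y * hgq
  have c1 : g0 = 0 := by
    have := key u1 hu1T
    rw [fv1, fw1, halt] at this
    linear_combination this
  have c3 : g2 = 0 := by
    have := key v hv
    rw [halt, hanti w v, hvw, hanti u1 v, fv1] at this
    linear_combination -this
  have c2 : g1 = 0 := by
    have := key u2 hu2T
    rw [fv2, fw2, c1, c3] at this
    linear_combination this
  exact hgne ⟨c1, c2, c3⟩

end Cfsg.Agent.H25.Gross
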