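import Mathlib
import Cfsg.Agent.H66.GrossDefs

set_option autoImplicit false

/-!
# S3795, piece SPAN (helper25 for helper66)

A finite-dimensional module over an algebraically closed field is spanned by the common
eigenvectors of a commuting subgroup of invertible order.
-/

namespace Cfsg.Agent.H25.Gross

open Cfsg.Agent.H66.Gross Polynomial

universe u

theorem span_holds : SpanStatement.{u} := by
  intro P _ _ K _ _ V _ _ _ ρ D hcard hcomm
  classical
  rw [eq_top_iff]
  have hss : ∀ d : D, (ρ (d : P)).IsSemisimple := by
    intro d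
    have hpow : (ρ (d : P)) ^ Nat.card D = 1 := by
      rw [← map_pow, ← Subgroup.coe_pow, pow_card_eq_one', Subgroup.coe_one, map_one]
    apply Module.End.isSemisimple_of_squarefree_aeval_eq_zero (p := X ^ Nat.card D - C (1 : K))
    · exact (Polynomial.separable_X_pow_sub_C (1 : K) hcard one_ne_zero).squarefree
    · simp [hpow]
  have key :=
    Module.End.iSup_iInf_maxGenEigenspace_eq_top_of_iSup_maxGenEigenspace_eq_top_of_commute
      (fun d : D => ρ (d : P)) (fun i j _ => hcomm i i.2 j j.2)
      (fun d => Module.End.iSup_maxGenEigenspace_eq_top _)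
  rw [← key]
  apply iSup_le
  intro χ v hv
  apply Submodule.subset_span
  intro d hd
  refine ⟨χ ⟨d, hd⟩, ?_⟩
  have h1 := (Submodule.mem_iInf _).mp hv ⟨d, hd⟩
  rw [(hss ⟨d, hd⟩).isFinitelySemisimple.maxGenEigenspace_eq_eigenspace] at h1
  exact Module.End.mem_eigenspace_iff.mp h1

end Cfsg.Agent.H25.Gross
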