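import Mathlib
import Cfsg.Agent.H66.HKKDefs

/-!
# S3779-E1: base change to `ℤ[ζ_p]` and eigen-decomposition

`eigen_transfer`: a Lie ring with a Lie-endomorphism `φ` of "norm zero"
(`∑_{k<p} φ^k = 0`) and of exponent coprime to `p` inherits the vanishing of
left-normed brackets of length `c` from the `ZMod p`-graded statement.
-/

set_option linter.style.haveILetI false
set_option linter.unusedVariables false
set_option linter.unusedSectionVars false

universe u

open Cfsg.Agent.H66.HKK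
open scoped TensorProduct

namespace Cfsg.Agent.H25.HKK

lemma sum_zmod_val {n : ℕ} [NeZero n] {B : Type*} [AddCommMonoid B] (g : ℕ → B) :
    ∑ k : ZMod n, g k.val = ∑ i ∈ Finset.range n, g i := by
  cases n with
  | zero => exact absurd rfl (NeZero.ne 0)
  | succ n => exact Fin.sum_univ_eq_sum_range g (n + 1)

theorem eigen_core {A : Type} [CommRing A] {M : Type u} [LieRing M] [LieAlgebra A M]
    (p : ℕ) [Fact p.Prime] (ω : A) (hω : ∑ k ∈ Finset.range p, ω ^ k = 0)
    (Φ : M →ₗ[A] M) (hΦ : ∀ y z, Φ ⁅y, z⁆ = ⁅Φ y, Φ z⁆)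
    (hN : ∀ y, ∑ k ∈ Finset.range p, (Φ ^ k) y = 0)
    (u : ℤ) (hu : ∀ y : M, (p : ℤ) • (u • y) = y)
    (c : ℕ)
    (H : ∀ (X : ZMod p → AddSubgroup M), IsGr X → X 0 = ⊥ → ∀ i, flcs X c i = ⊥) :
    ∀ (a : M) (l : List M), l.length = c → l.foldl (fun acc y => ⁅acc, y⁆) a = 0 := by
  have hp : p.Prime := Fact.out
  have hp0 : p ≠ 0 := hp.ne_zero
  haveI : NeZero p := ⟨hp0⟩
  haveI : Fact (1 < p) := ⟨hp.one_lt⟩
  have hωp : ω ^ p = 1 := by
    have := geom_sum_mul ω p
    rw [hω, zero_mul] at this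
    exact (sub_eq_zero.mp this.symm)
  have hΦp : Φ ^ p = 1 := by
    have hS : ∑ k ∈ Finset.range p, Φ ^ k = 0 := by
      ext y; simp [LinearMap.sum_apply, hN]
    have := geom_sum_mul Φ p
    rw [hS, zero_mul] at this
    exact (sub_eq_zero.mp this.symm)
  set f : ZMod p → A := fun x => ω ^ x.val with hf
  have f_add : ∀ x y, f (x + y) = f x * f y := by
    intro x y
    simp only [hf]
    rw [← pow_add, ZMod.val_add, ← pow_eq_pow_mod _ hωp]
  have f_zero : f 0 = 1 := by simp [hf]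
  set Ψ : ZMod p → M →ₗ[A] M := fun i => Φ ^ i.val with hΨ
  have Ψ_succ : ∀ i y, Φ (Ψ i y) = Ψ (i + 1) y := by
    intro i y
    simp only [hΨ]
    rw [ZMod.val_add, ← pow_eq_pow_mod _ hΦp, ZMod.val_one, pow_succ', Module.End.mul_apply]
  have Ψ_zero : ∀ y, Ψ 0 y = y := by
    intro y; simp [hΨ]
  let X : ZMod p → AddSubgroup M := fun j =>
    { carrier := {y | Φ y = f j • y}
      zero_mem' := by simp
      add_mem' := by
        intro a b ha hb
        simp only [Set.mem_ofPred_eq] at *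
        rw [map_add, ha, hb, smul_add]
      neg_mem' := by
        intro a ha
        simp only [Set.mem_ofPred_eq] at *
        rw [map_neg, ha, smul_neg] }
  have hXmem : ∀ j y, y ∈ X j ↔ Φ y = f j • y := fun j y => Iff.rfl
  have hGr : IsGr X := by
    intro i j y hy z hz
    rw [hXmem] at *
    rw [hΦ, hy, hz, smul_lie, lie_smul, smul_smul, f_add]
  have hX0 : X 0 = ⊥ := by
    rw [eq_bot_iff]
    intro y hy
    rw [hXmem, f_zero, one_smul] at hy
    have hk : ∀ k : ℕ, (Φ ^ k) y = y := by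
      intro k
      induction k with
      | zero => simp
      | succ k ih => rw [pow_succ, Module.End.mul_apply, hy, ih]
    have h0 := hN y
    simp only [hk, Finset.sum_const, Finset.card_range] at h0
    have := hu y
    rw [AddSubgroup.mem_bot]
    rw [← this, smul_comm, natCast_zsmul, h0, smul_zero]
  set proj : ZMod p → M → M := fun j y => ∑ i : ZMod p, f (-(j * i)) • Ψ i y with hproj
  have proj_mem : ∀ j y, proj j y ∈ X j := by
    intro j y
    rw [hXmem]
    simp only [hproj]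
    rw [map_sum, Finset.smul_sum]
    rw [← Equiv.sum_comp (Equiv.addRight (1 : ZMod p)) (fun i => f j • f (-(j * i)) • Ψ i y)]
    refine Finset.sum_congr rfl fun i _ => ?_
    rw [map_smul, Ψ_succ]
    simp only [Equiv.coe_addRight]
    rw [smul_smul, ← f_add]
    congr 2
    ring
  have hsumf : ∑ k : ZMod p, f k = 0 := by
    simp only [hf]
    rw [sum_zmod_val (fun i => ω ^ i)]
    exact hω
  have proj_sum : ∀ y, ∑ j : ZMod p, proj j y = p • y := by
    intro y
    simp only [hproj]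
    rw [Finset.sum_comm]
    have hi : ∀ i : ZMod p, ∑ j : ZMod p, f (-(j * i)) • Ψ i y = if i = 0 then p • y else 0 := by
      intro i
      rw [← Finset.sum_smul]
      split_ifs with hi
      · subst hi
        simp only [mul_zero, neg_zero, f_zero, Finset.sum_const, Finset.card_univ, ZMod.card,
          Ψ_zero]
        rw [nsmul_eq_mul, mul_one, Nat.cast_smul_eq_nsmul]
      · have h2 : ∑ j : ZMod p, f (-(j * i)) = 0 := by
          rw [← hsumf]
          exact Equiv.sum_comp ((Equiv.mulRight₀ i hi).trans (Equiv.neg (ZMod p))) f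
        rw [h2, zero_smul]
    rw [Finset.sum_congr rfl (fun i _ => hi i)]
    simp
  have hspan : ∀ y : M, y ∈ ⨆ j, X j := by
    intro y
    have h1 := proj_sum (u • y)
    have h2 : y = ∑ j : ZMod p, proj j (u • y) := by
      rw [h1, ← natCast_zsmul, hu]
    rw [h2]
    exact AddSubgroup.sum_mem _ (fun j _ => AddSubgroup.mem_iSup_of_mem j (proj_mem j _))
  have hflcs := H X hGr hX0
  have key : ∀ (l : List M) (a : M),
      l.foldl (fun acc y => ⁅acc, y⁆) a ∈ ⨆ i, flcs X l.length i := by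
    intro l
    induction l using List.reverseRecOn with
    | nil => intro a; simpa [flcs] using hspan a
    | append_singleton l z ih =>
      intro a
      rw [List.foldl_append, List.length_append]
      simp only [List.foldl_cons, List.foldl_nil, List.length_singleton]
      have hw := ih a
      have hz := hspan z
      refine AddSubgroup.iSup_induction
        (C := fun w => ⁅w, z⁆ ∈ ⨆ i, flcs X (l.length + 1) i) _ hw ?_ ?_ ?_
      · intro i w hw
        refine AddSubgroup.iSup_induction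
          (C := fun z => ⁅w, z⁆ ∈ ⨆ i, flcs X (l.length + 1) i) _ hz ?_ ?_ ?_
        · intro j z hz
          exact AddSubgroup.mem_iSup_of_mem (i + j)
            (AddSubgroup.subset_closure ⟨i, j, rfl, w, hw, z, hz, rfl⟩)
        · simp
        · intro z1 z2 h1 h2
          rw [lie_add]
          exact add_mem h1 h2
      · simp
      · intro w1 w2 h1 h2
        rw [add_lie]
        exact add_mem h1 h2
  intro a l hl
  have := key l a
  rw [hl] at this
  simp only [hflcs] at this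
  simpa using this

/-- The ring `ℤ[ζ_p]`. -/
abbrev CycA (p : ℕ) : Type := AdjoinRoot (Polynomial.cyclotomic p ℤ)

lemma cycA_sum (p : ℕ) [Fact p.Prime] :
    ∑ k ∈ Finset.range p, (AdjoinRoot.root (Polynomial.cyclotomic p ℤ) : CycA p) ^ k = 0 := by
  have h : Polynomial.eval₂ (AdjoinRoot.of (Polynomial.cyclotomic p ℤ))
      (AdjoinRoot.root (Polynomial.cyclotomic p ℤ))
      (∑ i ∈ Finset.range p, (Polynomial.X : Polynomial ℤ) ^ i) = 0 := by
    rw [← Polynomial.cyclotomic_prime ℤ p]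
    exact AdjoinRoot.eval₂_root _
  simpa [Polynomial.eval₂_finsetSum] using h

lemma cycA_retract (p : ℕ) [Fact p.Prime] : ∃ r : CycA p →ₗ[ℤ] ℤ, r 1 = 1 := by
  have hp : p.Prime := Fact.out
  let pb := AdjoinRoot.powerBasis' (Polynomial.cyclotomic.monic p ℤ)
  have hdim : 0 < pb.dim := by
    have : pb.dim = (Polynomial.cyclotomic p ℤ).natDegree := AdjoinRoot.powerBasis'_dim _
    rw [this, Polynomial.natDegree_cyclotomic, Nat.totient_prime hp]
    have := hp.two_le
    omega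
  refine ⟨pb.basis.coord ⟨0, hdim⟩, ?_⟩
  have h1 : (1 : CycA p) = pb.basis ⟨0, hdim⟩ := by
    rw [PowerBasis.basis_eq_pow]; simp
  rw [h1, Module.Basis.coord_apply, Module.Basis.repr_self, Finsupp.single_eq_same]

theorem eigen_transfer {L : Type u} [LieRing L] (p : ℕ) [Fact p.Prime] (φ : L →+ L)
    (hφ : ∀ a b : L, φ ⁅a, b⁆ = ⁅φ a, φ b⁆)
    (hN : ∀ x : L, ∑ k ∈ Finset.range p, (⇑φ)^[k] x = 0)
    (m : ℕ) (hm : m.Coprime p) (hexp : ∀ x : L, m • x = 0) (c : ℕ)
    (H : ∀ (M : Type u) [LieRing M] (X : ZMod p → AddSubgroup M),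
      IsGr X → X 0 = ⊥ → ∀ i, flcs X c i = ⊥) :
    ∀ (a : L) (l : List L), l.length = c → l.foldl (fun acc y => ⁅acc, y⁆) a = 0 := by
  have hp : p.Prime := Fact.out
  -- the base-changed endomorphism
  let Φ : (CycA p ⊗[ℤ] L) →ₗ[CycA p] (CycA p ⊗[ℤ] L) :=
    LinearMap.baseChange (CycA p) φ.toIntLinearMap
  have hΦt : ∀ (s : CycA p) (x : L), Φ (s ⊗ₜ[ℤ] x) = s ⊗ₜ[ℤ] φ x := by
    intro s x
    simp [Φ]
  have hΦ : ∀ y z : CycA p ⊗[ℤ] L, Φ ⁅y, z⁆ = ⁅Φ y, Φ z⁆ := by
    intro y z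
    induction y using TensorProduct.induction_on with
    | zero =>
      have e1 : ⁅(0 : CycA p ⊗[ℤ] L), z⁆ = 0 :=
        zero_lie (L := CycA p ⊗[ℤ] L) (M := CycA p ⊗[ℤ] L) _
      have e2 : ⁅(0 : CycA p ⊗[ℤ] L), Φ z⁆ = 0 :=
        zero_lie (L := CycA p ⊗[ℤ] L) (M := CycA p ⊗[ℤ] L) _
      rw [e1, map_zero, e2]
    | tmul s x =>
      induction z using TensorProduct.induction_on with
      | zero =>
        have e1 : ⁅s ⊗ₜ[ℤ] x, (0 : CycA p ⊗[ℤ] L)⁆ = 0 :=
          lie_zero (L := CycA p ⊗[ℤ] L) (M := CycA p ⊗[ℤ] L) _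
        have e2 : ⁅Φ (s ⊗ₜ[ℤ] x), (0 : CycA p ⊗[ℤ] L)⁆ = 0 :=
          lie_zero (L := CycA p ⊗[ℤ] L) (M := CycA p ⊗[ℤ] L) _
        rw [e1, map_zero, e2]
      | tmul t x' =>
        rw [LieAlgebra.ExtendScalars.bracket_tmul, hΦt, hΦt, hΦt,
          LieAlgebra.ExtendScalars.bracket_tmul, hφ]
      | add z1 z2 h1 h2 =>
        have e1 : ⁅s ⊗ₜ[ℤ] x, z1 + z2⁆ = ⁅s ⊗ₜ[ℤ] x, z1⁆ + ⁅s ⊗ₜ[ℤ] x, z2⁆ :=
          lie_add (L := CycA p ⊗[ℤ] L) (M := CycA p ⊗[ℤ] L) _ _ _
        have e2 : ⁅Φ (s ⊗ₜ[ℤ] x), Φ z1 + Φ z2⁆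
            = ⁅Φ (s ⊗ₜ[ℤ] x), Φ z1⁆ + ⁅Φ (s ⊗ₜ[ℤ] x), Φ z2⁆ :=
          lie_add (L := CycA p ⊗[ℤ] L) (M := CycA p ⊗[ℤ] L) _ _ _
        rw [e1, map_add, h1, h2, map_add, e2]
    | add y1 y2 h1 h2 =>
      have e1 : ⁅y1 + y2, z⁆ = ⁅y1, z⁆ + ⁅y2, z⁆ :=
        add_lie (L := CycA p ⊗[ℤ] L) (M := CycA p ⊗[ℤ] L) _ _ _
      have e2 : ⁅Φ y1 + Φ y2, Φ z⁆ = ⁅Φ y1, Φ z⁆ + ⁅Φ y2, Φ z⁆ :=
        add_lie (L := CycA p ⊗[ℤ] L) (M := CycA p ⊗[ℤ] L) _ _ _
      rw [e1, map_add, h1, h2, map_add, e2]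
  have hΦk : ∀ (k : ℕ) (s : CycA p) (x : L), (Φ ^ k) (s ⊗ₜ[ℤ] x) = s ⊗ₜ[ℤ] (⇑φ)^[k] x := by
    intro k
    induction k with
    | zero => intro s x; simp
    | succ k ih =>
      intro s x
      rw [pow_succ', Module.End.mul_apply, ih, hΦt, Function.iterate_succ_apply']
  have hNM : ∀ y : CycA p ⊗[ℤ] L, ∑ k ∈ Finset.range p, (Φ ^ k) y = 0 := by
    intro y
    induction y using TensorProduct.induction_on with
    | zero => simp
    | tmul s x =>
      simp only [hΦk]
      rw [← TensorProduct.tmul_sum, hN, TensorProduct.tmul_zero]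
    | add y1 y2 h1 h2 =>
      simp only [map_add]
      rw [Finset.sum_add_distrib, h1, h2, add_zero]
  -- exponent
  have hexpM : ∀ y : CycA p ⊗[ℤ] L, m • y = 0 := by
    intro y
    induction y using TensorProduct.induction_on with
    | zero => simp
    | tmul s x => rw [← TensorProduct.tmul_smul, hexp, TensorProduct.tmul_zero]
    | add y1 y2 h1 h2 => rw [smul_add, h1, h2, add_zero]
  obtain ⟨a0, b0, hab⟩ := Nat.isCoprime_iff_coprime.mpr hm
  have hu : ∀ y : CycA p ⊗[ℤ] L, (p : ℤ) • (b0 • y) = y := by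
    intro y
    have h1 : ((a0 * (m : ℤ) + b0 * (p : ℤ)) : ℤ) • y = y := by rw [hab, one_smul]
    rw [add_smul, mul_smul, mul_smul, natCast_zsmul, hexpM, smul_zero, zero_add] at h1
    rw [smul_comm]
    exact h1
  have core := eigen_core (A := CycA p) (M := CycA p ⊗[ℤ] L) p
    (AdjoinRoot.root (Polynomial.cyclotomic p ℤ)) (cycA_sum p) Φ hΦ hNM b0 hu c
    (fun X hX h0 => H (CycA p ⊗[ℤ] L) X hX h0)
  -- transfer back to L
  obtain ⟨r, hr⟩ := cycA_retract p
  let ι : L → CycA p ⊗[ℤ] L := fun x => (1 : CycA p) ⊗ₜ[ℤ] x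
  have hι_inj : Function.Injective ι := by
    intro x y hxy
    have h2 := congrArg (fun t => (TensorProduct.lid ℤ L) ((LinearMap.rTensor L r) t)) hxy
    simpa [ι, hr] using h2
  have hι_br : ∀ x y : L, ι ⁅x, y⁆ = ⁅ι x, ι y⁆ := by
    intro x y
    simp only [ι]
    rw [LieAlgebra.ExtendScalars.bracket_tmul, one_mul]
  have hι_fold : ∀ (l : List L) (a : L),
      ι (l.foldl (fun acc y => ⁅acc, y⁆) a) = (l.map ι).foldl (fun acc y => ⁅acc, y⁆) (ι a) := by
    intro l
    induction l with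
    | nil => intro a; rfl
    | cons y l ih =>
      intro a
      rw [List.foldl_cons, ih, List.map_cons, List.foldl_cons, hι_br]
  intro a l hl
  apply hι_inj
  rw [hι_fold, core (ι a) (l.map ι) (by rw [List.length_map, hl])]
  simp [ι]

end Cfsg.Agent.H25.HKK
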