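import Cfsg.Agent.H25.JxStar
import Cfsg.Agent.H97.JyPFacts
import Cfsg.Agent.H64.JzFinal
import Cfsg.Agent.H51.Amalgam
import Cfsg.Agent.H25.SpLE

/-!
# JX-PSIDE (kill of S2953): the `P`-side interface, hypothesis-free

For a configuration `Base S M T K L`, with `D = O₂(K ⊔ T)`: `|T : D| ≤ 2` (product form),
`T ∖ D` inverts `K` modulo `D`, and `K` has an element of order dividing 3 outside `M`.
From helper97's abstract `pfacts` (H97/JyPFacts.lean) and S2951/S2952 (`normFinal`, `stMain`).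
-/

set_option autoImplicit false
open Cfsg

namespace Cfsg.Agent.H25.Jy

universe u

/-- The `P`-side interface (the Prop `StPSide` of helper52's kill plan, stated inline). -/
def StPSideY : Prop := ∀ {G : Type u} [Group G] [Finite G] (S : Sylow 2 G)
    (M T K L : Subgroup G), Cfsg.Agent.H64.Jz.Base S M T K L →
  (∀ a ∈ T, ∀ b ∈ T, a ∉ pCoreOf 2 (K ⊔ T) → b ∉ pCoreOf 2 (K ⊔ T) →
    a * b ∈ pCoreOf 2 (K ⊔ T)) ∧
  (∀ x ∈ T, x ∉ pCoreOf 2 (K ⊔ T) → ∀ g ∈ K, x * g * x⁻¹ * g ∈ pCoreOf 2 (K ⊔ T)) ∧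
  ∃ k ∈ K, k ^ 3 = 1 ∧ k ∉ M

/-- JX-PSIDE. -/
theorem pSide : StPSideY.{u} := by
  intro G _ _ S M T K L hB
  have hTK : T ≤ Subgroup.normalizer (K : Set G) :=
    Cfsg.Agent.H64.Jz.normFinal S M T K L hB (Cfsg.Agent.H64.Jz.stMain S M T K L hB)
  have hDT : pCoreOf 2 (K ⊔ T) ≤ T := (pf S M T K L hB).1
  obtain ⟨hZN, hO, hM, hMJ, hT, hTS, hK, hLmax, hKL⟩ := hB
  have hT2 : IsPGroup 2 ↥T := hT.1.1
  have hTM : T ≤ M := hT.1.2.2.1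
  have hKJ : IsJComponent T K := hK.1.1
  have hKM : ¬ K ≤ M := hK.2.1
  have hOK : pCoreOf 2 K ≤ K := Cfsg.Agent.H51.pCoreOf_le 2 K
  have hOnK : K ≤ Subgroup.normalizer (pCoreOf 2 K : Set G) :=
    Cfsg.Agent.H51.le_normalizer_pCoreOf 2 K
  have hOnT : T ≤ Subgroup.normalizer (pCoreOf 2 K : Set G) := by
    intro t ht
    refine Cfsg.Agent.H25.Sp.mem_normalizer_of_map_conj _ t ?_
    have h1 := Cfsg.Agent.H51.pCoreOf_map 2 K (MulAut.conj t)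
    rw [Cfsg.Agent.H25.Sp.map_conj_of_mem_normalizer K t (hTK ht)] at h1
    exact h1.symm
  have hO2 : IsPGroup 2 ↥(pCoreOf 2 K) := Cfsg.Agent.H51.pCoreOf_isPGroup 2 K
  have hOD : pCoreOf 2 K ≤ pCoreOf 2 (K ⊔ T) :=
    Cfsg.Agent.H51.le_pCoreOf 2 (hOK.trans le_sup_left) (sup_le hOnK hOnT) hO2
  have hOT : pCoreOf 2 K ≤ T := hOD.trans hDT
  obtain ⟨D', k, hD'T, hOD', hKD', hTD', hidx, hinv, -, -, hkK, -, hk3, hgens, -⟩ :=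
    Cfsg.Agent.H97.Jy.pfacts K T (pCoreOf 2 K) hT2 hTK hOK hOT hKJ.2.2.1 hOnK hOnT hKJ.1
  have hD'D : D' ≤ pCoreOf 2 (K ⊔ T) :=
    Cfsg.Agent.H51.le_pCoreOf 2 (hD'T.trans le_sup_right) (sup_le hKD' hTD') (hT2.to_le hD'T)
  refine ⟨?_, ?_, k, hkK, hk3, ?_⟩
  · intro a ha b hb haD hbD
    exact hD'D (hidx a ha b hb (fun h => haD (hD'D h)) (fun h => hbD (hD'D h)))
  · intro x hx hxD g hg
    exact hOD (hinv x hx (fun h => hxD (hD'D h)) g hg)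
  · intro hkM
    apply hKM
    intro g hg
    obtain ⟨o, ho, i, rfl⟩ := hgens g hg
    exact M.mul_mem (hTM (hOT ho)) (M.pow_mem hkM i)

example : ∀ {G : Type u} [Group G] [Finite G] (S : Sylow 2 G) (M T K L : Subgroup G),
    Cfsg.Agent.H64.Jz.Base S M T K L →
    (∀ a ∈ T, ∀ b ∈ T, a ∉ pCoreOf 2 (K ⊔ T) → b ∉ pCoreOf 2 (K ⊔ T) →
      a * b ∈ pCoreOf 2 (K ⊔ T)) ∧
    (∀ x ∈ T, x ∉ pCoreOf 2 (K ⊔ T) → ∀ g ∈ K, x * g * x⁻¹ * g ∈ pCoreOf 2 (K ⊔ T)) ∧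
    ∃ k ∈ K, k ^ 3 = 1 ∧ k ∉ M := pSide

end Cfsg.Agent.H25.Jy
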