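import Cfsg.Agent.H52.JxKB
import Cfsg.Agent.H48.JxVne
import Cfsg.Agent.H25.JxPSide

/-!
# JX-KB (kill of S2953): the case `V ⊄ Q₁` is impossible, hypothesis-free

Wiring: `pSide` (H25/JxPSide.lean) + helper48's `stVne` + `pf` feed helper52's `kbNorm_of`;
then `kb_of star pf kbNorm`.
-/

set_option autoImplicit false
open Cfsg

namespace Cfsg.Agent.H25.Jy

universe u

/-- The `P`-side interface as the Prop of `H52/JxKB.lean`. -/
theorem pSideSt : Cfsg.Agent.H52.Jx.StPSide.{u} := pSide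

/-- JX-KBNORM (X5). -/
theorem kbNorm : Cfsg.Agent.H52.Jx.StKBNorm.{u} :=
  Cfsg.Agent.H52.Jx.kbNorm_of pSideSt Cfsg.Agent.H48.Jx.stVne pf

/-- JX-KB: the case `V ⊄ Q₁` is impossible. -/
theorem kb : Cfsg.Agent.H52.Jx.StKB.{u} := Cfsg.Agent.H52.Jx.kb_of star pf kbNorm

example : ∀ {G : Type u} [Group G] [Finite G] (S : Sylow 2 G)
    (M K L T' K' L' : Subgroup G), Cfsg.Agent.H64.Jy.RCtx2 S M K L T' K' L' →
    ¬ Cfsg.Agent.H52.Jx.Vof L ≤ pCoreOf 2 (K' ⊔ T') → False := kb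

end Cfsg.Agent.H25.Jy
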