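import Cfsg.Agent.H64.JyDefs
import Cfsg.Agent.S2950
import Cfsg.Agent.H59.SoConj
import Cfsg.Agent.H25.SpLE

/-!
# JY-NOTIN (piece Y4 of S2953): for `T ≠ S` there is `x ∈ N_S(T)` outside `L`

Normalizer growth in the 2-group `S` gives `x ∈ N_S(T) ∖ T`; `T` is a Sylow 2-subgroup of `L`
(S2950), so `x ∉ L`.
-/

set_option autoImplicit false
open Cfsg

namespace Cfsg.Agent.H25.Jy

universe u

/-- Normalizer growth in a finite 2-group, stated for subgroups of `G`. -/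
theorem exists_normalizer_not_mem {G : Type u} [Group G] [Finite G] {T S : Subgroup G}
    (hS : IsPGroup 2 ↥S) (hTS : T ≤ S) (hne : T ≠ S) :
    ∃ x ∈ S, x ∈ Subgroup.normalizer (T : Set G) ∧ x ∉ T := by
  have hfact : Fact (Nat.Prime 2) := ⟨Nat.prime_two⟩
  have hnil : Group.IsNilpotent ↥S := hS.isNilpotent
  have hlt : T.subgroupOf S < ⊤ := by
    rw [lt_top_iff_ne_top]
    intro h
    rw [Subgroup.subgroupOf_eq_top] at h
    exact hne (le_antisymm hTS h)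
  have h2 := Group.normalizerCondition_of_isNilpotent (T.subgroupOf S) hlt
  obtain ⟨x, hxN, hxT⟩ := SetLike.exists_of_lt h2
  have hxN' := Subgroup.mem_normalizer_iff.mp hxN
  refine ⟨x.1, x.2, ?_, fun h => hxT (Subgroup.mem_subgroupOf.mpr h)⟩
  rw [Subgroup.mem_normalizer_iff]
  intro g
  constructor
  · intro hg
    have h3 := (hxN' ⟨g, hTS hg⟩).mp (Subgroup.mem_subgroupOf.mpr hg)
    exact Subgroup.mem_subgroupOf.mp h3
  · intro hg
    have hgS : g ∈ S := by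
      have h1 : x.1 * g * x.1⁻¹ ∈ S := hTS hg
      have h4 := S.mul_mem (S.mul_mem (S.inv_mem x.2) h1) x.2
      have e : x.1⁻¹ * (x.1 * g * x.1⁻¹) * x.1 = g := by group
      rw [e] at h4
      exact h4
    have h3 := (hxN' ⟨g, hgS⟩).mpr (Subgroup.mem_subgroupOf.mpr hg)
    exact Subgroup.mem_subgroupOf.mp h3

/-- A 2-subgroup of `L` containing a Sylow 2-subgroup `T` of `L` is `T`. -/
theorem le_of_isSylowTwoIn {G : Type u} [Group G] [Finite G] {T L P : Subgroup G}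
    (h : IsSylowTwoIn T L) (hP : IsPGroup 2 ↥P) (hTP : T ≤ P) (hPL : P ≤ L) : P ≤ T := by
  rw [← Subgroup.relIndex_eq_one]
  have hmul := Subgroup.relIndex_mul_relIndex T P L hTP hPL
  have hodd : Odd (T.relIndex P) := Odd.of_dvd_nat h.2.2 (Dvd.intro _ hmul)
  obtain ⟨n, hn⟩ := IsPGroup.iff_card.mp hP
  have hdvd : T.relIndex P ∣ 2 ^ n := hn ▸ Subgroup.relIndex_dvd_card T P
  obtain ⟨k, -, hk2⟩ := (Nat.dvd_prime_pow Nat.prime_two).mp hdvd
  rw [hk2] at hodd ⊢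
  rcases Nat.eq_zero_or_pos k with h0 | hpos
  · rw [h0, pow_zero]
  · exfalso
    have hev : Even (2 ^ k) := Nat.even_pow.mpr ⟨even_two, hpos.ne'⟩
    exact (Nat.not_even_iff_odd.mpr hodd) hev

/-- `N_G(S) ≤ N_G(J(S))`. -/
theorem normalizer_le_normalizer_J {G : Type u} [Group G] (S : Subgroup G) :
    Subgroup.normalizer (S : Set G) ≤
      Subgroup.normalizer (thompsonSubgroupOf 2 S : Set G) := by
  intro g hg
  refine Cfsg.Agent.H25.Sp.mem_normalizer_of_map_conj _ g ?_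
  rw [Cfsg.Agent.H14.thompsonSubgroupOf_conj 2 g S,
    Cfsg.Agent.H25.Sp.map_conj_of_mem_normalizer S g hg]

/-- JY-NS: `N_G(S) ≤ M`. -/
theorem ns : Cfsg.Agent.H64.Jy.StNS.{u} := by
  intro G _ _ S M T K L hB
  exact (normalizer_le_normalizer_J (S : Subgroup G)).trans hB.2.2.2.1

/-- JY-NOTIN, with `x ∈ S`. -/
theorem notin_S : ∀ {G : Type u} [Group G] [Finite G] (S : Sylow 2 G) (M T K L : Subgroup G),
    Cfsg.Agent.H64.Jz.Base S M T K L → T ≠ (S : Subgroup G) →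
    ∃ x ∈ (S : Subgroup G), x ∈ Subgroup.normalizer (T : Set G) ∧ x ∉ L := by
  intro G _ _ S M T K L hB hne
  obtain ⟨hZN, hO, hM, hMJ, hT, hTS, hK, hLmax, hKL⟩ := hB
  obtain ⟨hL, hN, hZ⟩ := hZN
  obtain ⟨L₀, -, -, huniq, -, hsyl⟩ :=
    Cfsg.Agent.S2950.result hL hN hZ hO S M hM hMJ T hT K hK
  have hLL : L = L₀ := huniq L hLmax hKL
  rw [← hLL] at hsyl
  obtain ⟨x, hxS, hxN, hxT⟩ := exists_normalizer_not_mem S.isPGroup' hTS hne
  refine ⟨x, hxS, hxN, fun hxL => hxT ?_⟩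
  have hP : IsPGroup 2 ↥((S : Subgroup G) ⊓ L) := S.isPGroup'.to_le inf_le_left
  exact le_of_isSylowTwoIn hsyl hP (le_inf hTS hsyl.1) inf_le_right ⟨hxS, hxL⟩

/-- JY-NOTIN. -/
theorem notIn : Cfsg.Agent.H64.Jy.StNotIn.{u} := by
  intro G _ _ S M T K L hB hne
  obtain ⟨x, hxS, hxN, hxL⟩ := notin_S S M T K L hB hne
  have hSM : (S : Subgroup G) ≤ M :=
    Subgroup.le_normalizer.trans (ns S M T K L hB)
  exact ⟨x, hSM hxS, hxN, hxL⟩

example : ∀ {G : Type u} [Group G] [Finite G] (S : Sylow 2 G) (M T K L : Subgroup G),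
    Cfsg.Agent.H64.Jz.Base S M T K L → T ≠ (S : Subgroup G) →
    ∃ x : G, x ∈ M ∧ x ∈ Subgroup.normalizer (T : Set G) ∧ x ∉ L := notIn

example : ∀ {G : Type u} [Group G] [Finite G] (S : Sylow 2 G) (M T K L : Subgroup G),
    Cfsg.Agent.H64.Jz.Base S M T K L →
    Subgroup.normalizer ((S : Subgroup G) : Set G) ≤ M := ns

end Cfsg.Agent.H25.Jy
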