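import Cfsg.Agent.H52.JxDefs
import Cfsg.Agent.H25.JyNotin
import Cfsg.Agent.Helper55.UqBase

/-!
# JX-STAR (piece X1 of the kill of S2953): the generic final step

In a configuration `Base S M T K L` with `T ≠ S`, no nontrivial subgroup `F ≤ T` is normalized
by `K ⊔ T` and by `N_S(T)`: `N_G(F)` is a 2-local over `K ⊔ J(T)`, so it lies in `L` (S2950),
but `N_S(T)` is not inside `L` (JY-NOTIN).
-/

set_option autoImplicit false
open Cfsg

namespace Cfsg.Agent.H25.Jy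

universe u

/-- A 2-local subgroup over `K ⊔ J(T)` lies in `L`. -/
theorem twoLocal_le_base {G : Type u} [Group G] [Finite G] (S : Sylow 2 G)
    (M T K L : Subgroup G) (hB : Cfsg.Agent.H64.Jz.Base S M T K L) (X : Subgroup G)
    (hX : IsTwoLocal X) (hKX : K ⊔ thompsonSubgroupOf 2 T ≤ X) : X ≤ L := by
  obtain ⟨⟨hL, hN, hZ⟩, hO, hM, hMJ, hT, -, hK, hLmax, hKL⟩ := hB
  obtain ⟨L₀, -, -, huniq, -, -⟩ := Cfsg.Agent.S2950.result hL hN hZ hO S M hM hMJ T hT K hK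
  obtain ⟨L', hL', hle⟩ := Cfsg.Agent.Helper55.Uq.exists_maximalTwoLocal hX
  have e : L' = L := by rw [huniq L' hL' (hKX.trans hle), huniq L hLmax hKL]
  rw [← e]
  exact hle

/-- JX-STAR. -/
theorem star_y : ∀ {G : Type u} [Group G] [Finite G] (S : Sylow 2 G) (M T K L : Subgroup G),
    Cfsg.Agent.H64.Jz.Base S M T K L → T ≠ (S : Subgroup G) →
    ∀ F : Subgroup G, F ≠ ⊥ → F ≤ T → K ⊔ T ≤ Subgroup.normalizer (F : Set G) →
    (∀ x ∈ (S : Subgroup G), x ∈ Subgroup.normalizer (T : Set G) →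
      x ∈ Subgroup.normalizer (F : Set G)) → False := by
  intro G _ _ S M T K L hB hne F hF hFT hKT hx
  obtain ⟨x, hxS, hxN, hxL⟩ := notin_S S M T K L hB hne
  have hT2 : IsPGroup 2 ↥T := S.isPGroup'.to_le hB.2.2.2.2.2.1
  have hF2 : IsPGroup 2 ↥F := hT2.to_le hFT
  have h2loc : IsTwoLocal (Subgroup.normalizer (F : Set G)) := ⟨F, hF2, hF, rfl⟩
  have hJT : thompsonSubgroupOf 2 T ≤ T := Cfsg.Agent.Helper55.ThJ.J_le _
  have hle : Subgroup.normalizer (F : Set G) ≤ L :=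
    twoLocal_le_base S M T K L hB _ h2loc ((sup_le_sup_left hJT K).trans hKT)
  exact hxL (hle (hx x hxS hxN))

/-- JX-STAR, as the Prop of `H52.JxDefs`. -/
theorem star : Cfsg.Agent.H52.Jx.StStar.{u} := star_y

example : ∀ {G : Type u} [Group G] [Finite G] (S : Sylow 2 G) (M T K L : Subgroup G),
    Cfsg.Agent.H64.Jz.Base S M T K L → T ≠ (S : Subgroup G) → ∀ F : Subgroup G, F ≠ ⊥ → F ≤ T →
    K ⊔ T ≤ Subgroup.normalizer (F : Set G) →
    (∀ x ∈ (S : Subgroup G), x ∈ Subgroup.normalizer (T : Set G) →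
      x ∈ Subgroup.normalizer (F : Set G)) → False := star

/-- `T` is a Sylow 2-subgroup of `L` in a configuration. -/
theorem base_sylow {G : Type u} [Group G] [Finite G] (S : Sylow 2 G)
    (M T K L : Subgroup G) (hB : Cfsg.Agent.H64.Jz.Base S M T K L) : IsSylowTwoIn T L := by
  obtain ⟨⟨hL, hN, hZ⟩, hO, hM, hMJ, hT, -, hK, hLmax, hKL⟩ := hB
  obtain ⟨L₀, -, -, huniq, -, hsyl⟩ :=
    Cfsg.Agent.S2950.result hL hN hZ hO S M hM hMJ T hT K hK
  have hLL : L = L₀ := huniq L hLmax hKL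
  rw [hLL]
  exact hsyl

/-- JX-PF: generic facts on `O₂(K ⊔ T)`. -/
theorem pf : Cfsg.Agent.H52.Jx.StPF.{u} := by
  intro G _ _ S M T K L hB
  have hsyl := base_sylow S M T K L hB
  have hKL : K ≤ L := le_sup_left.trans hB.2.2.2.2.2.2.2.2
  have hPL : K ⊔ T ≤ L := sup_le hKL hsyl.1
  have hmul := Subgroup.relIndex_mul_relIndex T (K ⊔ T) L le_sup_right hPL
  have hsylP : IsSylowTwoIn T (K ⊔ T) :=
    ⟨le_sup_right, hsyl.2.1, Odd.of_dvd_nat hsyl.2.2 (Dvd.intro _ hmul)⟩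
  exact ⟨Cfsg.Agent.Helper55.J48.pCoreOf_le_of_sylowIn hsylP, hB.2.2.2.2.2.2.1.2.2,
    Cfsg.Agent.Helper55.J48.le_normalizer_pCoreOf (K ⊔ T)⟩

example : ∀ {G : Type u} [Group G] [Finite G] (S : Sylow 2 G) (M T K L : Subgroup G),
    Cfsg.Agent.H64.Jz.Base S M T K L →
    pCoreOf 2 (K ⊔ T) ≤ T ∧ pCoreOf 2 (K ⊔ T) ≠ ⊥ ∧
      K ⊔ T ≤ Subgroup.normalizer (pCoreOf 2 (K ⊔ T) : Set G) := pf

end Cfsg.Agent.H25.Jy
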