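import Cfsg.Agent.H25.JyNJ
import Cfsg.Agent.H25.JyNotin
import Cfsg.Agent.H64.JzFinal

/-!
# JY-NJ (piece Y5 of S2953), closed form: `N_G(J(S)) ≤ N_G(S)` for `T = S`
-/

set_option autoImplicit false
open Cfsg

namespace Cfsg.Agent.H25.Jy

universe u

/-- JY-NJ. -/
theorem nj : Cfsg.Agent.H64.Jy.StNJ.{u} := nj_main Cfsg.Agent.H64.Jz.stMain

example : ∀ {G : Type u} [Group G] [Finite G] (S : Sylow 2 G) (M K L : Subgroup G),
    Cfsg.Agent.H64.Jz.Base S M (S : Subgroup G) K L →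
    Subgroup.normalizer (Cfsg.thompsonSubgroupOf 2 (S : Subgroup G) : Set G) ≤
      Subgroup.normalizer ((S : Subgroup G) : Set G) := nj

end Cfsg.Agent.H25.Jy
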