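import Mathlib
import Cfsg.Agent.H45.MDefs

set_option autoImplicit false

/-!
# S2415, piece M-ROT (helper25 for helper45)

A rotation of order dividing `q + 1` in the isometry group of an anisotropic binary quadratic
form over a finite field, inverted by the reflection along `(1, 0)`.
-/

open Matrix Polynomial Cfsg.Agent.H49 Cfsg.Agent.H45.M

namespace Cfsg.Agent.H25.M

section
variable {F : Type*} [Field F]

/-- The matrix of multiplication by `z 0 + z 1 * t` on `F[t] / (t ^ 2 - a t + b)`. -/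
def Mz (a b : F) (z : Fin 2 → F) : Matrix (Fin 2) (Fin 2) F :=
  !![z 0, -b * z 1; z 1, z 0 + a * z 1]

theorem Mz_mulVec (a b : F) (z w : Fin 2 → F) :
    Mz a b z *ᵥ w = ![z 0 * w 0 - b * z 1 * w 1, z 1 * w 0 + (z 0 + a * z 1) * w 1] := by
  funext i
  fin_cases i
  · simp [Mz, Matrix.mulVec, dotProduct, Fin.sum_univ_two]; ring
  · simp [Mz, Matrix.mulVec, dotProduct, Fin.sum_univ_two]

theorem Mz_mul (a b : F) (z w : Fin 2 → F) :
    Mz a b z * Mz a b w = Mz a b (Mz a b z *ᵥ w) := by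
  rw [Mz_mulVec]
  ext i j
  fin_cases i <;> fin_cases j <;> simp [Mz, Matrix.mul_apply, Fin.sum_univ_two] <;> ring

theorem Mz_det (a b : F) (z : Fin 2 → F) : (Mz a b z).det = binQ a b z := by
  rw [Matrix.det_fin_two, binQ_apply]
  simp [Mz]
  ring

theorem Mz_e (a b : F) : Mz a b ![1, 0] = 1 := by
  ext i j
  fin_cases i <;> fin_cases j <;> simp [Mz]

theorem Mz_col (a b : F) (z : Fin 2 → F) : Mz a b z *ᵥ ![1, 0] = z := by
  rw [Mz_mulVec]
  funext i
  fin_cases i <;> simp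

theorem Mz_smul (a b : F) (c : F) (z : Fin 2 → F) : Mz a b (c • z) = c • Mz a b z := by
  ext i j
  fin_cases i <;> fin_cases j <;> simp [Mz] <;> ring

theorem Mz_zero (a b : F) : Mz a b 0 = 0 := by
  ext i j
  fin_cases i <;> fin_cases j <;> simp [Mz]

theorem Mz_pow (a b : F) (z : Fin 2 → F) (n : ℕ) : ∃ w, Mz a b z ^ n = Mz a b w := by
  induction n with
  | zero => exact ⟨![1, 0], by rw [pow_zero, Mz_e]⟩
  | succ n ih =>
    obtain ⟨w, hw⟩ := ih
    exact ⟨_, by rw [pow_succ, hw, Mz_mul]⟩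

theorem binQ_Mz (a b : F) (z w : Fin 2 → F) :
    binQ a b (Mz a b z *ᵥ w) = binQ a b z * binQ a b w := by
  rw [← Mz_det, ← Mz_mul, Matrix.det_mul, Mz_det, Mz_det]

/-- The conjugate of `z 0 + z 1 * t`. -/
def cjz (a : F) (z : Fin 2 → F) : Fin 2 → F := ![z 0 + a * z 1, - z 1]

theorem Mz_mul_cjz (a b : F) (z : Fin 2 → F) :
    Mz a b z * Mz a b (cjz a z) = binQ a b z • (1 : Matrix (Fin 2) (Fin 2) F) := by
  ext i j
  fin_cases i <;> fin_cases j <;>
    simp [Mz, cjz, binQ_apply, Matrix.mul_apply, Fin.sum_univ_two] <;> ring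

theorem cjz_mul_Mz (a b : F) (z : Fin 2 → F) :
    Mz a b (cjz a z) * Mz a b z = binQ a b z • (1 : Matrix (Fin 2) (Fin 2) F) := by
  ext i j
  fin_cases i <;> fin_cases j <;>
    simp [Mz, cjz, binQ_apply, Matrix.mul_apply, Fin.sum_univ_two] <;> ring

theorem binQ_ne_zero (a b : F)
    (hab : ∀ z₁ z₂ : F, z₁ ^ 2 + a * z₁ * z₂ + b * z₂ ^ 2 = 0 → z₁ = 0 ∧ z₂ = 0)
    {z : Fin 2 → F} (hz : z ≠ 0) : binQ a b z ≠ 0 := by
  intro h
  rw [binQ_apply] at h
  obtain ⟨h0, h1⟩ := hab _ _ h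
  apply hz
  funext i
  fin_cases i
  · exact h0
  · exact h1

/-- The group of the matrices `Mz a b z`, `z ≠ 0`. -/
def HH (a b : F)
    (hab : ∀ z₁ z₂ : F, z₁ ^ 2 + a * z₁ * z₂ + b * z₂ ^ 2 = 0 → z₁ = 0 ∧ z₂ = 0) :
    Subgroup (Matrix (Fin 2) (Fin 2) F)ˣ where
  carrier := {u | ∃ z, (u : Matrix (Fin 2) (Fin 2) F) = Mz a b z}
  mul_mem' := by
    rintro u u' ⟨z, hz⟩ ⟨z', hz'⟩
    exact ⟨_, by rw [Units.val_mul, hz, hz', Mz_mul]⟩
  one_mem' := ⟨![1, 0], by rw [Units.val_one, Mz_e]⟩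
  inv_mem' := by
    rintro u ⟨z, hz⟩
    have hz0 : z ≠ 0 := by
      rintro rfl
      rw [Mz_zero] at hz
      exact u.ne_zero hz
    refine ⟨(binQ a b z)⁻¹ • cjz a z, ?_⟩
    apply Units.inv_eq_of_mul_eq_one_right
    rw [hz, Mz_smul, Matrix.mul_smul, Mz_mul_cjz, smul_smul,
      inv_mul_cancel₀ (binQ_ne_zero a b hab hz0), one_smul]

/-- The unit with matrix `Mz a b z`. -/
def MzU (a b : F)
    (hab : ∀ z₁ z₂ : F, z₁ ^ 2 + a * z₁ * z₂ + b * z₂ ^ 2 = 0 → z₁ = 0 ∧ z₂ = 0)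
    (z : Fin 2 → F) (hz : z ≠ 0) : (Matrix (Fin 2) (Fin 2) F)ˣ where
  val := Mz a b z
  inv := Mz a b ((binQ a b z)⁻¹ • cjz a z)
  val_inv := by
    rw [Mz_smul, Matrix.mul_smul, Mz_mul_cjz, smul_smul,
      inv_mul_cancel₀ (binQ_ne_zero a b hab hz), one_smul]
  inv_val := by
    rw [Mz_smul, Matrix.smul_mul, cjz_mul_Mz, smul_smul,
      inv_mul_cancel₀ (binQ_ne_zero a b hab hz), one_smul]

theorem card_HH [Fintype F] (a b : F)
    (hab : ∀ z₁ z₂ : F, z₁ ^ 2 + a * z₁ * z₂ + b * z₂ ^ 2 = 0 → z₁ = 0 ∧ z₂ = 0) :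
    Nat.card (HH a b hab) = Fintype.card F ^ 2 - 1 := by
  classical
  have hne : ∀ u : HH a b hab,
      ((u : (Matrix (Fin 2) (Fin 2) F)ˣ) : Matrix (Fin 2) (Fin 2) F) *ᵥ ![1, 0] ≠ 0 := by
    intro u
    obtain ⟨z, hz⟩ := u.2
    rw [hz, Mz_col]
    rintro rfl
    rw [Mz_zero] at hz
    exact u.1.ne_zero hz
  have e : (HH a b hab) ≃ {z : Fin 2 → F // z ≠ 0} := Equiv.ofBijective
    (fun u => ⟨((u : (Matrix (Fin 2) (Fin 2) F)ˣ) : Matrix (Fin 2) (Fin 2) F) *ᵥ ![1, 0], hne u⟩)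
    ⟨?_, ?_⟩
  · rw [Nat.card_congr e, Nat.card_eq_fintype_card, Fintype.card_subtype_compl,
      Fintype.card_subtype_eq, Fintype.card_fun, Fintype.card_fin]
  · intro u u' h
    have h' : ((u : (Matrix (Fin 2) (Fin 2) F)ˣ) : Matrix (Fin 2) (Fin 2) F) *ᵥ ![1, 0]
        = ((u' : (Matrix (Fin 2) (Fin 2) F)ˣ) : Matrix (Fin 2) (Fin 2) F) *ᵥ ![1, 0] :=
      congrArg Subtype.val h
    obtain ⟨z, hz⟩ := u.2
    obtain ⟨z', hz'⟩ := u'.2
    rw [hz, hz', Mz_col, Mz_col] at h'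
    apply Subtype.ext
    apply Units.ext
    rw [hz, hz', h']
  · rintro ⟨z, hz⟩
    refine ⟨⟨MzU a b hab z hz, ⟨z, rfl⟩⟩, ?_⟩
    apply Subtype.ext
    exact Mz_col a b z

theorem Mz_pow_card [Fintype F] (a b : F)
    (hab : ∀ z₁ z₂ : F, z₁ ^ 2 + a * z₁ * z₂ + b * z₂ ^ 2 = 0 → z₁ = 0 ∧ z₂ = 0)
    (z : Fin 2 → F) (hz : z ≠ 0) : Mz a b z ^ (Fintype.card F ^ 2 - 1) = 1 := by
  have h1 : (⟨MzU a b hab z hz, ⟨z, rfl⟩⟩ : HH a b hab) ^ Nat.card (HH a b hab) = 1 :=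
    pow_card_eq_one'
  rw [card_HH] at h1
  have h2 := congrArg (fun u : HH a b hab =>
    ((u : (Matrix (Fin 2) (Fin 2) F)ˣ) : Matrix (Fin 2) (Fin 2) F)) h1
  simpa [MzU] using h2

/-- The companion matrix `t` is not fixed by the `q`-power map. -/
theorem T_pow_ne [Fintype F] (a b : F)
    (hab : ∀ z₁ z₂ : F, z₁ ^ 2 + a * z₁ * z₂ + b * z₂ ^ 2 = 0 → z₁ = 0 ∧ z₂ = 0) :
    Mz a b ![0, 1] ^ Fintype.card F ≠ Mz a b ![0, 1] := by
  classical
  intro h
  have hf : aeval (Mz a b ![0, 1]) (X ^ 2 - C a * X + C b : F[X]) = 0 := by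
    simp only [map_add, map_sub, map_mul, map_pow, aeval_X, aeval_C]
    ext i j
    fin_cases i <;> fin_cases j <;>
      simp [Mz, pow_two, Matrix.mul_apply, Matrix.algebraMap_matrix_apply]
    ring
  have hg : aeval (Mz a b ![0, 1]) (X ^ Fintype.card F - X : F[X]) = 0 := by
    simp only [map_sub, map_pow, aeval_X]
    rw [h, sub_self]
  have hprod : (X ^ Fintype.card F - X : F[X]) = ∏ c : F, (X - C c) := by
    have hm : (X ^ Fintype.card F - X : F[X]).Monic := by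
      apply monic_X_pow_sub
      rw [degree_X]
      exact_mod_cast Fintype.one_lt_card
    have hr := FiniteField.roots_X_pow_card_sub_X F
    have hc : Multiset.card (X ^ Fintype.card F - X : F[X]).roots
        = (X ^ Fintype.card F - X : F[X]).natDegree := by
      rw [hr, FiniteField.X_pow_card_sub_X_natDegree_eq F Fintype.one_lt_card]
      rfl
    have := prod_multiset_X_sub_C_of_monic_of_roots_card_eq hm hc
    rw [hr] at this
    exact this.symm
  have hcop : IsCoprime (X ^ Fintype.card F - X : F[X]) (X ^ 2 - C a * X + C b : F[X]) := by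
    rw [hprod]
    apply IsCoprime.prod_left
    intro c _
    rw [(irreducible_X_sub_C c).coprime_iff_not_dvd, dvd_iff_isRoot]
    intro hroot
    have h0 : c ^ 2 + a * c * (-1) + b * (-1) ^ 2 = 0 := by
      have : c ^ 2 - a * c + b = 0 := by simpa [IsRoot] using hroot
      linear_combination this
    have := (hab c (-1) h0).2
    simp at this
  obtain ⟨u, v, huv⟩ := hcop
  have h1 := congrArg (aeval (Mz a b ![0, 1])) huv
  rw [map_add, map_mul, map_mul, hf, hg, mul_zero, mul_zero, add_zero, map_one] at h1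
  exact zero_ne_one h1

/-- Some `Mz a b v ^ (q - 1)` is not a scalar matrix. -/
theorem exists_nonscalar [Fintype F] (a b : F)
    (hab : ∀ z₁ z₂ : F, z₁ ^ 2 + a * z₁ * z₂ + b * z₂ ^ 2 = 0 → z₁ = 0 ∧ z₂ = 0) :
    ∃ v w : Fin 2 → F, v ≠ 0 ∧ Mz a b v ^ (Fintype.card F - 1) = Mz a b w ∧ w 1 ≠ 0 := by
  classical
  obtain ⟨w, hw⟩ := Mz_pow a b ![0, 1] (Fintype.card F - 1)
  obtain ⟨w', hw'⟩ := Mz_pow a b ![1, 1] (Fintype.card F - 1)
  by_cases h1 : w 1 = 0
  · by_cases h2 : w' 1 = 0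
    · exfalso
      have hq : Fintype.card F - 1 + 1 = Fintype.card F := by
        have := Fintype.card_pos (α := F)
        omega
      have hT : Mz a b ![1, 1] = 1 + Mz a b ![0, 1] := by
        ext i j
        fin_cases i <;> fin_cases j <;> simp [Mz]
      -- scalar forms
      have hs : Mz a b w = w 0 • (1 : Matrix (Fin 2) (Fin 2) F) := by
        ext i j
        fin_cases i <;> fin_cases j <;> simp [Mz, h1]
      have hs' : Mz a b w' = w' 0 • (1 : Matrix (Fin 2) (Fin 2) F) := by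
        ext i j
        fin_cases i <;> fin_cases j <;> simp [Mz, h2]
      have e1 : Mz a b ![0, 1] ^ Fintype.card F = w 0 • Mz a b ![0, 1] := by
        conv_lhs => rw [← hq, pow_succ, hw, hs]
        rw [Matrix.smul_mul, Matrix.one_mul]
      have e2 : (1 + Mz a b ![0, 1]) ^ Fintype.card F = w' 0 • (1 + Mz a b ![0, 1]) := by
        conv_lhs => rw [← hq, pow_succ, ← hT, hw', hs']
        rw [Matrix.smul_mul, Matrix.one_mul, hT]
      -- Frobenius
      obtain ⟨n, hp, hqn⟩ := FiniteField.card F (ringChar F)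
      have : Fact (ringChar F).Prime := ⟨hp⟩
      have e3 : (1 + Mz a b ![0, 1]) ^ Fintype.card F = 1 + Mz a b ![0, 1] ^ Fintype.card F := by
        rw [hqn, add_pow_char_pow_of_commute (ringChar F) (n : ℕ) (Commute.one_left _), one_pow]
      rw [e3, e1] at e2
      have c10 := congrFun (congrFun e2 1) 0
      have c00 := congrFun (congrFun e2 0) 0
      simp [Mz] at c10 c00
      apply T_pow_ne a b hab
      rw [e1, c10, ← c00, one_smul]
    · refine ⟨![1, 1], w', ?_, hw', h2⟩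
      intro h
      have := congrFun h 0
      simp at this
  · refine ⟨![0, 1], w, ?_, hw, h1⟩
    intro h
    have := congrFun h 1
    simp at this

end

theorem rot {F : Type*} [Field F] [Fintype F] (a b : F)
    (hab : ∀ z₁ z₂ : F, z₁ ^ 2 + a * z₁ * z₂ + b * z₂ ^ 2 = 0 → z₁ = 0 ∧ z₂ = 0) :
    ∃ r : ↥(Cfsg.isometryGroup F (⇑(Cfsg.Agent.H49.binQ a b))),
      r ^ (Fintype.card F + 1) = 1 ∧ (Cfsg.Agent.H45.M.bmat r).det = 1 ∧
      (∀ d : Fin 2 → F, ∃ α β : F, d = α • ![1, 0] + β • (Cfsg.Agent.H45.M.bmat r *ᵥ ![1, 0])) ∧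
      Cfsg.Agent.H49.reflG (Cfsg.Agent.H49.binQ a b) ![1, 0] * r *
        Cfsg.Agent.H49.reflG (Cfsg.Agent.H49.binQ a b) ![1, 0] = r⁻¹ := by
  classical
  obtain ⟨v, w, hv, hvw, hw1⟩ := exists_nonscalar a b hab
  have hw0 : w ≠ 0 := by
    rintro rfl
    exact hw1 rfl
  -- `binQ w = 1`
  have hq1 : 1 ≤ Fintype.card F := Fintype.card_pos
  have hbw : binQ a b w = 1 := by
    rw [← Mz_det, ← hvw, Matrix.det_pow, Mz_det]
    exact FiniteField.pow_card_sub_one_eq_one _ (binQ_ne_zero a b hab hv)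
  have hmem : MzU a b hab w hw0 ∈ Cfsg.isometryGroup F (⇑(binQ a b)) := by
    rw [mem_isometryGroup_iff]
    intro u
    show binQ a b (Mz a b w *ᵥ u) = binQ a b u
    rw [binQ_Mz, hbw, one_mul]
  refine ⟨⟨MzU a b hab w hw0, hmem⟩, ?_, ?_, ?_, ?_⟩
  · apply Subtype.ext
    apply Units.ext
    show Mz a b w ^ (Fintype.card F + 1) = 1
    rw [← hvw, ← pow_mul]
    have : (Fintype.card F - 1) * (Fintype.card F + 1) = Fintype.card F ^ 2 - 1 := by
      obtain ⟨m, hm⟩ : ∃ m, Fintype.card F = m + 1 := ⟨Fintype.card F - 1, by omega⟩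
      rw [hm]
      simp only [Nat.add_sub_cancel]
      have : (m + 1) ^ 2 = m * (m + 1 + 1) + 1 := by ring
      rw [this, Nat.add_sub_cancel]
    rw [this]
    exact Mz_pow_card a b hab v hv
  · show (Mz a b w).det = 1
    rw [Mz_det, hbw]
  · intro d
    refine ⟨d 0 - d 1 / w 1 * w 0, d 1 / w 1, ?_⟩
    show d = _ • ![1, 0] + _ • (Mz a b w *ᵥ ![1, 0])
    rw [Mz_col]
    funext i
    fin_cases i
    · simp
    · simp
      field_simp
  · apply eq_inv_of_mul_eq_one_left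
    apply act_ext
    intro x
    rw [act_mul, act_mul, act_mul, act_one, act_reflG, act_reflG]
    have hact : ∀ y : Fin 2 → F,
        act (⟨MzU a b hab w hw0, hmem⟩ : ↥(Cfsg.isometryGroup F (⇑(binQ a b)))) y
          = Mz a b w *ᵥ y := fun y => rfl
    rw [hact, hact]
    have hb : w 0 ^ 2 + a * w 0 * w 1 + b * w 1 ^ 2 = 1 := by
      rw [← binQ_apply]; exact hbw
    have hQ : binQ a b ![1, 0] = 1 := by
      rw [binQ_apply]; simp
    rw [hQ]
    simp only [polar_binQ, Mz_mulVec]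
    funext i
    fin_cases i
    · simp
      linear_combination (x 0) * hb
    · simp
      linear_combination (x 1) * hb

end Cfsg.Agent.H25.M

section Check

example {F : Type*} [Field F] [Fintype F] (a b : F)
    (hab : ∀ z₁ z₂ : F, z₁ ^ 2 + a * z₁ * z₂ + b * z₂ ^ 2 = 0 → z₁ = 0 ∧ z₂ = 0) :
    ∃ r : ↥(Cfsg.isometryGroup F (⇑(Cfsg.Agent.H49.binQ a b))),
      r ^ (Fintype.card F + 1) = 1 ∧ (Cfsg.Agent.H45.M.bmat r).det = 1 ∧
      (∀ d : Fin 2 → F, ∃ α β : F, d = α • ![1, 0] + β • (Cfsg.Agent.H45.M.bmat r *ᵥ ![1, 0])) ∧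
      Cfsg.Agent.H49.reflG (Cfsg.Agent.H49.binQ a b) ![1, 0] * r * Cfsg.Agent.H49.reflG (Cfsg.Agent.H49.binQ a b) ![1, 0] = r⁻¹ :=
  Cfsg.Agent.H25.M.rot a b hab

end Check
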