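import Mathlib
import Cfsg.Agent.H95.OhDefs

/-! helper25: piece S5992-CNT of helper95's S5992/S5993 project: if the fixed space `K` of an
isometry `x` with `x ^ r = 1` has dimension `< c` and `m < c`, the number of all `m`-spaces of a
given type is prime to `r` (fixed-point congruence; the fixed subspaces lie in `K`). -/

set_option autoImplicit false

namespace Cfsg.Agent.H25.Oh

open Cfsg.Agent.H45 Cfsg.Agent.H42.Spd Cfsg.Agent.H42.Ti Cfsg.Agent.H14.Ot Cfsg.Agent.H95.Oh Module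

universe u

/-- A self-map of prime order `r` on a finite type: the number of fixed points is congruent to
the cardinality modulo `r`. -/
theorem cnt_card_modEq_fix {T : Type*} [Finite T] (τ : T → T) (r : ℕ) (hr : r.Prime)
    (hτ : ∀ v, τ^[r] v = v) : Nat.card T ≡ Nat.card {v : T // τ v = v} [MOD r] := by
  classical
  have : Fintype T := Fintype.ofFinite T
  have hfact : Fact r.Prime := ⟨hr⟩
  obtain ⟨f, hf⟩ : ∃ f : Function.End T, f = τ := ⟨τ, rfl⟩
  subst hf
  have h : f ^ r ^ 1 = 1 := by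
    rw [pow_one]
    have h1 := hom_coe_pow (fun g : Function.End T ↦ g) rfl (fun g h ↦ rfl) f r
    funext v
    have h2 := congrFun h1 v
    exact h2.trans (hτ v)
  have h2 := Equiv.Perm.card_fixedPoints_modEq (f := f) h
  rw [← Nat.card_eq_fintype_card, ← Nat.card_eq_fintype_card] at h2
  exact h2

section Abs

variable {F : Type u} [Field F] {V : Type u} [AddCommGroup V] [Module F V]

theorem cnt_plus_map (B : V →ₗ[F] V →ₗ[F] F) (S : Module.End F V)
    (hS : ∀ x y, B (S x) (S y) = B x y) (hinj : Function.Injective S) (W : Submodule F V)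
    (h : Plus B W) : Plus B (W.map S) := by
  obtain ⟨U, hUW, hTI, hfr⟩ := h
  refine ⟨U.map S, Submodule.map_mono hUW, ?_, ?_⟩
  · rintro _ ⟨a, ha, rfl⟩ _ ⟨b, hb, rfl⟩
    rw [hS]
    exact hTI a ha b hb
  · rw [← (Submodule.equivMapOfInjective S hinj U).finrank_eq,
      ← (Submodule.equivMapOfInjective S hinj W).finrank_eq]
    exact hfr

theorem cnt_nd_map (B : V →ₗ[F] V →ₗ[F] F) (S : Module.End F V)
    (hS : ∀ x y, B (S x) (S y) = B x y) (W : Submodule F V)
    (h : W ⊓ perp B W = ⊥) : W.map S ⊓ perp B (W.map S) = ⊥ := by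
  rw [eq_bot_iff]
  rintro _ ⟨⟨w, hw, rfl⟩, hperp⟩
  have hperp' : ∀ u ∈ W.map S, B u (S w) = 0 := hperp
  have hw' : w ∈ W ⊓ perp B W := by
    refine ⟨hw, ?_⟩
    intro u hu
    have h1 := hperp' (S u) ⟨u, hu, rfl⟩
    rwa [hS] at h1
  rw [h] at hw'
  rw [(Submodule.mem_bot F).mp hw', map_zero]
  exact Submodule.zero_mem _

end Abs

theorem cnt (hBr : StBridge.{u}) (hFwd : StFwd.{u,u}) (hOrb : StCntOrb.{u}) :
    Cfsg.Agent.H95.Oh.StCnt.{u} := by
  intro F _ _ p _ _ r hr hr2 hrp h2 d m pl hm hm2 hmc x hx hxr hmK hKc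
  classical
  obtain ⟨B, hBpol, hBsymm, hBnd, hBQ, hBN, hBP, hBI⟩ := hBr F d h2
  have hOrb' := hOrb F p r hr hr2 hrp h2 d m pl hm hm2 x hx hxr hmK hKc
  obtain ⟨T, hT⟩ : ∃ T : Module.End F (Unit ⊕ (Fin d ⊕ Fin d) → F),
      T = Matrix.toLin' (x : Matrix (Unit ⊕ (Fin d ⊕ Fin d)) (Unit ⊕ (Fin d ⊕ Fin d)) F) :=
    ⟨_, rfl⟩
  rw [← hT] at hmK hKc hOrb'
  have hTiso : ∀ a b, B (T a) (T b) = B a b := by
    rw [hT]
    exact (hBI x).mp hx
  have hTpow : T ^ r = 1 := by
    have h1 : ((x ^ r : Matrix.GeneralLinearGroup (Unit ⊕ (Fin d ⊕ Fin d)) F) :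
        Matrix (Unit ⊕ (Fin d ⊕ Fin d)) (Unit ⊕ (Fin d ⊕ Fin d)) F) = 1 := by
      rw [hxr]
      rfl
    have h2' : (x : Matrix (Unit ⊕ (Fin d ⊕ Fin d)) (Unit ⊕ (Fin d ⊕ Fin d)) F) ^ r = 1 := by
      rw [← h1]
      exact (Units.val_pow_eq_pow_val x r).symm
    have h3 := congrArg (Matrix.toLinAlgEquiv' (R := F)) h2'
    rw [map_pow, map_one] at h3
    rw [hT]
    exact h3
  have hrF : (r : F) ≠ 0 := by
    intro h0
    have h1 := (CharP.cast_eq_zero_iff F p r).mp h0
    exact hrp ((Nat.prime_dvd_prime_iff_eq Fact.out hr).mp h1).symm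
  have hO : OCtx r B T := ⟨hr, hr2, hrF, h2, hBsymm, hBnd, hTiso, hTpow⟩
  -- powers of `T`
  have hTk_iso : ∀ (k : ℕ) (a b : Unit ⊕ (Fin d ⊕ Fin d) → F),
      B ((T ^ k) a) ((T ^ k) b) = B a b := by
    intro k
    induction k with
    | zero => intro a b; simp
    | succ k ih =>
      intro a b
      rw [pow_succ, Module.End.mul_apply, Module.End.mul_apply, ih, hTiso]
  have hTinj : Function.Injective T := by
    intro a b hab
    have h1 : (T ^ r) a = (T ^ r) b := by
      obtain ⟨k, hk⟩ : ∃ k, r = k + 1 := ⟨r - 1, by have := hr.pos; omega⟩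
      rw [hk, pow_succ, Module.End.mul_apply, Module.End.mul_apply, hab]
    rw [hTpow] at h1
    exact h1
  have hTk_inj : ∀ k : ℕ, Function.Injective (T ^ k) := by
    intro k
    induction k with
    | zero => intro a b hab; simpa using hab
    | succ k ih =>
      intro a b hab
      rw [pow_succ, Module.End.mul_apply, Module.End.mul_apply] at hab
      exact hTinj (ih hab)
  have hmapk : ∀ (k : ℕ) (W : Submodule F (Unit ⊕ (Fin d ⊕ Fin d) → F)),
      (W.map T).map (T ^ k) = W.map (T ^ (k + 1)) := by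
    intro k W
    rw [pow_succ, Module.End.mul_eq_comp, Submodule.map_comp]
  have hmapr : ∀ W : Submodule F (Unit ⊕ (Fin d ⊕ Fin d) → F), W.map (T ^ r) = W := by
    intro W
    rw [hTpow, Module.End.one_eq_id, Submodule.map_id]
  have hPlusT : ∀ W : Submodule F (Unit ⊕ (Fin d ⊕ Fin d) → F),
      Plus B (W.map T) ↔ Plus B W := by
    intro W
    constructor
    · intro h
      have h1 := cnt_plus_map B (T ^ (r - 1)) (hTk_iso (r - 1)) (hTk_inj (r - 1)) _ h
      rw [hmapk, Nat.sub_add_cancel hr.pos, hmapr] at h1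
      exact h1
    · exact cnt_plus_map B T hTiso hTinj W
  have hHE : ∀ W : Submodule F (Unit ⊕ (Fin d ⊕ Fin d) → F),
      IsHE F d m pl W ↔ (finrank F W = m ∧ W ⊓ perp B W = ⊥ ∧ (Plus B W ↔ pl)) := by
    intro W
    unfold IsHE
    rw [hBN W, hBP W]
  have hHEmap : ∀ W : Submodule F (Unit ⊕ (Fin d ⊕ Fin d) → F),
      IsHE F d m pl W → IsHE F d m pl (W.map T) := by
    intro W hW
    obtain ⟨h1, h2', h3⟩ := (hHE W).mp hW
    refine (hHE _).mpr ⟨?_, cnt_nd_map B T hTiso W h2', ?_⟩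
    · rw [← (Submodule.equivMapOfInjective T hTinj W).finrank_eq]
      exact h1
    · rw [hPlusT W]
      exact h3
  have hfinS : Finite (Submodule F (Unit ⊕ (Fin d ⊕ Fin d) → F)) :=
    Finite.of_injective (fun W : Submodule F (Unit ⊕ (Fin d ⊕ Fin d) → F) =>
      (W : Set (Unit ⊕ (Fin d ⊕ Fin d) → F))) SetLike.coe_injective
  obtain ⟨τ, hτ⟩ : ∃ τ : {W : Submodule F (Unit ⊕ (Fin d ⊕ Fin d) → F) // IsHE F d m pl W} →
      {W : Submodule F (Unit ⊕ (Fin d ⊕ Fin d) → F) // IsHE F d m pl W},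
      ∀ W, (τ W).1 = W.1.map T := ⟨fun W => ⟨W.1.map T, hHEmap W.1 W.2⟩, fun _ => rfl⟩
  have hiter : ∀ (k : ℕ) (W : {W : Submodule F (Unit ⊕ (Fin d ⊕ Fin d) → F) // IsHE F d m pl W}),
      (τ^[k] W).1 = W.1.map (T ^ k) := by
    intro k
    induction k with
    | zero =>
      intro W
      rw [Function.iterate_zero, id, pow_zero, Module.End.one_eq_id, Submodule.map_id]
    | succ k ih =>
      intro W
      rw [Function.iterate_succ_apply, ih, hτ, hmapk]
  have hτr : ∀ W, τ^[r] W = W := by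
    intro W
    apply Subtype.ext
    rw [hiter, hmapr]
  have hmod := cnt_card_modEq_fix τ r hr hτr
  -- the fixed points are the subspaces inside `ker (T - 1)`
  have hfixle : ∀ W : Submodule F (Unit ⊕ (Fin d ⊕ Fin d) → F), IsHE F d m pl W →
      W.map T = W → W ≤ LinearMap.ker (T - 1) := by
    intro W hW hfix
    obtain ⟨h1, h2', -⟩ := (hHE W).mp hW
    have hWinv : W ∈ T.invtSubmodule := by
      rw [Module.End.mem_invtSubmodule]
      intro v hv
      rw [Submodule.mem_comap, ← hfix]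
      exact ⟨v, hv, rfl⟩
    obtain ⟨j, hj1, -, -⟩ := hFwd F _ r B T hO W hWinv h2'
    have hj0 : j = 0 := by
      by_contra hne
      have h3 : cc F r * 1 ≤ cc F r * j := Nat.mul_le_mul_left _ (Nat.pos_of_ne_zero hne)
      omega
    rw [hj0, mul_zero, add_zero] at hj1
    have h4 : finrank F ↥(W ⊓ LinearMap.ker (T - 1)) = finrank F W := hj1.symm
    have h5 : W ⊓ LinearMap.ker (T - 1) = W := Submodule.eq_of_le_of_finrank_eq inf_le_left h4
    exact inf_eq_left.mp h5
  have hlefix : ∀ W : Submodule F (Unit ⊕ (Fin d ⊕ Fin d) → F),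
      W ≤ LinearMap.ker (T - 1) → W.map T = W := by
    intro W hle
    have hfixv : ∀ w ∈ W, T w = w := by
      intro w hw
      have h1 := LinearMap.mem_ker.mp (hle hw)
      rw [LinearMap.sub_apply, Module.End.one_apply, sub_eq_zero] at h1
      exact h1
    apply le_antisymm
    · rintro _ ⟨w, hw, rfl⟩
      rw [hfixv w hw]
      exact hw
    · intro w hw
      exact ⟨w, hw, hfixv w hw⟩
  have hcard : Nat.card {W : {W : Submodule F (Unit ⊕ (Fin d ⊕ Fin d) → F) //
        IsHE F d m pl W} // τ W = W} =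
      Nat.card {W : Submodule F (Unit ⊕ (Fin d ⊕ Fin d) → F) // IsHE F d m pl W ∧
        W ≤ LinearMap.ker (T - 1)} := by
    apply Nat.card_congr
    refine ⟨fun W => ⟨W.1.1, W.1.2, hfixle W.1.1 W.1.2 ?_⟩,
      fun W => ⟨⟨W.1, W.2.1⟩, Subtype.ext ?_⟩, fun W => rfl, fun W => rfl⟩
    · rw [← hτ]
      exact congrArg Subtype.val W.2
    · rw [hτ]
      exact hlefix W.1 W.2.2
  intro hdvd
  apply hOrb'
  rw [← hcard]
  exact (hmod.dvd_iff (dvd_refl r)).mp hdvd

example (hBr : StBridge.{u}) (hFwd : StFwd.{u,u}) (hOrb : StCntOrb.{u}) :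
    Cfsg.Agent.H95.Oh.StCnt.{u} :=
  cnt hBr hFwd hOrb

end Cfsg.Agent.H25.Oh
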