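import Mathlib
import Cfsg.Prelude.Def_Transfer

set_option autoImplicit false

namespace Cfsg.Agent.H25

open Cfsg

variable {X : Type*} [Group X]

theorem pResidual_normal (p : ℕ) : (pResidual p X).Normal := by
  constructor
  intro n hn g
  unfold pResidual at hn ⊢
  induction hn using Subgroup.closure_induction with
  | mem x hx =>
    apply Subgroup.subset_closure
    show Nat.Coprime (orderOf (g * x * g⁻¹)) p
    have : g * x * g⁻¹ = MulAut.conj g x := rfl
    rw [this, MulEquiv.orderOf_eq]; exact hx
  | one => simp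
  | mul x y _ _ hx hy =>
    have : g * (x * y) * g⁻¹ = (g * x * g⁻¹) * (g * y * g⁻¹) := by group
    rw [this]; exact Subgroup.mul_mem _ hx hy
  | inv x _ hx =>
    have : g * x⁻¹ * g⁻¹ = (g * x * g⁻¹)⁻¹ := by group
    rw [this]; exact Subgroup.inv_mem _ hx

/-- If `X` is generated by its elements of odd order, a Sylow 2-subgroup lies in the commutator subgroup. -/
theorem sylow_le_commutator_of_pResidual [Finite X] (P : Sylow 2 X) (h : pResidual 2 X = ⊤) :
    (P : Subgroup X) ≤ commutator X := by
  obtain ⟨k, m, hm, hkm⟩ := Nat.exists_eq_two_pow_mul_odd (n := Nat.card X) (Nat.card_pos.ne')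
  have hm2 : Nat.Coprime m 2 := Nat.Coprime.symm (Nat.coprime_two_left.mpr hm)
  have key : ∀ t ∈ pResidual 2 X, (Abelianization.of t) ^ m = 1 := by
    intro t ht
    unfold pResidual at ht
    induction ht using Subgroup.closure_induction with
    | mem x hx =>
      have h1 : orderOf x ∣ Nat.card X := orderOf_dvd_natCard x
      rw [hkm] at h1
      have hx' : Nat.Coprime (orderOf x) 2 := hx
      have h2 : orderOf x ∣ m := (Nat.Coprime.pow_right k hx').dvd_of_dvd_mul_left h1
      rw [← map_pow, orderOf_dvd_iff_pow_eq_one.mp h2, map_one]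
    | one => simp
    | mul x y _ _ hx hy => rw [map_mul, mul_pow, hx, hy, one_mul]
    | inv x _ hx => rw [map_inv, inv_pow, hx, inv_one]
  intro t ht
  have h1 : (Abelianization.of t) ^ m = 1 := key t (by rw [h]; trivial)
  have h2 : orderOf (Abelianization.of t) ∣ m := orderOf_dvd_of_pow_eq_one h1
  have h3 : orderOf (Abelianization.of t) ∣ orderOf t := orderOf_map_dvd _ t
  obtain ⟨i, hi⟩ := (IsPGroup.iff_orderOf.mp P.2) ⟨t, ht⟩
  rw [Subgroup.orderOf_mk] at hi
  rw [hi] at h3
  have h4 : orderOf (Abelianization.of t) = 1 :=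
    Nat.eq_one_of_dvd_coprimes (Nat.Coprime.pow_right i hm2) h2 h3
  have h5 : Abelianization.of t = 1 := orderOf_eq_one_iff.mp h4
  have h6 : t ∈ (Abelianization.of (G := X)).ker := h5
  rwa [Abelianization.ker_of] at h6

/-- The quotient by `O^2` is a 2-group. -/
theorem isPGroup_quotient_pResidual [Finite X] :
    haveI := pResidual_normal (X := X) 2
    IsPGroup 2 (X ⧸ pResidual 2 X) := by
  haveI := pResidual_normal (X := X) 2
  intro q
  induction q using QuotientGroup.induction_on with
  | H g =>
    obtain ⟨k, m, hm, hkm⟩ := Nat.exists_eq_two_pow_mul_odd (n := orderOf g) (orderOf_pos g).ne'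
    refine ⟨k, ?_⟩
    rw [← QuotientGroup.mk_pow, QuotientGroup.eq_one_iff]
    apply Subgroup.subset_closure
    show Nat.Coprime (orderOf (g ^ 2 ^ k)) 2
    have : orderOf (g ^ 2 ^ k) ∣ m := by
      apply orderOf_dvd_of_pow_eq_one
      rw [← pow_mul, ← hkm, pow_orderOf_eq_one]
    exact Nat.Coprime.coprime_dvd_left this (Nat.Coprime.symm (Nat.coprime_two_left.mpr hm))

/-- If a Sylow 2-subgroup lies in the commutator subgroup, `X` is generated by its elements of odd order. -/
theorem pResidual_eq_top_of_sylow_le_commutator [Finite X] (P : Sylow 2 X)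
    (h : (P : Subgroup X) ≤ commutator X) : pResidual 2 X = ⊤ := by
  haveI := pResidual_normal (X := X) 2
  haveI : Fact (Nat.Prime 2) := ⟨Nat.prime_two⟩
  have hQ : IsPGroup 2 (X ⧸ pResidual 2 X) := isPGroup_quotient_pResidual
  -- P ⊔ N = ⊤
  have hsup : (P : Subgroup X) ⊔ pResidual 2 X = ⊤ := by
    rw [← Subgroup.index_eq_one]
    have h1 : ((P : Subgroup X) ⊔ pResidual 2 X).index ∣ (P : Subgroup X).index :=
      Subgroup.index_dvd_of_le le_sup_left
    have h2 : (((P : Subgroup X) ⊔ pResidual 2 X).map (QuotientGroup.mk' (pResidual 2 X))).index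
        = ((P : Subgroup X) ⊔ pResidual 2 X).index := by
      rw [Subgroup.index_map, QuotientGroup.ker_mk', sup_assoc, sup_idem,
        MonoidHom.range_eq_top_of_surjective _ (QuotientGroup.mk'_surjective _), Subgroup.index_top,
        mul_one]
    obtain ⟨a, ha⟩ := IsPGroup.iff_card.mp hQ
    have h3 : ((P : Subgroup X) ⊔ pResidual 2 X).index ∣ 2 ^ a := by
      rw [← h2, ← ha]; exact Subgroup.index_dvd_card _
    have h4 : ¬ 2 ∣ (P : Subgroup X).index := P.not_dvd_index
    have h5 : Nat.Coprime (P : Subgroup X).index (2 ^ a) :=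
      Nat.Coprime.pow_right a ((Nat.coprime_comm).mp ((Nat.Prime.coprime_iff_not_dvd Nat.prime_two).mpr h4))
    exact Nat.eq_one_of_dvd_coprimes h5 h1 h3
  by_contra hne
  haveI : Nontrivial (X ⧸ pResidual 2 X) := by
    by_contra hnt
    rw [not_nontrivial_iff_subsingleton] at hnt
    exact hne (QuotientGroup.subgroup_eq_top_of_subsingleton _ hnt)
  haveI : Group.IsNilpotent (X ⧸ pResidual 2 X) := hQ.isNilpotent
  have hlt : commutator (X ⧸ pResidual 2 X) < ⊤ := Group.IsSolvable.commutator_lt_top_of_nontrivial _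
  apply hlt.ne
  -- commutator of the quotient is the image of commutator X
  have hc : commutator (X ⧸ pResidual 2 X) = (commutator X).map (QuotientGroup.mk' (pResidual 2 X)) := by
    rw [commutator_def, commutator_def, Subgroup.map_commutator,
      ← MonoidHom.range_eq_map, MonoidHom.range_eq_top_of_surjective _ (QuotientGroup.mk'_surjective _)]
  rw [hc, eq_top_iff]
  intro q _
  induction q using QuotientGroup.induction_on with
  | H g =>
    have hg : g ∈ (P : Subgroup X) ⊔ pResidual 2 X := by rw [hsup]; trivial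
    rw [← SetLike.mem_coe, Subgroup.mul_normal, Set.mem_mul] at hg
    obtain ⟨t, ht, n, hn, rfl⟩ := hg
    refine ⟨t, h ht, ?_⟩
    show (QuotientGroup.mk t : X ⧸ pResidual 2 X) = QuotientGroup.mk (t * n)
    rw [QuotientGroup.mk_mul, (QuotientGroup.eq_one_iff n).mpr hn, mul_one]

theorem pResidual_eq_top_iff [Finite X] (P : Sylow 2 X) :
    pResidual 2 X = ⊤ ↔ (P : Subgroup X) ≤ commutator X :=
  ⟨sylow_le_commutator_of_pResidual P, pResidual_eq_top_of_sylow_le_commutator P⟩

end Cfsg.Agent.H25
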