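import Mathlib
import Cfsg.Prelude.Def_LieRecognition

set_option autoImplicit false

namespace Cfsg.Agent.H25

open Cfsg

variable {G Ω : Type*} [Group G] [MulAction G Ω] {a : Ω} {t : G} {Q : Subgroup G}

theorem rankOne_t_inv (hS : IsRankOneSetup G Ω a t Q) : t⁻¹ = t :=
  inv_eq_of_mul_eq_one_left hS.mul_self

/-- `t` normalizes the two point stabilizer -/
theorem rankOne_conj_mem_D (hS : IsRankOneSetup G Ω a t Q) {c : G}
    (hc : c ∈ MulAction.stabilizer G a ⊓ MulAction.stabilizer G (t • a)) :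
    t * c * t ∈ MulAction.stabilizer G a ⊓ MulAction.stabilizer G (t • a) := by
  obtain ⟨h1, h2⟩ := Subgroup.mem_inf.mp hc
  rw [MulAction.mem_stabilizer_iff] at h1 h2
  refine Subgroup.mem_inf.mpr ⟨?_, ?_⟩
  · rw [MulAction.mem_stabilizer_iff, mul_smul, mul_smul, h2, ← mul_smul, hS.mul_self, one_smul]
  · rw [MulAction.mem_stabilizer_iff, mul_smul, mul_smul, ← mul_smul t t, hS.mul_self, one_smul, h1]

/-- uniqueness of the decomposition `g h t f` -/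
theorem rankOne_unique (hS : IsRankOneSetup G Ω a t Q) {g₁ h₁ f₁ g₂ h₂ f₂ : G}
    (hg₁ : g₁ ∈ Q) (hh₁ : h₁ ∈ MulAction.stabilizer G a ⊓ MulAction.stabilizer G (t • a)) (hf₁ : f₁ ∈ Q)
    (hg₂ : g₂ ∈ Q) (hh₂ : h₂ ∈ MulAction.stabilizer G a ⊓ MulAction.stabilizer G (t • a)) (hf₂ : f₂ ∈ Q)
    (h : g₁ * h₁ * t * f₁ = g₂ * h₂ * t * f₂) : f₁ = f₂ ∧ h₁ = h₂ ∧ g₁ = g₂ := by
  have hti := rankOne_t_inv hS
  have hD1 : ∀ {x : G}, x ∈ MulAction.stabilizer G a ⊓ MulAction.stabilizer G (t • a) →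
      x ∈ MulAction.stabilizer G a := fun hx => (Subgroup.mem_inf.mp hx).1
  have hD2 : ∀ {x : G}, x ∈ MulAction.stabilizer G a ⊓ MulAction.stabilizer G (t • a) →
      x ∈ MulAction.stabilizer G (t • a) := fun hx => (Subgroup.mem_inf.mp hx).2
  -- q = f₂ f₁⁻¹ fixes t • a
  have e1 : t * (f₂ * f₁⁻¹) * t⁻¹ = (g₂ * h₂)⁻¹ * (g₁ * h₁) := by
    have : g₁ * h₁ = g₂ * h₂ * t * f₂ * f₁⁻¹ * t⁻¹ := by rw [← h]; group
    rw [this]; group
  have hstab : t * (f₂ * f₁⁻¹) * t⁻¹ ∈ MulAction.stabilizer G a := by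
    rw [e1]
    exact Subgroup.mul_mem _ (Subgroup.inv_mem _ (Subgroup.mul_mem _ (hS.le hg₂) (hD1 hh₂)))
      (Subgroup.mul_mem _ (hS.le hg₁) (hD1 hh₁))
  have hq : f₂ * f₁⁻¹ ∈ Q ⊓ MulAction.stabilizer G (t • a) := by
    refine Subgroup.mem_inf.mpr ⟨Q.mul_mem hf₂ (Q.inv_mem hf₁), ?_⟩
    rw [MulAction.mem_stabilizer_iff] at hstab ⊢
    rw [hti, mul_smul, mul_smul] at hstab
    have := congrArg (fun w => t • w) hstab
    simp only [← mul_smul t t, hS.mul_self, one_smul] at this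
    exact this
  rw [hS.inf_eq_bot, Subgroup.mem_bot] at hq
  have hf : f₁ = f₂ := (mul_inv_eq_one.mp hq).symm
  subst hf
  have h' : g₁ * h₁ = g₂ * h₂ := by
    have := mul_right_cancel h
    exact mul_right_cancel this
  have hq2 : g₂⁻¹ * g₁ ∈ Q ⊓ MulAction.stabilizer G (t • a) := by
    refine Subgroup.mem_inf.mpr ⟨Q.mul_mem (Q.inv_mem hg₂) hg₁, ?_⟩
    have : g₂⁻¹ * g₁ = h₂ * h₁⁻¹ := by
      have : g₁ = g₂ * h₂ * h₁⁻¹ := by rw [← h']; group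
      rw [this]; group
    rw [this]
    exact Subgroup.mul_mem _ (hD2 hh₂) (Subgroup.inv_mem _ (hD2 hh₁))
  rw [hS.inf_eq_bot, Subgroup.mem_bot] at hq2
  have hg : g₁ = g₂ := (inv_mul_eq_one.mp hq2).symm
  subst hg
  exact ⟨rfl, mul_left_cancel h', rfl⟩

end Cfsg.Agent.H25
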