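import Mathlib
import Cfsg.Agent.H25.NormFour
import Cfsg.Agent.H11.Four
import Cfsg.Agent.H60.ZD8Fusion

/-!
# 2-rank at least 3 is inherited by involution centralizers (helper25)
-/

set_option autoImplicit false

namespace Cfsg.Agent.H25

/-- An involution of `G` is conjugate into any given Sylow `2`-subgroup. -/
theorem exists_conj_mem_sylow {G : Type*} [Group G] [Finite G] (S : Sylow 2 G) (x : G)
    (hx : orderOf x = 2) : ∃ g : G, g * x * g⁻¹ ∈ (S : Subgroup G) := by
  have : Fact (Nat.Prime 2) := ⟨Nat.prime_two⟩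
  have hp : IsPGroup 2 (Subgroup.zpowers x) := by
    apply IsPGroup.of_card (n := 1)
    rw [Nat.card_zpowers, hx, pow_one]
  obtain ⟨Q, hQ⟩ := hp.exists_le_sylow
  obtain ⟨g, hg⟩ := MulAction.exists_smul_eq G Q S
  refine ⟨g, ?_⟩
  have hxQ : x ∈ (Q : Subgroup G) := hQ (Subgroup.mem_zpowers x)
  rw [← hg, Sylow.coe_subgroup_smul]
  exact Subgroup.smul_mem_pointwise_smul x (MulAut.conj g) (Q : Subgroup G) hxQ

theorem rank_three_core {G : Type*} [Group G] [Finite G] (hno : ∀ H : Subgroup G, H.index ≠ 2)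
    (S : Sylow 2 G) (E : Subgroup G) (hES : E ≤ (S : Subgroup G)) (hE8 : Nat.card E = 8)
    (hEsq : ∀ e ∈ E, e * e = 1)
    (z v : G) (hzS : z ∈ (S : Subgroup G)) (hvS : v ∈ (S : Subgroup G)) (hz1 : z ≠ 1)
    (hzz : z * z = 1) (hv1 : v ≠ 1) (hvv : v * v = 1)
    (hzv : z ≠ v) (hcomm : z * v = v * z) (hzc : ∀ h ∈ (S : Subgroup G), h * z * h⁻¹ = z)
    (hvc : ∀ h ∈ (S : Subgroup G), h * v * h⁻¹ = v ∨ h * v * h⁻¹ = z * v) (x : G)
    (hx : orderOf x = 2) :
    ∃ E' : Subgroup G, E' ≤ Subgroup.centralizer ({x} : Set G) ∧ Nat.card E' = 8 ∧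
      ∀ e ∈ E', e * e = 1 := by
  classical
  set T : Subgroup G := (S : Subgroup G) ⊓ Subgroup.centralizer {v} with hT
  have hTmem : ∀ g, g ∈ T ↔ g ∈ (S : Subgroup G) ∧ g * v = v * g := by
    intro g; rw [hT, Subgroup.mem_inf, Subgroup.mem_centralizer_singleton_iff]
  have hTS : T ≤ (S : Subgroup G) := inf_le_left
  have hTconj : ∀ g, g ∈ T ↔ g ∈ (S : Subgroup G) ∧ g * v * g⁻¹ = v := by
    intro g
    rw [hTmem]
    constructor
    · rintro ⟨h1, h2⟩; exact ⟨h1, by rw [h2]; group⟩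
    · rintro ⟨h1, h2⟩; exact ⟨h1, mul_inv_eq_iff_eq_mul.mp h2⟩
  have hzvne : z * v ≠ v := fun e => hz1 (by simpa using e)
  have hzT : ∀ g ∈ (S : Subgroup G), g * z = z * g := fun g hg =>
    mul_inv_eq_iff_eq_mul.mp (hzc g hg)
  let V := Cfsg.Agent.H11.fourSub z v hzz hvv hcomm
  have hVmem : ∀ g, g ∈ V ↔ g = 1 ∨ g = z ∨ g = v ∨ g = z * v := fun g => Iff.rfl
  have hVcard : Nat.card V = 4 :=
    (Cfsg.Agent.H11.fourSub_isKleinFour z v hzz hvv hcomm hz1 hv1 hzv).card_four
  have hVsq : ∀ g ∈ V, g * g = 1 := fun g hg =>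
    Cfsg.Agent.H11.kleinFour_mul_self
      (Cfsg.Agent.H11.fourSub_isKleinFour z v hzz hvv hcomm hz1 hv1 hzv) hg
  -- elements of `T` centralize `V`
  have hTV : ∀ t ∈ T, ∀ g ∈ V, t * g = g * t := by
    intro t ht g hg
    obtain ⟨htS, htv⟩ := (hTmem t).mp ht
    have htz := hzT t htS
    rcases (hVmem g).mp hg with rfl | rfl | rfl | rfl
    · simp
    · exact htz
    · exact htv
    · rw [← mul_assoc, htz, mul_assoc, htv, ← mul_assoc]
  have hVT : V ≤ T := by
    intro g hg
    have hzT' : z ∈ T := (hTmem z).mpr ⟨hzS, hcomm⟩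
    have hvT' : v ∈ T := (hTmem v).mpr ⟨hvS, rfl⟩
    rcases (hVmem g).mp hg with rfl | rfl | rfl | rfl
    · exact T.one_mem
    · exact hzT'
    · exact hvT'
    · exact T.mul_mem hzT' hvT'
  -- step A
  have stepA : ∀ e, e ∈ T → e * e = 1 → e ∉ V →
      ∃ E' : Subgroup G, E' ≤ T ∧ Nat.card E' = 8 ∧ (∀ g ∈ E', g * g = 1) ∧
        (∀ g ∈ E', e * g = g * e) := by
    intro e heT hee heV
    have hc : ∀ g ∈ V, e * g = g * e := hTV e heT
    refine ⟨dbl V e hee hc, ?_, ?_, ?_, ?_⟩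
    · intro g hg
      rcases hg with hg | hg
      · exact hVT hg
      · have : g = (g * e) * e⁻¹ := by group
        rw [this]; exact T.mul_mem (hVT hg) (T.inv_mem heT)
    · rw [card_dbl heV, hVcard]
    · intro g hg; exact sq_dbl hVsq hg
    · intro g hg; exact comm_of_mem_dbl hg
  -- dichotomy
  have hdich : T = (S : Subgroup G) ∨ T.relIndex (S : Subgroup G) = 2 := by
    by_cases hST : (S : Subgroup G) ≤ T
    · exact Or.inl (le_antisymm hTS hST)
    · right
      obtain ⟨a, haS, haT⟩ := SetLike.not_le_iff_exists.mp hST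
      have ha' : a * v * a⁻¹ = z * v := by
        rcases hvc a haS with h | h
        · exact absurd ((hTconj a).mpr ⟨haS, h⟩) haT
        · exact h
      rw [Subgroup.relIndex_eq_two_iff]
      refine ⟨a, haS, fun b hb => ?_⟩
      rcases hvc b hb with h | h
      · have hbT : b ∈ T := (hTconj b).mpr ⟨hb, h⟩
        exact Or.inr ⟨hbT, fun hba => haT ((T.mul_mem_cancel_left hbT).mp hba)⟩
      · have hbT : b ∉ T := by
          intro hbT
          have := ((hTconj b).mp hbT).2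
          rw [this] at h
          exact hzvne h.symm
        have hbaT : b * a ∈ T := by
          rw [hTconj]
          refine ⟨Subgroup.mul_mem _ hb haS, ?_⟩
          calc (b * a) * v * (b * a)⁻¹ = b * (a * v * a⁻¹) * b⁻¹ := by group
            _ = b * (z * v) * b⁻¹ := by rw [ha']
            _ = (b * z * b⁻¹) * (b * v * b⁻¹) := by group
            _ = z * (z * v) := by rw [hzc b hb, h]
            _ = v := by rw [← mul_assoc, hzz, one_mul]
        exact Or.inl ⟨hbaT, hbT⟩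
  -- step B: `T` contains an `E₈`
  have stepB : ∃ E1 : Subgroup G, E1 ≤ T ∧ Nat.card E1 = 8 ∧ ∀ g ∈ E1, g * g = 1 := by
    have hEcomm : ∀ a ∈ E, ∀ b ∈ E, a * b = b * a := by
      intro a ha b hb
      have h1 := hEsq a ha
      have h2 := hEsq b hb
      have h3 := hEsq _ (E.mul_mem ha hb)
      calc a * b = a * ((a * b) * (a * b)) * b := by rw [h3, mul_one]
        _ = (a * a) * (b * a) * (b * b) := by group
        _ = b * a := by rw [h1, h2, one_mul, mul_one]
    by_cases hall : ∀ e ∈ T ⊓ E, e ∈ V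
    · -- then `T ⊓ E = V`, so `v ∈ E` and `E ≤ T`
      have h1 := Cfsg.Agent.H3.relIndex_mul_card_inf T E
      have h2 : T.relIndex E ≤ 2 := by
        have h3 : T.relIndex (S : Subgroup G) ≤ 2 := by
          rcases hdich with h | h
          · rw [h, Subgroup.relIndex_self]; norm_num
          · rw [h]
        have h4 : T.relIndex (S : Subgroup G) ≠ 0 := by
          rcases hdich with h | h
          · rw [h, Subgroup.relIndex_self]; norm_num
          · rw [h]; norm_num
        exact (Subgroup.relIndex_le_of_le_right hES h4).trans h3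
      have h5 : 4 ≤ Nat.card (T ⊓ E : Subgroup G) := by
        rw [hE8] at h1
        nlinarith
      have h6 : (T ⊓ E : Subgroup G) = V :=
        Subgroup.eq_of_le_of_card_ge hall (by rw [hVcard]; exact h5)
      have hvE : v ∈ E := by
        have : v ∈ (T ⊓ E : Subgroup G) := by
          rw [h6]; exact (hVmem v).mpr (Or.inr (Or.inr (Or.inl rfl)))
        exact this.2
      refine ⟨E, ?_, hE8, hEsq⟩
      intro e he
      exact (hTmem e).mpr ⟨hES he, hEcomm e he v hvE⟩
    · push Not at hall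
      obtain ⟨e, heTE, heV⟩ := hall
      obtain ⟨E', h1, h2, h3, -⟩ := stepA e heTE.1 (hEsq e heTE.2) heV
      exact ⟨E', h1, h2, h3⟩
  -- step C: conjugate `x` into `T`
  have hconj : ∃ g : G, g * x * g⁻¹ ∈ T := by
    rcases hdich with h | h
    · rw [h]; exact exists_conj_mem_sylow S x hx
    · by_contra hcon
      push Not at hcon
      obtain ⟨M, -, hM, -⟩ := Cfsg.Agent.H60.thompson_transfer S T hTS h x hx hcon
      exact hno M hM
  obtain ⟨g, hg⟩ := hconj
  have hx1 : x ≠ 1 := by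
    rintro rfl
    rw [orderOf_one] at hx; omega
  have hxx : x * x = 1 := by
    have := pow_orderOf_eq_one x
    rwa [hx, pow_two] at this
  have hyy : (g * x * g⁻¹) * (g * x * g⁻¹) = 1 := by
    calc (g * x * g⁻¹) * (g * x * g⁻¹) = g * (x * x) * g⁻¹ := by group
      _ = 1 := by rw [hxx]; group
  -- an `E₈` centralizing `g x g⁻¹`
  have hE'' : ∃ E2 : Subgroup G, Nat.card E2 = 8 ∧ (∀ e ∈ E2, e * e = 1) ∧
      ∀ e ∈ E2, (g * x * g⁻¹) * e = e * (g * x * g⁻¹) := by
    by_cases hyV : g * x * g⁻¹ ∈ V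
    · obtain ⟨E1, h1, h2, h3⟩ := stepB
      exact ⟨E1, h2, h3, fun e he => (hTV e (h1 he) _ hyV).symm⟩
    · obtain ⟨E', -, h2, h3, h4⟩ := stepA _ hg hyy hyV
      exact ⟨E', h2, h3, h4⟩
  obtain ⟨E2, h2, h3, h4⟩ := hE''
  refine ⟨E2.map (MulAut.conj g⁻¹).toMonoidHom, ?_, ?_, ?_⟩
  · rintro _ ⟨e, he, rfl⟩
    rw [Subgroup.mem_centralizer_singleton_iff]
    simp only [MulEquiv.coe_toMonoidHom, MulAut.conj_apply, inv_inv]
    have := h4 e he
    calc g⁻¹ * e * g * x = g⁻¹ * (e * (g * x * g⁻¹)) * g := by group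
      _ = g⁻¹ * ((g * x * g⁻¹) * e) * g := by rw [this]
      _ = x * (g⁻¹ * e * g) := by group
  · rw [← h2]
    exact Nat.card_congr
      (E2.equivMapOfInjective _ (MulAut.conj g⁻¹).injective).toEquiv.symm
  · rintro _ ⟨e, he, rfl⟩
    simp only [MulEquiv.coe_toMonoidHom, MulAut.conj_apply, inv_inv]
    calc g⁻¹ * e * g * (g⁻¹ * e * g) = g⁻¹ * (e * e) * g := by group
      _ = 1 := by rw [h3 e he]; group

end Cfsg.Agent.H25
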