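import Mathlib
import Cfsg.Agent.H13.SchDefs
import Cfsg.Agent.H66.HHA
import Cfsg.Agent.H80.PSolvable

/-!
# S4394 pieces P4 (`quot_facts`) and P5 (`sLike_of_equiv`) for helper13
-/

set_option autoImplicit false
set_option linter.unusedVariables false

open Cfsg
open scoped commutatorElement
open Cfsg.Agent.H13.Sch

namespace Cfsg.Agent.H25.Sch

theorem mem_center_equiv {T T' : Type*} [Group T] [Group T'] (e : T ≃* T') (x : T) :
    e x ∈ Subgroup.center T' ↔ x ∈ Subgroup.center T := by
  rw [Subgroup.mem_center_iff, Subgroup.mem_center_iff]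
  constructor
  · intro h g
    apply e.injective
    rw [map_mul, map_mul]
    exact h (e g)
  · intro h g
    obtain ⟨g, rfl⟩ := e.surjective g
    rw [← map_mul, ← map_mul, h g]

theorem card_center_equiv {T T' : Type*} [Group T] [Group T'] (e : T ≃* T') :
    Nat.card (Subgroup.center T) = Nat.card (Subgroup.center T') :=
  Nat.card_congr (Equiv.subtypeEquiv e.toEquiv (fun x => (mem_center_equiv e x).symm))

theorem sLike_of_equiv {T T' : Type*} [Group T] [Group T'] (p : ℕ) (e : T ≃* T')
    (h : SLike p T) : SLike p T' := by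
  have hcard : Nat.card T = Nat.card T' := Nat.card_congr e.toEquiv
  have hcz := card_center_equiv e
  have hcen : ∀ v : T', v ∈ Subgroup.center T' ↔ e.symm v ∈ Subgroup.center T := by
    intro v
    rw [← mem_center_equiv e, MulEquiv.apply_symm_apply]
  rcases h with h | ⟨h1, h2, h3, h4, h5⟩
  · left
    intro a b
    apply e.symm.injective
    rw [map_mul, map_mul]
    exact h _ _
  · right
    refine ⟨?_, ?_, ?_, ?_, ?_⟩
    · intro a b c
      apply e.symm.injective
      rw [map_mul, map_mul, map_commutatorElement]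
      exact h1 _ _ _
    · intro u
      rw [hcen, map_pow]
      exact h2 _
    · intro v hv a b
      rw [hcen] at hv
      obtain ⟨g, hg⟩ := h3 (e.symm v) hv (e.symm a) (e.symm b)
      refine ⟨e g, ?_⟩
      apply e.symm.injective
      rw [map_commutatorElement, map_commutatorElement, MulEquiv.symm_apply_apply]
      exact hg
    · intro hp2 hc v hv
      rw [hcen] at hv
      rw [← hcard, ← hcz] at hc
      have := h4 hp2 hc (e.symm v) hv
      intro hv2
      apply this
      rw [← map_pow, hv2, map_one]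
    · intro hp3 hc
      rw [← hcard, ← hcz] at hc
      exact h5 hp3 hc

theorem quot_facts {G : Type*} [Group G] [Finite G] (p : ℕ) [Fact p.Prime]
    (hsol : Cfsg.IsPSolvable p G) (hO : pPrimeCore p G = ⊥) (N : Subgroup G) [N.Normal]
    (hN : N = (commutator ↥(pCore p G)).map (pCore p G).subtype) :
    pCore p (G ⧸ N) = (pCore p G).map (QuotientGroup.mk' N) ∧
    (∀ a ∈ pCore p (G ⧸ N), ∀ b ∈ pCore p (G ⧸ N), a * b = b * a) ∧
    Subgroup.centralizer ((pCore p (G ⧸ N) : Subgroup (G ⧸ N)) : Set (G ⧸ N)) ≤ pCore p (G ⧸ N) := by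
  have hp : p.Prime := Fact.out
  have hVn : (pCore p G).Normal := Cfsg.Agent.H14.pCore_normal p G
  have hVp : IsPGroup p (pCore p G) := Cfsg.Agent.H14.pCore_isPGroup p G
  have hNV : N ≤ pCore p G := by
    rw [hN]; exact Subgroup.map_subtype_le _
  have hNp : IsPGroup p N := hVp.to_le hNV
  have hsurj : Function.Surjective (QuotientGroup.mk' N) := QuotientGroup.mk'_surjective N
  have h1 : pCore p (G ⧸ N) = (pCore p G).map (QuotientGroup.mk' N) := by
    apply le_antisymm
    · have hWn : (pCore p (G ⧸ N)).Normal := Cfsg.Agent.H14.pCore_normal p _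
      have hWp : IsPGroup p (pCore p (G ⧸ N)) := Cfsg.Agent.H14.pCore_isPGroup p _
      have hcp : IsPGroup p ((pCore p (G ⧸ N)).comap (QuotientGroup.mk' N)) := by
        apply hWp.comap_of_ker_isPGroup
        rw [QuotientGroup.ker_mk']
        exact hNp
      have hcn : ((pCore p (G ⧸ N)).comap (QuotientGroup.mk' N)).Normal := hWn.comap _
      have hle := Cfsg.Agent.H14.le_pCore hcn hcp
      calc pCore p (G ⧸ N)
          = ((pCore p (G ⧸ N)).comap (QuotientGroup.mk' N)).map (QuotientGroup.mk' N) :=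
            (Subgroup.map_comap_eq_self_of_surjective hsurj _).symm
        _ ≤ _ := Subgroup.map_mono hle
    · exact Cfsg.Agent.H14.le_pCore (hVn.map _ hsurj) (hVp.map _)
  have hcomm : ∀ v ∈ pCore p G, ∀ w ∈ pCore p G, ⁅v, w⁆ ∈ N := by
    intro v hv w hw
    rw [hN]
    refine ⟨⁅(⟨v, hv⟩ : pCore p G), ⟨w, hw⟩⁆, ?_, rfl⟩
    exact Subgroup.commutator_mem_commutator (Subgroup.mem_top _) (Subgroup.mem_top _)
  refine ⟨h1, ?_, ?_⟩
  · intro a ha b hb
    rw [h1] at ha hb
    obtain ⟨v, hv, rfl⟩ := ha
    obtain ⟨w, hw, rfl⟩ := hb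
    rw [← commutatorElement_eq_one_iff_mul_comm, ← map_commutatorElement]
    exact (QuotientGroup.eq_one_iff _).mpr (hcomm v hv w hw)
  · intro gbar hg
    obtain ⟨g, rfl⟩ := hsurj gbar
    have hC := Cfsg.Agent.H80.centralizer_pCore_le p hsol hO
    have hth : Cfsg.Agent.S4227.theta (pCore p G) g = 1 := by
      ext m
      obtain ⟨u, rfl⟩ := Cfsg.Agent.S4227.exists_rep (pCore p G) m
      rw [Cfsg.Agent.S4227.theta_apply]
      show Additive.ofMul _ = Additive.ofMul _
      congr 1
      have hgu : g * (u : G) * g⁻¹ * (u : G)⁻¹ ∈ N := by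
        have h2 := hg ((QuotientGroup.mk' N) (u : G)) (by rw [h1]; exact ⟨u, u.2, rfl⟩)
        rw [← QuotientGroup.eq_one_iff]
        have h3 : ((g * (u : G) * g⁻¹ * (u : G)⁻¹ : G) : G ⧸ N)
            = (QuotientGroup.mk' N) g * (QuotientGroup.mk' N) (u : G) *
              ((QuotientGroup.mk' N) g)⁻¹ * ((QuotientGroup.mk' N) (u : G))⁻¹ := by
          simp
        rw [h3, ← h2]
        group
      rw [hN] at hgu
      obtain ⟨c, hc, hcu⟩ := hgu
      have hcc : c = MulAut.conjNormal g u * u⁻¹ := by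
        apply Subtype.ext
        have hcu' : (c : G) = g * (u : G) * g⁻¹ * (u : G)⁻¹ := hcu
        rw [hcu']
        simp [MulAut.conjNormal_apply]
      rw [hcc] at hc
      have hker : Abelianization.of (MulAut.conjNormal g u * u⁻¹) = 1 := by
        exact (QuotientGroup.eq_one_iff _).mpr hc
      rw [map_mul, map_inv, mul_inv_eq_one] at hker
      exact hker
    have := Cfsg.Agent.H66.mem_pCore_of_theta_eq_one p hC g hth
    rw [h1]; exact ⟨g, this, rfl⟩

end Cfsg.Agent.H25.Sch
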