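import Cfsg.Agent.H52.SpDefs
import Cfsg.Agent.H13.PCore
import Cfsg.Agent.H25.SpLE

/-!
# SP-SETUP (piece of S2944): `N_G(W_K)` is in the family of a Sylow 2-subgroup `S` of it
containing `J(T)`, and `K` is a `J(S)`-component
-/

set_option autoImplicit false
open Cfsg
open scoped commutatorElement

namespace Cfsg.Agent.H25.Sp

universe u

/-- If `K = [K, J]` then `J` normalizes `K`. -/
theorem le_normalizer_of_comm_eq {G : Type u} [Group G] (K J : Subgroup G) (h : ⁅K, J⁆ = K) :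
    J ≤ Subgroup.normalizer (K : Set G) := by
  have key : ∀ a ∈ J, ∀ k ∈ K, a * k * a⁻¹ ∈ K := by
    intro a ha k hk
    have h1 : ⁅k⁻¹, a⁆ ∈ K := by
      rw [← h]; exact Subgroup.commutator_mem_commutator (K.inv_mem hk) ha
    have e : a * k * a⁻¹ = k * ⁅k⁻¹, a⁆ := by
      rw [commutatorElement_def]; group
    rw [e]; exact K.mul_mem hk h1
  intro a ha
  rw [Subgroup.mem_normalizer_iff]
  intro k
  constructor
  · exact key a ha k
  · intro hk
    have h2 := key a⁻¹ (J.inv_mem ha) _ hk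
    have e : a⁻¹ * (a * k * a⁻¹) * a⁻¹⁻¹ = k := by group
    rw [e] at h2; exact h2

/-- A 2-group generated by elements of odd order is trivial. -/
theorem eq_bot_of_gen_odd_of_two {G : Type u} [Group G] (K : Subgroup G)
    (hgen : Subgroup.closure {g : G | g ∈ K ∧ Odd (orderOf g)} = K) (h2 : IsPGroup 2 ↥K) :
    K = ⊥ := by
  rw [← hgen, Subgroup.closure_eq_bot_iff]
  rintro g ⟨hg, hodd⟩
  obtain ⟨n, hn⟩ := h2 ⟨g, hg⟩
  have hgn : g ^ (2 ^ n) = 1 := by
    have h3 := congrArg Subtype.val hn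
    simpa using h3
  have hd : orderOf g ∣ 2 ^ n := orderOf_dvd_of_pow_eq_one hgn
  have hcop : Nat.Coprime (orderOf g) (2 ^ n) :=
    Nat.Coprime.pow_right n hodd.coprime_two_right
  exact orderOf_eq_one_iff.mp (Nat.Coprime.eq_one_of_dvd hcop hd)

/-- A 2-subgroup of `N` lies in a Sylow 2-subgroup of `N`. -/
theorem exists_sylowTwoIn {G : Type u} [Group G] [Finite G] (N J : Subgroup G) (hJN : J ≤ N)
    (hJ : IsPGroup 2 ↥J) : ∃ S : Subgroup G, IsSylowTwoIn S N ∧ J ≤ S := by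
  have hfact : Fact (Nat.Prime 2) := ⟨Nat.prime_two⟩
  have hJ' : IsPGroup 2 ↥(J.subgroupOf N) := hJ.comap_subtype
  obtain ⟨P, hP⟩ := hJ'.exists_le_sylow
  refine ⟨(P : Subgroup ↥N).map N.subtype, ⟨Subgroup.map_subtype_le _, ?_, ?_⟩, ?_⟩
  · exact P.isPGroup'.map N.subtype
  · have e : ((P : Subgroup ↥N).map N.subtype).relIndex N = (P : Subgroup ↥N).index := by
      unfold Subgroup.relIndex
      rw [← Subgroup.comap_subtype,
        Subgroup.comap_map_eq_self_of_injective N.subtype_injective]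
    rw [e]
    have h1 := P.not_dvd_index
    rw [← Nat.not_even_iff_odd, even_iff_two_dvd]
    exact h1
  · intro x hx
    exact ⟨⟨x, hJN hx⟩, hP (Subgroup.mem_subgroupOf.mpr hx), rfl⟩

/-- SP-SETUP. -/
theorem setup : Cfsg.Agent.H52.Sn.StSetup.{u} := by
  intro G _ _ hL T hT K hK
  obtain ⟨hKc, hKz⟩ := hK
  obtain ⟨hgen, hKJ, hO3, hSylc, hW4, hWexp⟩ := hKc
  -- `K ≠ ⊥`
  have hKne : K ≠ ⊥ := by
    intro h0
    rw [h0, Subgroup.relIndex_bot_right] at hO3
    exact absurd hO3 (by norm_num)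
  -- `J(T)` normalizes `K`, hence `W_K`
  have hJNK : thompsonSubgroupOf 2 T ≤ Subgroup.normalizer (K : Set G) :=
    le_normalizer_of_comm_eq K _ hKJ
  have hNKN : Subgroup.normalizer (K : Set G) ≤ Subgroup.normalizer (wOf K : Set G) := le K
  have hJN : thompsonSubgroupOf 2 T ≤ Subgroup.normalizer (wOf K : Set G) := hJNK.trans hNKN
  have hKN : K ≤ Subgroup.normalizer (wOf K : Set G) := Subgroup.le_normalizer.trans hNKN
  have hJT : thompsonSubgroupOf 2 T ≤ T := by
    unfold thompsonSubgroupOf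
    exact Subgroup.map_subtype_le _
  have hJ2 : IsPGroup 2 ↥(thompsonSubgroupOf 2 T) := hT.to_le hJT
  have hJne : thompsonSubgroupOf 2 T ≠ ⊥ := by
    intro h0
    rw [h0, Subgroup.commutator_bot_right] at hKJ
    exact hKne hKJ.symm
  obtain ⟨S, hSyl, hJS⟩ := exists_sylowTwoIn _ _ hJN hJ2
  have hJeq : thompsonSubgroupOf 2 S = thompsonSubgroupOf 2 T := hKz S hJS hSyl
  -- `W_K` is a nontrivial 2-group
  have hW2 : IsPGroup 2 ↥(wOf K) := by
    have hfact : Fact (Nat.Prime 2) := ⟨Nat.prime_two⟩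
    exact IsPGroup.of_card (n := 2) (by rw [hW4]; norm_num)
  have hWne : wOf K ≠ ⊥ := by
    intro h0
    rw [h0, Subgroup.card_bot] at hW4
    exact absurd hW4 (by norm_num)
  have hchar := hL.2 (wOf K) hW2 hWne
  unfold IsOfCharacteristicTwo at hchar
  -- `W_K ≤ O₂(N)`
  have hpn := Cfsg.Agent.H13.pCore_normal 2 ↥(Subgroup.normalizer (wOf K : Set G))
  have hWQ : wOf K ≤ pCoreOf 2 (Subgroup.normalizer (wOf K : Set G)) := by
    have h1 : (wOf K).subgroupOf (Subgroup.normalizer (wOf K : Set G)) ≤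
        pCore 2 ↥(Subgroup.normalizer (wOf K : Set G)) :=
      Cfsg.Agent.H13.le_pCore Subgroup.normal_in_normalizer hW2.comap_subtype
    have h2 := Subgroup.map_mono (f := (Subgroup.normalizer (wOf K : Set G)).subtype) h1
    rw [Subgroup.map_subgroupOf_eq_of_le Subgroup.le_normalizer] at h2
    exact h2
  have hQ2 : IsPGroup 2 ↥(pCoreOf 2 (Subgroup.normalizer (wOf K : Set G))) := by
    unfold pCoreOf
    exact (Cfsg.Agent.H13.pCore_isPGroup 2 _).map _
  refine ⟨S, hSyl.2.1, ?_, ⟨hSyl, ?_, ?_⟩, ?_, hKN⟩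
  · -- `S ≠ ⊥`
    intro h0
    rw [h0] at hJS
    exact hJne (le_bot_iff.mp hJS)
  · -- `J(S) ≰ O₂(N)`
    rw [hJeq]
    intro hle
    have hKQ' : ⁅K, thompsonSubgroupOf 2 T⁆ ≤
        pCoreOf 2 (Subgroup.normalizer (wOf K : Set G)) := by
      rw [Subgroup.commutator_le]
      intro k hk a ha
      obtain ⟨a', ha', rfl⟩ := hle ha
      have hk' : k ∈ Subgroup.normalizer (wOf K : Set G) := hKN hk
      have h1 := hpn.conj_mem a' ha' ⟨k, hk'⟩
      have h2 := Subgroup.mul_mem _ h1 (Subgroup.inv_mem _ ha')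
      refine ⟨_, h2, ?_⟩
      rw [commutatorElement_def]
      rfl
    have hKQ : K ≤ pCoreOf 2 (Subgroup.normalizer (wOf K : Set G)) := by
      calc K = ⁅K, thompsonSubgroupOf 2 T⁆ := hKJ.symm
        _ ≤ _ := hKQ'
    exact hKne (eq_bot_of_gen_odd_of_two K hgen (hQ2.to_le hKQ))
  · -- `C_G(O₂(N)) ≤ O₂(N)`
    intro g hg
    have hgW : g ∈ Subgroup.centralizer (wOf K : Set G) :=
      Subgroup.centralizer_le (by exact_mod_cast hWQ) hg
    have hgN : g ∈ Subgroup.normalizer (wOf K : Set G) :=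
      Subgroup.centralizer_le_normalizer _ hgW
    have h1 : (⟨g, hgN⟩ : ↥(Subgroup.normalizer (wOf K : Set G))) ∈
        Subgroup.centralizer
          (pCore 2 ↥(Subgroup.normalizer (wOf K : Set G)) : Set ↥(Subgroup.normalizer (wOf K : Set G))) := by
      rw [Subgroup.mem_centralizer_iff]
      intro q hq
      have h2 := Subgroup.mem_centralizer_iff.mp hg (q : G) ⟨q, hq, rfl⟩
      exact Subtype.ext h2
    exact ⟨⟨g, hgN⟩, hchar h1, rfl⟩
  · -- `K` is a `J(S)`-component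
    unfold IsJComponent
    rw [hJeq]
    exact ⟨hgen, hKJ, hO3, hSylc, hW4, hWexp⟩

example : ∀ {G : Type u} [Group G] [Finite G], IsCharacteristicTwoType G →
  ∀ (T : Subgroup G), IsPGroup 2 ↥T → ∀ (K : Subgroup G), K ∈ jComponentsZero T →
  ∃ S : Subgroup G, IsPGroup 2 ↥S ∧ S ≠ ⊥ ∧
    Subgroup.normalizer (wOf K : Set G) ∈ jOvergroups S ∧ IsJComponent S K ∧
    K ≤ Subgroup.normalizer (wOf K : Set G) := setup

end Cfsg.Agent.H25.Sp
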