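import Mathlib
import Cfsg.Agent.H77.TqDefs
import Cfsg.Agent.H49.SimpleForms
import Cfsg.Agent.H49.Disc
import Cfsg.Agent.H49.MinusForm

/-!
# S5978 team project (helper77), piece S5978-BCOND (helper25)

If the minus-type form has an isometry of square `-1`, then `-1` is a nonsquare of `F` and `m` is
even: in an adapted basis the Gram matrix of the polar form is `2 • 1`, so the discriminant
`(-1) ^ m * (4 b - a ^ 2)` is a nonzero square, while `a ^ 2 - 4 b` is a nonsquare.
-/

set_option autoImplicit false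
open scoped MatrixGroups
open scoped Matrix

namespace Cfsg.Agent.H25.Tq

open Module Cfsg.Agent.H77.Tq

universe u

/-- S5978-BCOND. -/
theorem bCond (hAd : StBAdapt.{u}) : StBCond.{u} := by
  intro F _ _ m a b h2 hab x hx hxx
  have hnd := Cfsg.Agent.H49.QMin_nondeg m a b (Cfsg.Agent.H49.disc_ne_zero_of_aniso a b hab)
  obtain ⟨n, b₀, -, hb2, hb3⟩ := hAd F (MI m) (Cfsg.Agent.H49.QMin m F a b) h2 hnd x hx hxx
  obtain ⟨d, hd0, hd⟩ := Cfsg.Agent.H49.gram_det_basis (Cfsg.quadFormMinus m F a b)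
    (Cfsg.Agent.H49.minusGram m F a b) (Cfsg.Agent.H49.polar_quadFormMinus m F a b) b₀
  have hG : (Matrix.of fun i j : Fin n ⊕ Fin n =>
      QuadraticMap.polar (Cfsg.quadFormMinus m F a b) (b₀ i) (b₀ j)) =
      (2 : F) • (1 : Matrix (Fin n ⊕ Fin n) (Fin n ⊕ Fin n) F) := by
    ext i j
    rw [Matrix.of_apply, Matrix.smul_apply, Matrix.one_apply]
    by_cases hij : i = j
    · subst hij
      rw [if_pos rfl, smul_eq_mul, mul_one]
      have h1 := QuadraticMap.polar_self (Cfsg.Agent.H49.QMin m F a b) (b₀ i)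
      rw [hb2 i] at h1
      have h3 : QuadraticMap.polar (Cfsg.quadFormMinus m F a b) (b₀ i) (b₀ i) = 2 • (1 : F) := h1
      rw [h3]
      simp
    · rw [if_neg hij, smul_zero]
      exact hb3 i j hij
  rw [hG, Matrix.det_smul, Matrix.det_one, mul_one, Cfsg.Agent.H49.det_minusGram] at hd
  simp only [Fintype.card_sum, Fintype.card_fin] at hd
  have hns := Cfsg.Agent.H49.aniso_not_isSquare h2 hab
  have hm : Even m := by
    by_contra hodd
    rw [Nat.not_even_iff_odd] at hodd
    rw [hodd.neg_one_pow] at hd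
    apply hns
    refine ⟨2 ^ n / d, ?_⟩
    field_simp
    linear_combination (-1 : F) * hd
  refine ⟨?_, hm⟩
  rintro ⟨t, ht⟩
  rw [hm.neg_one_pow, one_mul] at hd
  apply hns
  refine ⟨t * (2 ^ n / d), ?_⟩
  have e1 : t * (2 ^ n / d) * (t * (2 ^ n / d)) = (t * t) * ((2 ^ n / d) * (2 ^ n / d)) := by ring
  rw [e1, ← ht]
  field_simp
  linear_combination hd

example (hAd : StBAdapt.{u}) : StBCond.{u} := bCond hAd

end Cfsg.Agent.H25.Tq
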