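import Mathlib
import Cfsg.Agent.H77.TqDefs
import Cfsg.Agent.H49.Isom
import Cfsg.Agent.H49.Basic
import Cfsg.Agent.H95.Basic

/-!
# S5978 team project (helper77), piece S5978-BCONJO (helper25)

Isometries of square `-1` are conjugate under the isometry group: map an adapted basis of the one
to an adapted basis of the other.
-/

set_option autoImplicit false
open scoped MatrixGroups
open scoped Matrix

namespace Cfsg.Agent.H25.Tq

open Module Cfsg.Agent.H77.Tq

universe u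

/-- S5978-BCONJO. -/
theorem bConjO (hAd : StBAdapt.{u}) : StBConjO.{u} := by
  intro F _ _ ι _ _ Q h2 hnd x y hx hy hxx hyy
  obtain ⟨n, b, hb1, hb2, hb3⟩ := hAd F ι Q h2 hnd x hx hxx
  obtain ⟨n', b', hb1', hb2', hb3'⟩ := hAd F ι Q h2 hnd y hy hyy
  have hn : n = n' := by
    have e1 := Module.finrank_eq_card_basis b
    have e2 := Module.finrank_eq_card_basis b'
    rw [e1] at e2
    simp only [Fintype.card_sum, Fintype.card_fin] at e2
    omega
  subst hn
  have hQ : ∀ a : ι → F, (∀ c : ι → F, QuadraticMap.polar ⇑Q a c = 0) → a = 0 :=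
    fun a ha => hnd.1 a ha
  have hgram : ∀ i j, QuadraticMap.polar ⇑Q (b' i) (b' j) = QuadraticMap.polar ⇑Q (b i) (b j) := by
    intro i j
    by_cases hij : i = j
    · subst hij
      rw [QuadraticMap.polar_self, QuadraticMap.polar_self, hb2, hb2']
    · rw [hb3 i j hij, hb3' i j hij]
  obtain ⟨g, hg1, hg2⟩ :=
    Cfsg.Agent.H49.exists_isometry_of_gram h2 b Q Q hQ (fun i => b' i) hgram
  have hmem : Cfsg.Agent.H95.glOf g ∈ Cfsg.isometryGroup F ⇑Q := by
    rw [Cfsg.Agent.H49.mem_isometryGroup_iff]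
    intro v
    rw [Cfsg.Agent.H95.glOf_mulVec]
    exact hg1 v
  refine ⟨Cfsg.Agent.H95.glOf g, hmem, ?_⟩
  rw [mul_inv_eq_iff_eq_mul]
  apply Units.ext
  rw [Units.val_mul, Units.val_mul]
  apply Matrix.toLin'.injective
  apply b.ext
  intro i
  rw [Matrix.toLin'_apply, Matrix.toLin'_apply, ← Matrix.mulVec_mulVec, ← Matrix.mulVec_mulVec,
    Cfsg.Agent.H95.glOf_mulVec, Cfsg.Agent.H95.glOf_mulVec]
  have hxv : ∀ v : ι → F, (x : Matrix ι ι F) *ᵥ ((x : Matrix ι ι F) *ᵥ v) = -v := by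
    intro v
    rw [Matrix.mulVec_mulVec, hxx, Matrix.neg_mulVec, Matrix.one_mulVec]
  have hyv : ∀ v : ι → F, (y : Matrix ι ι F) *ᵥ ((y : Matrix ι ι F) *ᵥ v) = -v := by
    intro v
    rw [Matrix.mulVec_mulVec, hyy, Matrix.neg_mulVec, Matrix.one_mulVec]
  rcases i with l | l
  · rw [← hb1 l, hg2, hg2]
    exact hb1' l
  · rw [hg2 (Sum.inr l)]
    have e1 : (x : Matrix ι ι F) *ᵥ b (Sum.inr l) = -b (Sum.inl l) := by
      rw [hb1 l, hxv]
    have e2 : (y : Matrix ι ι F) *ᵥ b' (Sum.inr l) = -b' (Sum.inl l) := by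
      rw [hb1' l, hyv]
    rw [e1, map_neg, hg2]
    exact e2.symm

example (hAd : StBAdapt.{u}) : StBConjO.{u} := bConjO hAd

end Cfsg.Agent.H25.Tq
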