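import Mathlib
import Cfsg.Agent.H77.TqDefs
import Cfsg.Agent.S0288

/-!
# S5978 team project (helper77), piece S5978-IDX (helper25)

The arithmetic consequences of `r ∣ |Ω : N(K) ∩ Ω|`, `r ≠ 2, p`.
-/

set_option autoImplicit false
open scoped MatrixGroups
open scoped Matrix

namespace Cfsg.Agent.H25.Tq

open Module Cfsg.Agent.H77.Tq

universe u

/-- A prime different from the characteristic does not divide the order of a finite field. -/
theorem not_dvd_card_field (F : Type u) [Field F] [Fintype F] (p : ℕ) [Fact p.Prime] [CharP F p]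
    (r : ℕ) (hr : r.Prime) (hrp : r ≠ p) : ¬ r ∣ Fintype.card F := by
  obtain ⟨n, -, hn⟩ := FiniteField.card F p
  rw [hn]
  intro h
  exact hrp ((Nat.prime_dvd_prime_iff_eq hr (Fact.out : p.Prime)).mp (hr.dvd_of_dvd_pow h))

/-- `Ω ≤ O`. -/
theorem omegaGL_le {F : Type u} [Field F] {ι : Type} [Fintype ι] [DecidableEq ι]
    (Q : (ι → F) → F) : Cfsg.Geo.omegaGL Q ≤ Cfsg.isometryGroup F Q :=
  Subgroup.map_subtype_le _

/-- The arithmetic of S5978-IDX. -/
theorem idx_arith (q m r : ℕ) (hq : 1 ≤ q) (hr : r.Prime) (hr2 : r ≠ 2) (hrq : ¬ r ∣ q)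
    (h : r ∣ 2 * q ^ ((m + 1) * m) * (q ^ (m + 1) + 1) *
      ∏ j ∈ Finset.range m, (q ^ (2 * (j + 1)) - 1)) :
    (Odd (orderOf (q : ZMod r)) → orderOf (q : ZMod r) ≤ m) ∧
      (Even (orderOf (q : ZMod r)) → orderOf (q : ZMod r) ≤ 2 * m + 2) := by
  have hfact : Fact r.Prime := ⟨hr⟩
  have hr3 : Fact (2 < r) := ⟨lt_of_le_of_ne hr.two_le (Ne.symm hr2)⟩
  rcases (Nat.Prime.dvd_mul hr).mp h with h1 | h1
  · rcases (Nat.Prime.dvd_mul hr).mp h1 with h2 | h2
    · rcases (Nat.Prime.dvd_mul hr).mp h2 with h3 | h3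
      · exact absurd ((Nat.prime_dvd_prime_iff_eq hr Nat.prime_two).mp h3) hr2
      · exact absurd (hr.dvd_of_dvd_pow h3) hrq
    · have e1 : (q : ZMod r) ^ (m + 1) = -1 := by
        have h3 := (ZMod.natCast_eq_zero_iff (q ^ (m + 1) + 1) r).mpr h2
        push_cast at h3
        exact eq_neg_of_add_eq_zero_left h3
      have e2 : (q : ZMod r) ^ (2 * (m + 1)) = 1 := by
        rw [mul_comm, pow_mul, e1]
        norm_num
      have e3 : orderOf (q : ZMod r) ∣ 2 * (m + 1) := orderOf_dvd_of_pow_eq_one e2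
      have e4 : ¬ orderOf (q : ZMod r) ∣ (m + 1) := by
        intro h4
        have h5 := orderOf_dvd_iff_pow_eq_one.mp h4
        rw [e1] at h5
        exact ZMod.neg_one_ne_one h5
      constructor
      · intro hodd
        exact absurd ((Nat.coprime_two_right.mpr hodd).dvd_of_dvd_mul_left e3) e4
      · intro _
        exact (Nat.le_of_dvd (by omega) e3).trans (by omega)
  · obtain ⟨j, hj, hjd⟩ := (Nat.Prime.prime hr).exists_mem_finset_dvd h1
    have hjm : j < m := Finset.mem_range.mp hj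
    have e2 : (q : ZMod r) ^ (2 * (j + 1)) = 1 := by
      have h3 := (ZMod.natCast_eq_zero_iff (q ^ (2 * (j + 1)) - 1) r).mpr hjd
      rw [Nat.cast_sub (Nat.one_le_pow _ _ hq)] at h3
      push_cast at h3
      exact sub_eq_zero.mp h3
    have e3 : orderOf (q : ZMod r) ∣ 2 * (j + 1) := orderOf_dvd_of_pow_eq_one e2
    constructor
    · intro hodd
      have h4 : orderOf (q : ZMod r) ∣ j + 1 :=
        (Nat.coprime_two_right.mpr hodd).dvd_of_dvd_mul_left e3
      exact (Nat.le_of_dvd (by omega) h4).trans (by omega)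
    · intro _
      exact (Nat.le_of_dvd (by omega) e3).trans (by omega)

/-- S5978-IDX. -/
theorem idx (hK : StKOrd.{u}) : StIdx.{u} := by
  intro F _ _ p _ _ m a b K hab hKO r hr hr2 hrp hdvd
  have hcard := Cfsg.Agent.S0288.key (F := F) (q := Fintype.card F) rfl a b hab m
  have h1 : r ∣ Nat.card (Cfsg.isometryGroup F (Cfsg.quadFormMinus m F a b)) :=
    hdvd.trans ((Subgroup.relIndex_dvd_card _ _).trans
      (Subgroup.card_dvd_of_le (omegaGL_le (Cfsg.quadFormMinus m F a b))))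
  rw [hcard] at h1
  have hrq := not_dvd_card_field F p r hr hrp
  have hq1 : 1 ≤ Fintype.card F := Fintype.card_pos
  obtain ⟨hA, hB⟩ := idx_arith (Fintype.card F) m r hq1 hr hr2 hrq h1
  refine ⟨hA, hB, ?_⟩
  intro h4
  exact hK F p m a b K hab hKO r hr hr2 hrp h4 hdvd

example (hK : StKOrd.{u}) : StIdx.{u} := idx hK

end Cfsg.Agent.H25.Tq
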