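import Mathlib
import Cfsg.Agent.H77.TqDefs
import Cfsg.Agent.S0288
import Cfsg.Agent.H25.TqIdx

/-!
# S5978 team project (helper77), piece S5978-KORD (helper25)

For `4 ∣ ord_r(q)` the prime `r` does not divide the index of `N(K) ∩ Ω` in `Ω`.
-/

set_option autoImplicit false
open scoped MatrixGroups
open scoped Matrix

namespace Cfsg.Agent.H25.Tq

open Module Cfsg.Agent.H77.Tq

universe u

/-- If every square of an element of `O` lies in `Ω`, then an odd prime `r` does not divide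
`|H : H ∩ Ω|` for `H ≤ O`. -/
theorem not_dvd_relIndex_of_sq {G : Type*} [Group G] [Finite G] (O Ω H : Subgroup G)
    (hHO : H ≤ O) (hsq : ∀ g ∈ O, g * g ∈ Ω) (r : ℕ) (hr : r.Prime) (hr2 : r ≠ 2) :
    ¬ r ∣ Ω.relIndex H := by
  intro hd
  have hfact : Fact r.Prime := ⟨hr⟩
  obtain ⟨P⟩ : Nonempty (Sylow r H) := inferInstance
  have hP : (P : Subgroup H) ≤ Ω.subgroupOf H := by
    intro x hx
    rw [Subgroup.mem_subgroupOf]
    obtain ⟨k, hk⟩ := P.isPGroup' ⟨x, hx⟩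
    have hxk : (x : G) ^ (r ^ k) = 1 := by
      have h1 := congrArg (fun y : (P : Subgroup H) => ((y : H) : G)) hk
      simpa using h1
    have hodd : Odd (r ^ k) := (hr.odd_of_ne_two hr2).pow
    obtain ⟨t, ht⟩ := hodd
    have hx2 : (x : G) = (x : G) ^ (t + 1) * (x : G) ^ (t + 1) := by
      have e : t + 1 + (t + 1) = r ^ k + 1 := by omega
      rw [← pow_add, e, pow_succ, hxk, one_mul]
    rw [hx2]
    exact hsq _ (hHO (Subgroup.pow_mem _ x.2 _))
  have h1 : (Ω.subgroupOf H).index ∣ (P : Subgroup H).index := Subgroup.index_dvd_of_le hP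
  exact P.not_dvd_index (hd.trans h1)

/-- `|A ∩ B| * |B : A ∩ B| = |B|`. -/
theorem card_inf_mul_relIndex {G : Type*} [Group G] (A B : Subgroup G) :
    Nat.card ↥(A ⊓ B) * A.relIndex B = Nat.card B := by
  have h1 := Subgroup.relIndex_mul_relIndex (H := ⊥) (K := A ⊓ B) (L := B) bot_le inf_le_right
  rwa [Subgroup.relIndex_bot_left, Subgroup.relIndex_bot_left, Subgroup.inf_relIndex_right]
    at h1

/-- S5978-KORD. -/
theorem kOrd (hC : StCentOrd.{u}) (hAr : StArithOrd) (hSq : StSqMem.{u}) : StKOrd.{u} := by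
  intro F _ _ p _ _ m a b K hab hKO r hr hr2 hrp h4 hdvd
  obtain ⟨H, hHO, hHN, hHcard⟩ := hC F m a b K hab hKO
  have hq2 : 2 ≤ Fintype.card F := Fintype.one_lt_card
  have hrq := not_dvd_card_field F p r hr hrp
  obtain ⟨M, hM, hMdvd⟩ := hAr (Fintype.card F) m r hq2 hr hr2 hrq h4
  rw [← Cfsg.Agent.S0288.key (F := F) (q := Fintype.card F) rfl a b hab m, ← hHcard] at hMdvd
  have hΩO := omegaGL_le (Cfsg.quadFormMinus m F a b)
  have hsq : ∀ g ∈ Cfsg.isometryGroup F (Cfsg.quadFormMinus m F a b),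
      g * g ∈ Cfsg.Geo.omegaGL (Cfsg.quadFormMinus m F a b) := fun g hg =>
    hSq F (MI m) (Cfsg.Agent.H49.QMin m F a b) hKO.two hKO.nondeg g hg
  have hc := not_dvd_relIndex_of_sq _ _ H hHO hsq r hr hr2
  -- the counting
  have e1 := card_inf_mul_relIndex (Cfsg.Geo.omegaGL (Cfsg.quadFormMinus m F a b)) H
  have e2 := card_inf_mul_relIndex (Cfsg.Geo.subalgebraNormalizer K)
    (Cfsg.Geo.omegaGL (Cfsg.quadFormMinus m F a b))
  have e3 : Nat.card ↥(Cfsg.Geo.omegaGL (Cfsg.quadFormMinus m F a b) ⊓ H) ∣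
      Nat.card ↥(Cfsg.Geo.subalgebraNormalizer K ⊓
        Cfsg.Geo.omegaGL (Cfsg.quadFormMinus m F a b)) :=
    Subgroup.card_dvd_of_le (le_inf (inf_le_right.trans hHN) inf_le_left)
  have e4 : Nat.card ↥(Cfsg.Geo.omegaGL (Cfsg.quadFormMinus m F a b)) ∣
      Nat.card ↥(Cfsg.isometryGroup F (Cfsg.quadFormMinus m F a b)) :=
    Subgroup.card_dvd_of_le hΩO
  have e5 := e4.trans hMdvd
  obtain ⟨t, ht⟩ := e3
  rw [← e2, ← e1, ht] at e5
  have hBpos : 0 < Nat.card ↥(Cfsg.Geo.omegaGL (Cfsg.quadFormMinus m F a b) ⊓ H) :=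
    Nat.card_pos
  have e6 : t * (Cfsg.Geo.subalgebraNormalizer K).relIndex
        (Cfsg.Geo.omegaGL (Cfsg.quadFormMinus m F a b)) ∣
      M * (Cfsg.Geo.omegaGL (Cfsg.quadFormMinus m F a b)).relIndex H := by
    apply Nat.dvd_of_mul_dvd_mul_left hBpos
    rw [← mul_assoc, mul_left_comm]
    exact e5
  have e7 : r ∣ M * (Cfsg.Geo.omegaGL (Cfsg.quadFormMinus m F a b)).relIndex H :=
    (hdvd.trans (dvd_mul_left _ t)).trans e6
  rcases (Nat.Prime.dvd_mul hr).mp e7 with h5 | h5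
  · exact hM h5
  · exact hc h5

example (hC : StCentOrd.{u}) (hAr : StArithOrd) (hSq : StSqMem.{u}) : StKOrd.{u} :=
  kOrd hC hAr hSq

end Cfsg.Agent.H25.Tq
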