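import Mathlib
import Cfsg.Agent.H77.UfDefs

/-! S2149 team project (helper77), piece UF-ELEM: `B7` is the matrix of an element of
`SU₃(5)`. -/

set_option autoImplicit false

namespace Cfsg.Agent.H25.Uf

open Cfsg Matrix Cfsg.Agent.H77.Uf

instance charP_F25 : CharP F25 5 :=
  charP_of_injective_algebraMap (algebraMap (ZMod 5) F25).injective 5

theorem herm_preserves_gram35 (M : Matrix (Fin 3) (Fin 3) F25)
    (h : Mᵀ * M.map (fun x => x ^ 5) = 1) (u v : Fin 3 → F25) :
    Cfsg.hermForm 3 F25 5 (M *ᵥ u) (M *ᵥ v) = Cfsg.hermForm 3 F25 5 u v := by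
  have e : ∀ a b : Fin 3 → F25,
      Cfsg.hermForm 3 F25 5 a b = a ⬝ᵥ (fun i => frobenius F25 5 (b i)) := by
    intro a b
    unfold Cfsg.hermForm
    simp [dotProduct, frobenius_def]
  have hm : (fun i => frobenius F25 5 ((M *ᵥ v) i)) =
      M.map (frobenius F25 5) *ᵥ (fun i => frobenius F25 5 (v i)) := by
    funext i
    simp [Matrix.mulVec, dotProduct, map_sum, map_mul]
  have h' : Mᵀ * M.map (frobenius F25 5) = 1 := h
  rw [e, e, hm, Matrix.dotProduct_mulVec, ← Matrix.vecMul_transpose, Matrix.vecMul_vecMul, h',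
    Matrix.vecMul_one]

theorem mem_SU35_of (M : Matrix (Fin 3) (Fin 3) F25) (hd : M.det = 1)
    (hu : Mᵀ * M.map (fun x => x ^ 5) = 1) :
    (⟨M, hd⟩ : Matrix.SpecialLinearGroup (Fin 3) F25) ∈ Cfsg.SU 3 F25 5 :=
  fun u v => herm_preserves_gram35 M hu u v

set_option maxRecDepth 100000 in
theorem B7_unitary : B7ᵀ * B7.map (fun x => x ^ 5) = 1 := by decide +kernel

set_option maxRecDepth 100000 in
theorem B7_det : B7.det = 1 := by
  rw [Matrix.det_fin_three]
  decide +kernel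

theorem elem : StElem :=
  ⟨⟨⟨B7, B7_det⟩, mem_SU35_of B7 B7_det B7_unitary⟩, rfl⟩

example : Cfsg.Agent.H77.Uf.StElem := elem

end Cfsg.Agent.H25.Uf
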