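import Mathlib
import Cfsg.Agent.H77.UfDefs

/-! S2149 team project (helper77), piece UF-NOINV: the element of `SU₃(5)` with matrix `B7` is
not conjugate to its inverse (trace obstruction). -/

set_option autoImplicit false

namespace Cfsg.Agent.H25.Uf

open Matrix Cfsg.Agent.H77.Uf

theorem coe_mul35 (x y : SU35) : (x * y).1.1 = x.1.1 * y.1.1 := rfl

theorem coe_one35 : (1 : SU35).1.1 = 1 := rfl

theorem coe_pow35 (x : SU35) (k : ℕ) : (x ^ k).1.1 = x.1.1 ^ k := by
  induction k with
  | zero => rfl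
  | succ k ih => rw [pow_succ, pow_succ, coe_mul35, ih]

theorem coe_inv_mul35 (x : SU35) : (x⁻¹).1.1 * x.1.1 = 1 := by
  rw [← coe_mul35, inv_mul_cancel]; rfl

theorem trace_conj35 (a n : SU35) : (n * a * n⁻¹).1.1.trace = a.1.1.trace := by
  rw [coe_mul35, coe_mul35, Matrix.trace_mul_cycle, coe_inv_mul35, Matrix.one_mul]

theorem noInv (hOrd : StOrd) : StNoInv := by
  intro a n ha hk
  have h := trace_conj35 a n
  rw [hk, coe_pow35, ha] at h
  exact hOrd.2.2 h.symm

example (hOrd : StOrd) : Cfsg.Agent.H77.Uf.StNoInv := noInv hOrd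

end Cfsg.Agent.H25.Uf
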