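import Mathlib
import Cfsg.Agent.H77.UfDefs

/-! S2149 team project (helper77), piece UF-ORD: the matrix `B7` has order 7, and
`trace B7 ≠ trace (B7 ^ 6)`. -/

set_option autoImplicit false

namespace Cfsg.Agent.H25.Uf

open Matrix Cfsg.Agent.H77.Uf

set_option maxRecDepth 100000 in
theorem B7_pow7 : B7 ^ 7 = 1 := by decide +kernel

set_option maxRecDepth 100000 in
theorem B7_ne_one : B7 ≠ 1 := by decide +kernel

set_option maxRecDepth 100000 in
theorem B7_trace : B7.trace ≠ (B7 ^ 6).trace := by decide +kernel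

theorem ord : StOrd := ⟨B7_pow7, B7_ne_one, B7_trace⟩

example : Cfsg.Agent.H77.Uf.StOrd := ord

end Cfsg.Agent.H25.Uf
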