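import Mathlib
import Cfsg.Agent.H77.UfDefs
import Cfsg.Agent.S0279
import Cfsg.Agent.S0280

/-! S2149 team project (helper77), piece UF-ORDERS: `|Z(SU₃(5))| = 3` and `|PSU₃(5)| = 126000`
(from the landed S0279 / S0280). -/

set_option autoImplicit false

namespace Cfsg.Agent.H25.Uf

open Cfsg Matrix Cfsg.Agent.H77.Uf

theorem card_F25_sq' : Fintype.card F25 = 5 ^ 2 := by
  rw [card_F25]; norm_num

theorem center3 : StCenter3 := by
  have h := Cfsg.Agent.S0279.result card_F25_sq' 3 (by norm_num)
  unfold StCenter3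
  rw [h]
  rfl

theorem orderG : StOrderG := by
  have h := Cfsg.Agent.S0280.result card_F25_sq' 3 (by norm_num)
  have h3 : Nat.gcd 3 (5 + 1) = 3 := rfl
  rw [h3] at h
  simp only [Finset.prod_range_succ, Finset.prod_range_zero] at h
  norm_num at h
  show Nat.card (Cfsg.PSU 3 F25 5) = 126000
  omega

example : Cfsg.Agent.H77.Uf.StCenter3 := center3
example : Cfsg.Agent.H77.Uf.StOrderG := orderG

end Cfsg.Agent.H25.Uf
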