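import Mathlib
import Cfsg.Agent.H77.UfDefs2

/-! S2149 team project (helper77), piece UF-SIMPLE: `PSU₃(5)` over the concrete field `F25` is
simple (helper17's `psu_simple`). -/

set_option autoImplicit false

namespace Cfsg.Agent.H25.Uf

open Cfsg.Agent.H77.Uf

theorem card_F25_sq : Fintype.card F25 = 5 ^ 2 := by
  rw [card_F25]; norm_num

theorem simple : StSimple :=
  Cfsg.Agent.H17.psu_simple card_F25_sq (le_refl 3) (by omega)

example : Cfsg.Agent.H77.Uf.StSimple := simple

end Cfsg.Agent.H25.Uf
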