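import Mathlib
import Cfsg.Agent.H42.UnDefs
import Cfsg.Agent.H42.UnBase

/-!
# S5954 team project, piece UN-INVSQ

`T * T = ν ^ 2` with `ν` of norm one (and `2 ≠ 0`): the two eigenspaces of `T` are orthogonal,
nondegenerate and span the space; all their subspaces are invariant, so peeling off lines gives
invariant nondegenerate subspaces of every dimension.
-/

set_option autoImplicit false

namespace Cfsg.Agent.H25.Un

open Cfsg.Agent.H45 Cfsg.Agent.H42.Spd Cfsg.Agent.H42.Un Module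

universe u v

section Eig

variable {F : Type u} [Field F] {σ : F →+* F} {V : Type v} [AddCommGroup V] [Module F V]
  {B : V →ₗ[F] V →ₛₗ[σ] F} {T : Module.End F V}

/-- The `c`-eigenspace of `T`. -/
def eig (T : Module.End F V) (c : F) : Submodule F V :=
  LinearMap.ker (T - c • (1 : Module.End F V))

theorem mem_eig (T : Module.End F V) (c : F) (x : V) : x ∈ eig T c ↔ T x = c • x := by
  unfold eig
  rw [LinearMap.mem_ker, LinearMap.sub_apply, LinearMap.smul_apply, Module.End.one_apply,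
    sub_eq_zero]

/-- Every subspace of an eigenspace is invariant. -/
theorem eig_sub_invt (T : Module.End F V) (c : F) (W : Submodule F V) (hW : W ≤ eig T c) :
    W ∈ T.invtSubmodule := by
  rw [Module.End.mem_invtSubmodule]
  intro x hx
  rw [Submodule.mem_comap, (mem_eig T c x).mp (hW hx)]
  exact W.smul_mem c hx

/-- Eigenvectors for `c`, `d` with `c * σ d ≠ 1` are orthogonal. -/
theorem eig_orth (h : UIso B T) (c d : F) (hcd : c * σ d ≠ 1) (x y : V) (hx : x ∈ eig T c)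
    (hy : y ∈ eig T d) : B x y = 0 := by
  have h1 := h.isom x y
  rw [(mem_eig T c x).mp hx, (mem_eig T d y).mp hy, sesq_smul_smul] at h1
  have h2 : (c * σ d - 1) * B x y = 0 := by
    rw [sub_mul, one_mul, h1, sub_self]
  rcases mul_eq_zero.mp h2 with h3 | h3
  · exact absurd (sub_eq_zero.mp h3) hcd
  · exact h3

theorem norm_neg_ne (h2 : (2 : F) ≠ 0) (ν : F) (hν : ν * σ ν = 1) : ν * σ (-ν) ≠ 1 := by
  rw [map_neg, mul_neg, hν]
  intro h3
  apply h2
  have : (2 : F) = 1 - (-1) := by norm_num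
  rw [this, h3, sub_self]

theorem nu_ne_zero (ν : F) (hν : ν * σ ν = 1) : ν ≠ 0 := by
  intro h0
  rw [h0, zero_mul] at hν
  exact zero_ne_one hν

/-- The eigen-decomposition when `T * T = ν ^ 2`. -/
theorem eig_decomp (h2 : (2 : F) ≠ 0) (ν : F) (hν0 : ν ≠ 0)
    (hT : T * T = (ν * ν) • (1 : Module.End F V)) (x : V) :
    ∃ a ∈ eig T ν, ∃ b ∈ eig T (-ν), a + b = x := by
  have hTT : ∀ y, T (T y) = (ν * ν) • y := by
    intro y
    have := congrArg (fun f : Module.End F V => f y) hT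
    simpa using this
  have h2ν : (2 * ν : F) ≠ 0 := mul_ne_zero h2 hν0
  refine ⟨(2 * ν)⁻¹ • (T x + ν • x), ?_, (2 * ν)⁻¹ • (ν • x - T x), ?_, ?_⟩
  · rw [mem_eig, map_smul, map_add, map_smul, hTT]
    module
  · rw [mem_eig, map_smul, map_sub, map_smul, hTT]
    module
  · rw [← smul_add]
    have e1 : T x + ν • x + (ν • x - T x) = (2 * ν) • x := by
      rw [mul_smul, two_smul]
      abel
    rw [e1, smul_smul, inv_mul_cancel₀ h2ν, one_smul]

/-- The `ν`-eigenspace is invariant and nondegenerate. -/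
theorem eig_und (h : UIso B T) (h2 : (2 : F) ≠ 0) (ν : F) (hν : ν * σ ν = 1)
    (hT : T * T = (ν * ν) • (1 : Module.End F V)) : UNd B T (eig T ν) := by
  refine ⟨eig_sub_invt T ν _ le_rfl, ?_⟩
  rw [eq_bot_iff]
  intro x hx
  rw [Submodule.mem_bot]
  apply h.nondeg
  intro y
  obtain ⟨a, ha, b, hb, hab⟩ := eig_decomp h2 ν (nu_ne_zero ν hν) hT y
  rw [← hab, map_add]
  have e1 : B x a = 0 := h.refl (hx.2 a ha)
  have e2 : B x b = 0 := eig_orth h ν (-ν) (norm_neg_ne h2 ν hν) x b hx.1 hb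
  rw [e1, e2, add_zero]

theorem eig_sup_top (h2 : (2 : F) ≠ 0) (ν : F) (hν0 : ν ≠ 0)
    (hT : T * T = (ν * ν) • (1 : Module.End F V)) : eig T ν ⊔ eig T (-ν) = ⊤ := by
  rw [eq_top_iff]
  intro x _
  obtain ⟨a, ha, b, hb, hab⟩ := eig_decomp h2 ν hν0 hT x
  rw [← hab]
  exact Submodule.add_mem_sup ha hb

theorem eig_neg_le_perp (h : UIso B T) (h2 : (2 : F) ≠ 0) (ν : F) (hν : ν * σ ν = 1) :
    eig T (-ν) ≤ perp B (eig T ν) := by
  intro y hy
  rw [mem_perp]
  intro u hu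
  exact eig_orth h ν (-ν) (norm_neg_ne h2 ν hν) u y hu hy

theorem perp_anti (B : V →ₗ[F] V →ₛₗ[σ] F) {U W : Submodule F V} (hUW : U ≤ W) :
    perp B W ≤ perp B U := by
  intro y hy
  rw [mem_perp] at hy ⊢
  intro u hu
  exact hy u (hUW hu)

end Eig

/-- UN-INVSQ. -/
theorem uInvSq (hH : StUHyp.{u, v}) (hP : StUPeel.{u, v}) (hS : StUSum.{u, v}) :
    StUInvSq.{u, v} := by
  intro F _ _ σ V _ _ _ B T h h2 ν hν hT m hm
  have hν0 : ν ≠ 0 := nu_ne_zero ν hν
  have hν' : (-ν) * σ (-ν) = 1 := by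
    rw [map_neg, neg_mul_neg, hν]
  have hT' : T * T = ((-ν) * (-ν)) • (1 : Module.End F V) := by
    rw [neg_mul_neg]
    exact hT
  have hEp : UNd B T (eig T ν) := eig_und h h2 ν hν hT
  have hEm : UNd B T (eig T (-ν)) := eig_und h h2 (-ν) hν' hT'
  have hperp : eig T (-ν) ≤ perp B (eig T ν) := eig_neg_le_perp h h2 ν hν
  -- dimensions add up
  have hdim : Module.finrank F V = Module.finrank F (eig T ν) + Module.finrank F (eig T (-ν)) := by
    have h3 := (hS F σ V B T h (eig T ν) (eig T (-ν)) hEp hEm hperp).2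
    rw [eig_sup_top h2 ν hν0 hT, finrank_top] at h3
    exact h3
  -- lines inside subspaces of an eigenspace
  have hline : ∀ c : F, ∀ W : Submodule F V, W ≤ eig T c → UNd B T W → W ≠ ⊥ →
      ∃ P : Submodule F V, P ≤ W ∧ UNd B T P ∧ Module.finrank F P = 1 := by
    intro c W hW hWnd hW0
    obtain ⟨U, hUW, hU, hU1⟩ := hH F σ V B T h W hWnd.2 hW0
    exact ⟨U, hUW, ⟨eig_sub_invt T c U (hUW.trans hW), hU⟩, hU1⟩
  have hpeel : ∀ c : F, UNd B T (eig T c) → ∀ k : ℕ, k ≤ Module.finrank F (eig T c) →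
      ∃ U : Submodule F V, U ≤ eig T c ∧ UNd B T U ∧ Module.finrank F U = k := by
    intro c hc k hk
    obtain ⟨U, hU1, hU2, hU3⟩ := hP F σ V B T h 1 (eig T c) hc (hline c) k
      (by rw [one_mul]; exact hk)
    exact ⟨U, hU1, hU2, by rw [hU3, one_mul]⟩
  obtain ⟨U₁, hU₁le, hU₁, hU₁d⟩ := hpeel ν hEp (min m (Module.finrank F (eig T ν)))
    (min_le_right _ _)
  obtain ⟨U₂, hU₂le, hU₂, hU₂d⟩ := hpeel (-ν) hEm (m - min m (Module.finrank F (eig T ν)))
    (by omega)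
  have hU₂perp : U₂ ≤ perp B U₁ := (hU₂le.trans hperp).trans (perp_anti B hU₁le)
  obtain ⟨hnd, hd⟩ := hS F σ V B T h U₁ U₂ hU₁ hU₂ hU₂perp
  refine ⟨U₁ ⊔ U₂, hnd, ?_⟩
  rw [hd, hU₁d, hU₂d]
  omega

example (hH : StUHyp.{u, v}) (hP : StUPeel.{u, v}) (hS : StUSum.{u, v}) : StUInvSq.{u, v} :=
  uInvSq hH hP hS

end Cfsg.Agent.H25.Un
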