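import Mathlib
import Cfsg.Agent.H42.UnDefs
import Cfsg.Agent.H42.UnBase
import Cfsg.Agent.H25.UnInvSq

/-!
# S5954 team project, piece UN-INVNEC

An element `x` of `SU_n(q)` (`q` odd) with `x * x = ν ^ 2`, `ν` of norm `-1`: then `n` is even
(from UN-INVEVEN applied to the whole space), the two eigenspaces of `x` are totally isotropic of
dimension `n / 2`, so `1 = det x = (-ν ^ 2) ^ (n / 2)`, which forces `q ≡ 1 (mod 4)` or
`(q + 1)_2 < (n)_2`.
-/

set_option autoImplicit false

namespace Cfsg.Agent.H25.Un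

open Cfsg.Agent.H45 Cfsg.Agent.H42.Spd Cfsg.Agent.H42.Un Module

universe u v

section Eig2

variable {F : Type u} [Field F] {σ : F →+* F} {V : Type v} [AddCommGroup V] [Module F V]
  {B : V →ₗ[F] V →ₛₗ[σ] F} {T : Module.End F V}

theorem neg_one_ne_one_of (h2 : (2 : F) ≠ 0) : (-1 : F) ≠ 1 := by
  intro h3
  apply h2
  have : (2 : F) = 1 - (-1) := by norm_num
  rw [this, h3, sub_self]

theorem eig_inf_bot (h2 : (2 : F) ≠ 0) (ν : F) (hν0 : ν ≠ 0) :
    eig T ν ⊓ eig T (-ν) = ⊥ := by
  rw [eq_bot_iff]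
  intro x hx
  rw [Submodule.mem_bot]
  have h1 := (mem_eig T ν x).mp hx.1
  have h1' := (mem_eig T (-ν) x).mp hx.2
  have h3 : (2 * ν) • x = 0 := by
    have e1 : ν • x = -(ν • x) := by
      rw [← neg_smul, ← h1', h1]
    have e2 : (2 * ν) • x = ν • x + ν • x := by
      rw [mul_smul, two_smul]
    rw [e2]
    nth_rewrite 1 [e1]
    rw [neg_add_cancel]
  exact (smul_eq_zero.mp h3).resolve_left (mul_ne_zero h2 hν0)

theorem eig_isCompl (h2 : (2 : F) ≠ 0) (ν : F) (hν0 : ν ≠ 0)
    (hT : T * T = (ν * ν) • (1 : Module.End F V)) : IsCompl (eig T ν) (eig T (-ν)) :=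
  ⟨disjoint_iff.mpr (eig_inf_bot h2 ν hν0), codisjoint_iff.mpr (eig_sup_top h2 ν hν0 hT)⟩

/-- The determinant of an endomorphism with two complementary eigenspaces. -/
theorem det_eq_of_eig_isCompl [FiniteDimensional F V] (T : Module.End F V) (c d : F)
    (h : IsCompl (eig T c) (eig T d)) :
    LinearMap.det T = c ^ Module.finrank F (eig T c) * d ^ Module.finrank F (eig T d) := by
  have hL : ∀ x ∈ eig T c, T x ∈ eig T c := by
    intro x hx
    rw [(mem_eig T c x).mp hx]
    exact (eig T c).smul_mem c hx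
  have hM : ∀ x ∈ eig T d, T x ∈ eig T d := by
    intro x hx
    rw [(mem_eig T d x).mp hx]
    exact (eig T d).smul_mem d hx
  have key : (Submodule.prodEquivOfIsCompl (eig T c) (eig T d) h).conj
      ((T.restrict hL).prodMap (T.restrict hM)) = T := by
    apply LinearMap.ext
    intro v
    obtain ⟨⟨l, m⟩, rfl⟩ := (Submodule.prodEquivOfIsCompl (eig T c) (eig T d) h).surjective v
    rw [LinearEquiv.conj_apply_apply, LinearEquiv.symm_apply_apply]
    simp only [Submodule.coe_prodEquivOfIsCompl', LinearMap.prodMap_apply, map_add]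
    rfl
  have e1 : T.restrict hL = c • (LinearMap.id : eig T c →ₗ[F] eig T c) := by
    apply LinearMap.ext
    intro x
    apply Subtype.ext
    exact (mem_eig T c x).mp x.2
  have e2 : T.restrict hM = d • (LinearMap.id : eig T d →ₗ[F] eig T d) := by
    apply LinearMap.ext
    intro x
    apply Subtype.ext
    exact (mem_eig T d x).mp x.2
  have e3 : LinearMap.det T = LinearMap.det ((T.restrict hL).prodMap (T.restrict hM)) := by
    conv_lhs => rw [← key]
    rw [LinearEquiv.conj_apply, LinearMap.comp_assoc, LinearMap.det_conj]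
  rw [e3, LinearMap.det_prodMap, e1, e2, LinearMap.det_smul, LinearMap.det_smul,
    LinearMap.det_id, LinearMap.det_id, mul_one, mul_one]

/-- Eigenspaces for a scalar of norm `-1` are totally isotropic, whence the dimension bound. -/
theorem eig_finrank_le [Fintype F] [FiniteDimensional F V] (h : UIso B T) (h2 : (2 : F) ≠ 0)
    (ν : F) (hν : ν * σ ν = -1) (hT : T * T = (ν * ν) • (1 : Module.End F V)) :
    Module.finrank F (eig T (-ν)) ≤ Module.finrank F (eig T ν) := by
  have hν0 : ν ≠ 0 := by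
    intro h0
    rw [h0, zero_mul] at hν
    exact neg_ne_zero.mpr one_ne_zero hν.symm
  have hν' : (-ν) * σ (-ν) = -1 := by
    rw [map_neg, neg_mul_neg, hν]
  let R : eig T (-ν) → Module.Dual F (eig T ν) :=
    fun y => (B.flip (y : V)).comp (eig T ν).subtype
  have hR : Function.Injective R := by
    intro y₁ y₂ hy
    have h1 : ((y₁ : V) - y₂) = 0 := by
      apply h.nondeg'
      intro v
      obtain ⟨a, ha, b, hb, hab⟩ := eig_decomp h2 ν hν0 hT v
      rw [← hab, map_add, LinearMap.add_apply]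
      have e1 : B a ((y₁ : V) - y₂) = 0 := by
        have := congrArg (fun ψ : Module.Dual F (eig T ν) => ψ ⟨a, ha⟩) hy
        simp only [R, LinearMap.comp_apply, Submodule.subtype_apply, LinearMap.flip_apply] at this
        rw [map_sub, this, sub_self]
      have e2 : B b ((y₁ : V) - y₂) = 0 :=
        eig_orth h (-ν) (-ν) (by rw [hν']; exact neg_one_ne_one_of h2) b _ hb
          (Submodule.sub_mem _ y₁.2 y₂.2)
      rw [e1, e2, add_zero]
    exact Subtype.ext (sub_eq_zero.mp h1)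
  have hfin : Finite (eig T (-ν)) := Module.finite_of_finite F
  have hfin' : Finite (Module.Dual F (eig T ν)) := Module.finite_of_finite F
  have hfin'' : Finite (eig T ν) := Module.finite_of_finite F
  have hcard : Nat.card (eig T (-ν)) ≤ Nat.card (eig T ν) := by
    calc Nat.card (eig T (-ν)) ≤ Nat.card (Module.Dual F (eig T ν)) :=
          Nat.card_le_card_of_injective R hR
      _ = Nat.card (eig T ν) :=
          (Nat.card_congr (Module.finBasis F (eig T ν)).toDualEquiv.toEquiv).symm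
  rw [Module.natCard_eq_pow_finrank (K := F) (V := eig T (-ν)),
    Module.natCard_eq_pow_finrank (K := F) (V := eig T ν)] at hcard
  exact (Nat.pow_le_pow_iff_right Finite.one_lt_card).mp hcard

end Eig2

/-- The arithmetic: `ν ^ (q + 1) = -1`, `q ≡ 3 (mod 4)` and `(-ν ^ 2) ^ k = 1` force
`(q + 1)_2 < (2 k)_2`. -/
theorem inv_arith {F : Type u} [Field F] (h2 : (2 : F) ≠ 0) (q k : ℕ) (hk : 0 < k) (ν : F)
    (hν : ν ^ (q + 1) = -1) (hq3 : q % 4 = 3) (hk1 : (-(ν * ν)) ^ k = 1) :
    padicValNat 2 (q + 1) < padicValNat 2 (2 * k) := by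
  obtain ⟨a, m, hm, ham⟩ := Nat.exists_eq_two_pow_mul_odd (n := q + 1) (by omega)
  rcases a with _ | _ | a
  · rw [pow_zero, one_mul] at ham
    obtain ⟨j, hj⟩ := hm
    omega
  · rw [zero_add, pow_one] at ham
    obtain ⟨j, hj⟩ := hm
    omega
  · have hfact : Fact (Nat.Prime 2) := ⟨Nat.prime_two⟩
    obtain ⟨μ, hμ⟩ : ∃ μ : F, μ = (-(ν * ν)) ^ m := ⟨_, rfl⟩
    have h1 : μ ^ 2 ^ (a + 1) = -1 := by
      have e1 : (-1 : F) ^ (m * 2 ^ (a + 1)) = 1 := by
        have hev : Even (m * 2 ^ (a + 1)) := by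
          rw [pow_succ]
          exact ⟨m * 2 ^ a, by ring⟩
        exact hev.neg_one_pow
      have e2 : 2 * (m * 2 ^ (a + 1)) = q + 1 := by
        rw [ham]
        ring
      rw [hμ, ← pow_mul, neg_pow, ← pow_two, ← pow_mul, e1, one_mul, e2, hν]
    have h3 : μ ^ 2 ^ (a + 1 + 1) = 1 := by
      rw [pow_succ 2 (a + 1), pow_mul, h1]
      norm_num
    have hord : orderOf μ = 2 ^ (a + 1 + 1) :=
      orderOf_eq_prime_pow (by rw [h1]; exact neg_one_ne_one_of h2) h3
    have hμk : μ ^ k = 1 := by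
      rw [hμ, ← pow_mul, mul_comm m k, pow_mul, hk1, one_pow]
    have hdvd : 2 ^ (a + 1 + 1) ∣ k := by
      rw [← hord]
      exact orderOf_dvd_of_pow_eq_one hμk
    have hdvd2 : 2 ^ (a + 1 + 1 + 1) ∣ 2 * k := by
      rw [pow_succ 2 (a + 1 + 1), mul_comm]
      exact Nat.mul_dvd_mul_left 2 hdvd
    have hle : a + 1 + 1 + 1 ≤ padicValNat 2 (2 * k) :=
      (padicValNat_dvd_iff_le (by omega)).mp hdvd2
    have hlt : ¬ (a + 1 + 1 + 1 ≤ padicValNat 2 (q + 1)) := by
      intro hcon
      have h5 := (padicValNat_dvd_iff_le (p := 2) (a := q + 1) (by omega)).mpr hcon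
      rw [ham, pow_succ 2 (a + 1 + 1)] at h5
      have h6 := Nat.dvd_of_mul_dvd_mul_left (by positivity) h5
      obtain ⟨j, hj⟩ := hm
      omega
    omega

/-- UN-INVNEC. -/
theorem uInvNec (hE : StUInvEven.{u, u}) : StUInvNec.{u} := by
  intro F _ _ q hF hq n x ν hn hx hν hxx
  obtain ⟨σ, hσq⟩ := Cfsg.Agent.H7.exists_frobQ hF
  have h2 : (2 : F) ≠ 0 := by
    intro h20
    have h3 : ((Fintype.card F : ℕ) : F) = 0 := Nat.cast_card_eq_zero F
    rw [hF] at h3
    obtain ⟨k, hk⟩ := hq.pow (n := 2)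
    rw [hk] at h3
    push_cast at h3
    rw [h20, zero_mul, zero_add] at h3
    exact one_ne_zero h3
  have hT0 : UIso (hermB σ n) (Matrix.toLin' (x : Matrix (Fin n) (Fin n) F)) :=
    uiso_std hF σ hσq n x ((mem_SU_iff n x).mp hx)
  have hνσ : ν * σ ν = -1 := by
    rw [hσq, ← pow_succ', hν]
  have hν0 : ν ≠ 0 := by
    intro h0
    rw [h0, zero_mul] at hνσ
    exact neg_ne_zero.mpr one_ne_zero hνσ.symm
  have hTT : Matrix.toLin' (x : Matrix (Fin n) (Fin n) F) *
      Matrix.toLin' (x : Matrix (Fin n) (Fin n) F) =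
      (ν * ν) • (1 : Module.End F (Fin n → F)) := by
    apply LinearMap.ext
    intro v
    rw [Module.End.mul_apply, Matrix.toLin'_apply, Matrix.toLin'_apply, Matrix.mulVec_mulVec,
      ← Matrix.SpecialLinearGroup.coe_mul, hxx, LinearMap.smul_apply, Module.End.one_apply,
      Matrix.smul_mulVec, Matrix.one_mulVec]
  have hev : Even n := by
    have h3 := hE F σ (Fin n → F) (hermB σ n) _ hT0 h2 ν hνσ hTT ⊤ hT0.und_top
    rwa [finrank_top, Module.finrank_fintype_fun_eq_card, Fintype.card_fin] at h3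
  refine ⟨hev, ?_⟩
  by_cases hq1 : q % 4 = 1
  · exact Or.inl hq1
  right
  have hq3 : q % 4 = 3 := by
    obtain ⟨j, hj⟩ := hq
    omega
  obtain ⟨k, hk⟩ := hev
  have hcompl := eig_isCompl (T := Matrix.toLin' (x : Matrix (Fin n) (Fin n) F)) h2 ν hν0 hTT
  have hsum := Submodule.finrank_add_eq_of_isCompl hcompl
  rw [Module.finrank_fintype_fun_eq_card, Fintype.card_fin] at hsum
  have hle1 := eig_finrank_le hT0 h2 ν hνσ hTT
  have hle2 := eig_finrank_le hT0 h2 (-ν) (by rw [map_neg, neg_mul_neg, hνσ])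
    (by rw [neg_mul_neg]; exact hTT)
  rw [neg_neg] at hle2
  have hdet := det_eq_of_eig_isCompl (Matrix.toLin' (x : Matrix (Fin n) (Fin n) F)) ν (-ν) hcompl
  rw [LinearMap.det_toLin', Matrix.SpecialLinearGroup.det_coe] at hdet
  have hd1 : Module.finrank F (eig (Matrix.toLin' (x : Matrix (Fin n) (Fin n) F)) ν) = k := by
    omega
  have hd2 : Module.finrank F (eig (Matrix.toLin' (x : Matrix (Fin n) (Fin n) F)) (-ν)) = k := by
    omega
  rw [hd1, hd2, ← mul_pow, mul_neg] at hdet
  have hk0 : 0 < k := by omega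
  have := inv_arith h2 q k hk0 ν hν hq3 hdet.symm
  rw [hk, ← two_mul]
  exact this

example (hE : StUInvEven.{u, u}) : StUInvNec.{u} := uInvNec hE

end Cfsg.Agent.H25.Un
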