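import Mathlib

/-!
# S2398 piece FIELD (for helper46): field elements avoiding small polynomials
-/

set_option autoImplicit false

namespace Cfsg.Agent.H25.Univ

open Polynomial in
/-- A nonzero polynomial of degree at most 4 does not vanish on a set of more than 4 elements. -/
theorem exists_not_root {K : Type*} [Field K] (s : Finset K) (hs : 4 < s.card)
    (p : Polynomial K) (hp : p ≠ 0) (hd : p.natDegree ≤ 4) : ∃ v ∈ s, p.eval v ≠ 0 := by
  by_contra hcon
  push Not at hcon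
  have h1 : s.val ⊆ p.roots := by
    intro v hv
    rw [Polynomial.mem_roots hp]
    exact hcon v (Finset.mem_val.mp hv)
  have h2 := Polynomial.card_le_degree_of_subset_roots h1
  omega

open Polynomial in
/-- **S2398-FIELD.** -/
theorem exists_field_elts {K : Type*} [Field K] (hK : ∃ s : Finset K, 4 < s.card) :
    (∃ v : K, v ≠ 0 ∧ v ^ 2 - 1 ≠ 0) ∧ (∃ v : K, v ≠ 0 ∧ v ^ 3 - 1 ≠ 0) ∧
      (∃ v : K, v ≠ 0 ∧ v + 1 ≠ 0 ∧ v ^ 2 + v + 1 ≠ 0) := by
  obtain ⟨s, hs⟩ := hK
  have hX : (X : K[X]) ≠ 0 := X_ne_zero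
  have h2 : (X ^ 2 - 1 : K[X]) ≠ 0 := by
    have := X_pow_sub_C_ne_zero (R := K) (n := 2) (by norm_num) 1
    rwa [map_one] at this
  have h3 : (X ^ 3 - 1 : K[X]) ≠ 0 := by
    have := X_pow_sub_C_ne_zero (R := K) (n := 3) (by norm_num) 1
    rwa [map_one] at this
  have h1 : (X + 1 : K[X]) ≠ 0 := by
    have := X_add_C_ne_zero (R := K) 1
    rwa [map_one] at this
  have h4 : (X ^ 2 + X + 1 : K[X]) ≠ 0 := by
    intro h
    have h5 := congrArg (fun q : K[X] => q.coeff 2) h
    simp [coeff_X, coeff_one] at h5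
  refine ⟨?_, ?_, ?_⟩
  · obtain ⟨v, -, hv⟩ := exists_not_root s hs (X * (X ^ 2 - 1)) (mul_ne_zero hX h2)
      (by compute_degree; norm_num)
    simp only [eval_mul, eval_X, eval_sub, eval_pow, eval_one] at hv
    exact ⟨v, left_ne_zero_of_mul hv, right_ne_zero_of_mul hv⟩
  · obtain ⟨v, -, hv⟩ := exists_not_root s hs (X * (X ^ 3 - 1)) (mul_ne_zero hX h3)
      (by compute_degree)
    simp only [eval_mul, eval_X, eval_sub, eval_pow, eval_one] at hv
    exact ⟨v, left_ne_zero_of_mul hv, right_ne_zero_of_mul hv⟩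
  · obtain ⟨v, -, hv⟩ := exists_not_root s hs (X * (X + 1) * (X ^ 2 + X + 1))
      (mul_ne_zero (mul_ne_zero hX h1) h4) (by compute_degree)
    simp only [eval_mul, eval_X, eval_add, eval_pow, eval_one] at hv
    exact ⟨v, left_ne_zero_of_mul (left_ne_zero_of_mul hv),
      right_ne_zero_of_mul (left_ne_zero_of_mul hv), right_ne_zero_of_mul hv⟩

end Cfsg.Agent.H25.Univ
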