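import Cfsg.Agent.H58.UqDefs
import Cfsg.Agent.H14.Thompson

/-!
# UQ-KEYB (piece of S2950): two `J(T)`-components inside `N_G(W_K)`, `K ∈ 𝒦₀(T)`: the second
normalizes the `W` of the first
-/

set_option autoImplicit false
open Cfsg
open scoped commutatorElement

namespace Cfsg.Agent.H25.Uq

universe u

/-- UQ-KEYB. -/
theorem keyB (hS : Cfsg.Agent.H58.Uq.StS.{u}) (hN : Cfsg.Agent.H58.Uq.StNSet.{u}) :
    Cfsg.Agent.H58.Uq.StKeyB.{u} := by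
  intro G _ _ hZN T hT hTne K hK K₁ K₂ hK₁ hg hK₁N hK₂ hK₂N
  obtain ⟨S, hS2, hSne, hJeq, hNS⟩ := hN hZN.1 T K hT hK
  obtain ⟨g, hg⟩ := hg
  -- `K₁` is a `J(S)`-component
  have hK₁S : IsJComponent S K₁ := ((Cfsg.Agent.H58.Uq.k0_congr T S hJeq).2 K₁).mpr hK₁
  -- `K₁ ∈ 𝒦₀(S^g)`
  have hJg : thompsonSubgroupOf 2 (S.map (MulAut.conj g).toMonoidHom) =
      thompsonSubgroupOf 2 (T.map (MulAut.conj g).toMonoidHom) := by
    rw [← Cfsg.Agent.H14.thompsonSubgroupOf_conj 2 g S,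
      ← Cfsg.Agent.H14.thompsonSubgroupOf_conj 2 g T, hJeq]
  have hK₁g : K₁ ∈ jComponentsZero (S.map (MulAut.conj g).toMonoidHom) := by
    rw [(Cfsg.Agent.H58.Uq.k0_congr _ _ hJg).1]
    exact hg
  have key := hS hZN S hS2 hSne _ hNS K₁ hK₁S hK₁N ⟨g, hK₁g⟩
  rw [hJeq] at key
  -- `K₂ = [K₂, J]`
  have hK₂J : ⁅K₂, thompsonSubgroupOf 2 T⁆ = K₂ := hK₂.2.1
  have hle : ⁅K₂, thompsonSubgroupOf 2 T⁆ ≤ Subgroup.normalizer (wOf K₁ : Set G) := by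
    rw [Subgroup.commutator_le]
    intro k hk j hj
    have h1 : k * j * k⁻¹ ∈ Subgroup.normalizer (wOf K₁ : Set G) :=
      key k (hK₂N hk) ⟨j, hj, by simp [MulAut.conj_apply]⟩
    have h2 : j ∈ Subgroup.normalizer (wOf K₁ : Set G) :=
      key 1 (Subgroup.one_mem _) ⟨j, hj, by simp⟩
    have e : ⁅k, j⁆ = (k * j * k⁻¹) * j⁻¹ := by rw [commutatorElement_def]
    rw [e]
    exact Subgroup.mul_mem _ h1 (Subgroup.inv_mem _ h2)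
  calc K₂ = ⁅K₂, thompsonSubgroupOf 2 T⁆ := hK₂J.symm
    _ ≤ _ := hle

example (hS : Cfsg.Agent.H58.Uq.StS.{u}) (hN : Cfsg.Agent.H58.Uq.StNSet.{u}) :
    Cfsg.Agent.H58.Uq.StKeyB.{u} := keyB hS hN

end Cfsg.Agent.H25.Uq
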