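import Cfsg.Agent.H58.UqDefs
import Cfsg.Agent.H13.PCore
import Cfsg.Agent.H25.SpSetup

/-!
# UQ-NSET (piece of S2950): for `K ∈ 𝒦₀(T)`, `N_G(W_K)` is in the family of a Sylow 2-subgroup
`S` of it with `J(S) = J(T)`
-/

set_option autoImplicit false
open Cfsg
open scoped commutatorElement

namespace Cfsg.Agent.H25.Uq

universe u

/-- UQ-NSET. -/
theorem nset : Cfsg.Agent.H58.Uq.StNSet.{u} := by
  intro G _ _ hL T K hT hK
  obtain ⟨hKc, hKz⟩ := hK
  obtain ⟨hgen, hKJ, hO3, hSylc, hW4, hWexp⟩ := hKc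
  -- `K ≠ ⊥`
  have hKne : K ≠ ⊥ := by
    intro h0
    rw [h0, Subgroup.relIndex_bot_right] at hO3
    exact absurd hO3 (by norm_num)
  -- `J(T)` normalizes `K`, hence `W_K`
  have hJNK : thompsonSubgroupOf 2 T ≤ Subgroup.normalizer (K : Set G) :=
    Cfsg.Agent.H25.Sp.le_normalizer_of_comm_eq K _ hKJ
  have hNKN : Subgroup.normalizer (K : Set G) ≤ Subgroup.normalizer (wOf K : Set G) :=
    Cfsg.Agent.H25.Sp.le K
  have hJN : thompsonSubgroupOf 2 T ≤ Subgroup.normalizer (wOf K : Set G) := hJNK.trans hNKN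
  have hKN : K ≤ Subgroup.normalizer (wOf K : Set G) := Subgroup.le_normalizer.trans hNKN
  have hJT : thompsonSubgroupOf 2 T ≤ T := by
    unfold thompsonSubgroupOf
    exact Subgroup.map_subtype_le _
  have hJ2 : IsPGroup 2 ↥(thompsonSubgroupOf 2 T) := hT.to_le hJT
  have hJne : thompsonSubgroupOf 2 T ≠ ⊥ := by
    intro h0
    rw [h0, Subgroup.commutator_bot_right] at hKJ
    exact hKne hKJ.symm
  obtain ⟨S, hSyl, hJS⟩ := Cfsg.Agent.H25.Sp.exists_sylowTwoIn _ _ hJN hJ2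
  have hJeq : thompsonSubgroupOf 2 S = thompsonSubgroupOf 2 T := hKz S hJS hSyl
  -- `W_K` is a nontrivial 2-group
  have hW2 : IsPGroup 2 ↥(wOf K) := by
    have hfact : Fact (Nat.Prime 2) := ⟨Nat.prime_two⟩
    exact IsPGroup.of_card (n := 2) (by rw [hW4]; norm_num)
  have hWne : wOf K ≠ ⊥ := by
    intro h0
    rw [h0, Subgroup.card_bot] at hW4
    exact absurd hW4 (by norm_num)
  have hchar := hL.2 (wOf K) hW2 hWne
  unfold IsOfCharacteristicTwo at hchar
  -- `W_K ≤ O₂(N)`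
  have hpn := Cfsg.Agent.H13.pCore_normal 2 ↥(Subgroup.normalizer (wOf K : Set G))
  have hWQ : wOf K ≤ pCoreOf 2 (Subgroup.normalizer (wOf K : Set G)) := by
    have h1 : (wOf K).subgroupOf (Subgroup.normalizer (wOf K : Set G)) ≤
        pCore 2 ↥(Subgroup.normalizer (wOf K : Set G)) :=
      Cfsg.Agent.H13.le_pCore Subgroup.normal_in_normalizer hW2.comap_subtype
    have h2 := Subgroup.map_mono (f := (Subgroup.normalizer (wOf K : Set G)).subtype) h1
    rw [Subgroup.map_subgroupOf_eq_of_le Subgroup.le_normalizer] at h2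
    exact h2
  have hQ2 : IsPGroup 2 ↥(pCoreOf 2 (Subgroup.normalizer (wOf K : Set G))) := by
    unfold pCoreOf
    exact (Cfsg.Agent.H13.pCore_isPGroup 2 _).map _
  refine ⟨S, hSyl.2.1, ?_, hJeq, ⟨hSyl, ?_, ?_⟩⟩
  · -- `S ≠ ⊥`
    intro h0
    rw [h0] at hJS
    exact hJne (le_bot_iff.mp hJS)
  · -- `J(S) ≰ O₂(N)`
    rw [hJeq]
    intro hle
    have hKQ' : ⁅K, thompsonSubgroupOf 2 T⁆ ≤
        pCoreOf 2 (Subgroup.normalizer (wOf K : Set G)) := by
      rw [Subgroup.commutator_le]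
      intro k hk a ha
      obtain ⟨a', ha', rfl⟩ := hle ha
      have hk' : k ∈ Subgroup.normalizer (wOf K : Set G) := hKN hk
      have h1 := hpn.conj_mem a' ha' ⟨k, hk'⟩
      have h2 := Subgroup.mul_mem _ h1 (Subgroup.inv_mem _ ha')
      refine ⟨_, h2, ?_⟩
      rw [commutatorElement_def]
      rfl
    have hKQ : K ≤ pCoreOf 2 (Subgroup.normalizer (wOf K : Set G)) := by
      calc K = ⁅K, thompsonSubgroupOf 2 T⁆ := hKJ.symm
        _ ≤ _ := hKQ'
    exact hKne (Cfsg.Agent.H25.Sp.eq_bot_of_gen_odd_of_two K hgen (hQ2.to_le hKQ))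
  · -- `C_G(O₂(N)) ≤ O₂(N)`
    intro g hg
    have hgW : g ∈ Subgroup.centralizer (wOf K : Set G) :=
      Subgroup.centralizer_le (by exact_mod_cast hWQ) hg
    have hgN : g ∈ Subgroup.normalizer (wOf K : Set G) :=
      Subgroup.centralizer_le_normalizer _ hgW
    have h1 : (⟨g, hgN⟩ : ↥(Subgroup.normalizer (wOf K : Set G))) ∈
        Subgroup.centralizer
          (pCore 2 ↥(Subgroup.normalizer (wOf K : Set G)) : Set ↥(Subgroup.normalizer (wOf K : Set G))) := by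
      rw [Subgroup.mem_centralizer_iff]
      intro q hq
      have h2 := Subgroup.mem_centralizer_iff.mp hg (q : G) ⟨q, hq, rfl⟩
      exact Subtype.ext h2
    exact ⟨⟨g, hgN⟩, hchar h1, rfl⟩

example : ∀ {G : Type u} [Group G] [Finite G], IsCharacteristicTwoType G →
  ∀ (T K : Subgroup G), IsPGroup 2 ↥T → K ∈ jComponentsZero T →
  ∃ S : Subgroup G, IsPGroup 2 ↥S ∧ S ≠ ⊥ ∧
    thompsonSubgroupOf 2 S = thompsonSubgroupOf 2 T ∧
    Subgroup.normalizer (wOf K : Set G) ∈ jOvergroups S := nset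

end Cfsg.Agent.H25.Uq
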