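import Mathlib
import Cfsg.Agent.H42.UtDefs
import Cfsg.Agent.H42.UnBase
import Cfsg.Agent.H45.IsoCases
import Cfsg.Agent.H3.TiBase

/-! helper25: piece UT-COMPND of helper42's S5953 project (port of H16/TiCompNd): for a
semisimple isometry and an irreducible self-dual `φ`, the `φ`-component of an invariant
nondegenerate subspace is nondegenerate. -/

set_option autoImplicit false

namespace Cfsg.Agent.H25.Ut

open Cfsg.Agent.H45 Cfsg.Agent.H42.Spd Cfsg.Agent.H42.Un Cfsg.Agent.H42.Ti Cfsg.Agent.H42.Ut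
  Cfsg.Agent.H3.Ti Module Polynomial

universe u v

theorem utCompNd : StUtCompNd.{u,v} := by
  intro F _ _ σ V _ _ _ B T hiso hss φ hφ hsd W hW
  obtain ⟨hWinv, hWnd⟩ := hW
  have hd : Good σ 1 B T := hiso.good hss
  have hσ : ∀ a : F, σ (σ a) = a := hiso.invol
  have hsq : Squarefree (minpoly F T) := hss.minpoly_squarefree
  obtain ⟨ψ, hcop, hzero⟩ : ∃ ψ : F[X], IsCoprime φ ψ ∧ aeval T (φ * ψ) = 0 := by
    by_cases hdv : φ ∣ minpoly F T
    · obtain ⟨ψ, hψ⟩ := hdv
      refine ⟨ψ, ?_, ?_⟩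
      · apply (hφ.coprime_iff_not_dvd).mpr
        rintro ⟨χ, hχ⟩
        have h5 : φ * φ ∣ minpoly F T := ⟨χ, by rw [hψ, hχ]; ring⟩
        exact hφ.not_isUnit (hsq φ h5)
      · rw [← hψ]
        exact minpoly.aeval F T
    · refine ⟨minpoly F T, (hφ.coprime_iff_not_dvd).mpr hdv, ?_⟩
      rw [map_mul, minpoly.aeval, mul_zero]
  obtain ⟨a, b, hab⟩ := hcop
  have hEinv := ker_aeval_invt T φ
  refine ⟨T.invtSubmodule.inf_mem hWinv ?_, ?_⟩
  · rw [Module.End.mem_invtSubmodule]
    exact fun x hx => hEinv x hx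
  · rw [eq_bot_iff]
    rintro x ⟨⟨hxW, hxE⟩, hxperp⟩
    rw [Submodule.mem_bot]
    have hxW : x ∈ W := hxW
    have hxE : x ∈ LinearMap.ker (aeval T φ) := hxE
    have hxperp : ∀ u ∈ W ⊓ LinearMap.ker (aeval T φ), B u x = 0 := hxperp
    have hx' : x ∈ W ⊓ perp B W := by
      refine ⟨hxW, ?_⟩
      intro v hv
      have h5 : aeval T (a * φ + b * ψ) v = v := by
        rw [hab]
        simp
      rw [map_add, LinearMap.add_apply, map_mul, map_mul, Module.End.mul_apply,
        Module.End.mul_apply] at h5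
      have he : aeval T b (aeval T ψ v) ∈ W ⊓ LinearMap.ker (aeval T φ) := by
        refine ⟨ti_aeval_mem T W hWinv b _ (ti_aeval_mem T W hWinv ψ v hv), ?_⟩
        show aeval T b (aeval T ψ v) ∈ LinearMap.ker (aeval T φ)
        rw [LinearMap.mem_ker, aeval_comm_apply T φ b, ← Module.End.mul_apply (aeval T φ)
          (aeval T ψ), ← map_mul, hzero, LinearMap.zero_apply, map_zero]
      rw [← h5, map_add, LinearMap.add_apply, hxperp _ he, add_zero, aeval_comm_apply T a φ]
      obtain ⟨x₀, hx₀, rfl⟩ := hd.pow_surj_on _ hEinv φ.natDegree x hxE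
      rw [hd.adj_left hσ φ _ x₀]
      obtain ⟨q, hq⟩ := hsd
      rw [hq, mul_comm, map_mul, Module.End.mul_apply, LinearMap.mem_ker.mp hx₀, map_zero,
        map_zero]
    rw [hWnd] at hx'
    exact (Submodule.mem_bot F).mp hx'

example : StUtCompNd.{u,v} := utCompNd

end Cfsg.Agent.H25.Ut
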