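import Mathlib
import Cfsg.Agent.H42.UtDefs
import Cfsg.Agent.H42.UnBase
import Cfsg.Agent.H45.Semisimple
import Cfsg.Agent.H3.TiBase
import Cfsg.Agent.H3.TiCompDvd

/-! helper25: piece UT-HYPCLOSE of helper42's S5953 project (port of H16/TiHypClose): an invariant
totally isotropic subspace of dimension `deg φ` inside a nondegenerate invariant subspace killed by
an irreducible `φ` lies in a hyperbolic pair. -/

set_option autoImplicit false

namespace Cfsg.Agent.H25.Ut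

open Cfsg.Agent.H45 Cfsg.Agent.H42.Spd Cfsg.Agent.H42.Un Cfsg.Agent.H42.Ti Cfsg.Agent.H42.Ut
  Cfsg.Agent.H3.Ti Module Polynomial

universe u v

theorem utHypClose : StUtHypClose.{u,v} := by
  intro F _ _ σ V _ _ _ B T hd φ hφ M L hM hMker hLM hL hLti hLfr
  obtain ⟨hMinv, hMnd⟩ := hM
  have ha : 0 < φ.natDegree := hφ.natDegree_pos
  -- invariant subspaces of `M` have dimension divisible by `deg φ`
  have hdvd : ∀ N : Submodule F V, N ∈ T.invtSubmodule → N ≤ M →
      φ.natDegree ∣ finrank F N := by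
    intro N hN hNM
    have h := Cfsg.Agent.H3.Ti.tiCompDvd F V T φ hφ N hN
    rwa [inf_eq_left.mpr (hNM.trans hMker)] at h
  have hLne : L ≠ ⊥ := by
    intro h
    rw [h, finrank_bot] at hLfr
    omega
  obtain ⟨u₀, hu₀L, hu₀⟩ := (Submodule.ne_bot_iff L).1 hLne
  have hu₀M : u₀ ∈ M := hLM hu₀L
  obtain ⟨v, hvM, hv⟩ : ∃ v ∈ M, B v u₀ ≠ 0 := by
    by_contra hcon
    push Not at hcon
    have h1 : u₀ ∈ M ⊓ perp B M := ⟨hu₀M, fun u hu => hcon u hu⟩
    rw [hMnd] at h1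
    exact hu₀ ((Submodule.mem_bot F).mp h1)
  have hv0 : v ≠ 0 := by
    rintro rfl
    rw [map_zero, LinearMap.zero_apply] at hv
    exact hv rfl
  have hfv : aeval T φ v = 0 := LinearMap.mem_ker.1 (hMker hvM)
  obtain ⟨L₂, hL₂, Φ, hvL₂, -, hΦ⟩ := exists_cyclic T φ hφ v hv0 hfv
  have : Fact (Irreducible φ) := ⟨hφ⟩
  have hL₂M : L₂ ≤ M := by
    intro y hy
    obtain ⟨x, hx⟩ := Φ.surjective ⟨y, hy⟩
    obtain ⟨x₀, hx₀⟩ := Φ.surjective ⟨v, hvL₂⟩
    have hx₀0 : x₀ ≠ 0 := by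
      rintro rfl
      rw [map_zero] at hx₀
      exact hv0 (congrArg Subtype.val hx₀).symm
    obtain ⟨h, hh⟩ := AdjoinRoot.mk_surjective (x * x₀⁻¹)
    have h1 := hΦ h x₀
    rw [hh, inv_mul_cancel_right₀ hx₀0, hx, hx₀] at h1
    have h2 : y = aeval T h v := h1
    rw [h2]
    exact ti_aeval_mem T M hMinv h v hvM
  have hL₂fr : finrank F L₂ = φ.natDegree := by
    rw [← Φ.finrank_eq, (AdjoinRoot.powerBasis hφ.ne_zero).finrank, AdjoinRoot.powerBasis_dim]
  -- `L ⊓ L₂ = ⊥`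
  have hinf : finrank F ↥(L ⊓ L₂) = 0 := by
    have h1 := hdvd (L ⊓ L₂) (T.invtSubmodule.inf_mem hL hL₂) (inf_le_left.trans hLM)
    have h2 : finrank F ↥(L ⊓ L₂) ≤ finrank F L := Submodule.finrank_mono inf_le_left
    obtain ⟨c, hc⟩ := h1
    rcases Nat.eq_zero_or_pos c with h0 | h0
    · rw [hc, h0, mul_zero]
    · exfalso
      have h3 : finrank F ↥(L ⊓ L₂) = finrank F L := by
        rw [hLfr] at h2 ⊢
        nlinarith
      have h4 : L ⊓ L₂ = L := Submodule.eq_of_le_of_finrank_eq inf_le_left h3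
      have h5 : finrank F ↥(L ⊓ L₂) = finrank F L₂ := by rw [h3, hLfr, hL₂fr]
      have h6 : L ⊓ L₂ = L₂ := Submodule.eq_of_le_of_finrank_eq inf_le_right h5
      have h7 : v ∈ L := by
        rw [← h4, h6]
        exact hvL₂
      exact hv (hLti v h7 u₀ hu₀L)
  obtain ⟨H, hH⟩ : ∃ H, H = L ⊔ L₂ := ⟨_, rfl⟩
  have hHfr : finrank F H = 2 * φ.natDegree := by
    have h1 := Submodule.finrank_sup_add_finrank_inf_eq L L₂
    rw [hinf, hLfr, hL₂fr, ← hH] at h1
    omega
  have hHinv : H ∈ T.invtSubmodule := by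
    rw [hH]
    exact T.invtSubmodule.sup_mem hL hL₂
  have hHM : H ≤ M := by
    rw [hH]
    exact sup_le hLM hL₂M
  have hLH : L ≤ H := by
    rw [hH]
    exact le_sup_left
  have hvH : v ∈ H := by
    rw [hH]
    exact (le_sup_right : L₂ ≤ L ⊔ L₂) hvL₂
  have hRinv : H ⊓ perp B H ∈ T.invtSubmodule :=
    T.invtSubmodule.inf_mem hHinv (hd.perp_invt H hHinv)
  have hu₀R : u₀ ∉ H ⊓ perp B H := fun h => hv (h.2 v hvH)
  have hR : H ⊓ perp B H = ⊥ := by
    obtain ⟨R, hRdef⟩ : ∃ R, R = H ⊓ perp B H := ⟨_, rfl⟩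
    rw [← hRdef] at hRinv hu₀R ⊢
    have hRH : R ≤ H := by
      rw [hRdef]
      exact inf_le_left
    have hRL : finrank F ↥(R ⊓ L) = 0 := by
      have h1 := hdvd (R ⊓ L) (T.invtSubmodule.inf_mem hRinv hL) (inf_le_right.trans hLM)
      have h2 : finrank F ↥(R ⊓ L) ≤ finrank F L := Submodule.finrank_mono inf_le_right
      obtain ⟨c, hc⟩ := h1
      rcases Nat.eq_zero_or_pos c with h0 | h0
      · rw [hc, h0, mul_zero]
      · exfalso
        have h3 : finrank F ↥(R ⊓ L) = finrank F L := by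
          rw [hLfr] at h2 ⊢
          nlinarith
        have h4 : R ⊓ L = L := Submodule.eq_of_le_of_finrank_eq inf_le_right h3
        have h7 : u₀ ∈ R ⊓ L := by
          rw [h4]
          exact hu₀L
        exact hu₀R h7.1
    have hsum := Submodule.finrank_sup_add_finrank_inf_eq R L
    rw [hRL, hLfr, add_zero] at hsum
    have hle : finrank F ↥(R ⊔ L) ≤ finrank F H := Submodule.finrank_mono (sup_le hRH hLH)
    obtain ⟨c, hc⟩ := hdvd R hRinv (hRH.trans hHM)
    rcases Nat.eq_zero_or_pos c with h0 | h0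
    · rw [h0, mul_zero] at hc
      exact Submodule.finrank_eq_zero.mp hc
    · exfalso
      have hRfr : finrank F R = φ.natDegree := by
        rw [hsum, hHfr, hc] at hle
        rw [hc]
        nlinarith
      have hRLH : R ⊔ L = H :=
        Submodule.eq_of_le_of_finrank_eq (sup_le hRH hLH) (by rw [hsum, hRfr, hHfr]; ring)
      apply hu₀R
      rw [hRdef]
      refine ⟨hLH hu₀L, ?_⟩
      intro h hh
      rw [← hRLH] at hh
      obtain ⟨ρ, hρ, l, hl, rfl⟩ := Submodule.mem_sup.mp hh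
      rw [map_add, LinearMap.add_apply, hLti l hl u₀ hu₀L, add_zero]
      rw [hRdef] at hρ
      exact hd.refl (hρ.2 u₀ (hLH hu₀L))
  exact ⟨H, L, hHM, ⟨hHinv, hR⟩, hHfr, hLH, hL, hLti, hLfr⟩

example : StUtHypClose.{u,v} := utHypClose

end Cfsg.Agent.H25.Ut
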