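import Mathlib
import Cfsg.Agent.H42.UtDefs
import Cfsg.Agent.H42.UnBase
import Cfsg.Agent.H3.TiCycSet
import Cfsg.Agent.H3.TiPrim
import Cfsg.Agent.H3.TiCompDvd
import Cfsg.Agent.H48.PrimeOrdU

/-! helper25: piece UT-STEPSD of helper42's S5953 project (port of H3/TiStepEven). -/

set_option autoImplicit false

namespace Cfsg.Agent.H25.Ut

open Cfsg.Agent.H45 Cfsg.Agent.H42.Spd Cfsg.Agent.H42.Un Cfsg.Agent.H42.Ti Cfsg.Agent.H42.Ut
  Module Polynomial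

universe u v

theorem utStepSd (hN : StUtCompNd.{u,v}) (hPair : StUtPair.{u,v}) : StUtStepSd.{u,v} := by
  intro F _ _ q σ V _ _ _ r B T hK hσq hc h42 W hW hlt
  obtain ⟨⟨Φs, hΦs⟩, hC2⟩ := Cfsg.Agent.H3.Ti.cycSet F r hc.prime hc.cast_ne
  obtain ⟨hcard, hdeg, -⟩ := hC2 Φs hΦs
  have hprim := (Cfsg.Agent.H3.Ti.tiPrim Cfsg.Agent.H3.Ti.cycSet) F V r T hc.prime hc.cast_ne
    hc.pow Φs hΦs W hW.1
  have hi : ii F r ≠ 0 := by
    intro h0
    rw [h0, mul_zero] at hcard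
    have := hc.prime.two_le
    omega
  have ht : (r - 1) / ii F r = Φs.card := by
    rw [← hcard]; exact Nat.mul_div_cancel _ (Nat.pos_of_ne_zero hi)
  have hsum : ∑ φ ∈ Φs, ii F r < ∑ φ ∈ Φs, finrank F ↥(W ⊓ LinearMap.ker (aeval T φ)) := by
    rw [Finset.sum_const, smul_eq_mul]
    have hkk : kk T W = finrank F ↥(W ⊓ LinearMap.ker (T - 1)) := rfl
    rw [ht] at hlt
    rw [hprim, ← hkk] at hlt
    have : Φs.card * ii F r = ii F r * Φs.card := mul_comm _ _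
    omega
  obtain ⟨φ, hφ, hφlt⟩ := Finset.exists_lt_of_sum_lt hsum
  obtain ⟨hm, hirr, hdvd⟩ := (hΦs φ).1 hφ
  have hdegφ : φ.natDegree = ii F r := hdeg φ hφ
  have hdv := Cfsg.Agent.H3.Ti.tiCompDvd F V T φ hirr W hW.1
  rw [hdegφ] at hdv
  have h2 : 2 * φ.natDegree ≤ finrank F ↥(W ⊓ LinearMap.ker (aeval T φ)) := by
    rw [hdegφ]
    obtain ⟨m, hm⟩ := hdv
    rw [hm] at hφlt ⊢
    have hm2 : 2 ≤ m := by
      by_contra hcon
      have h1 : m ≤ 1 := by omega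
      have h3 : ii F r * m ≤ ii F r * 1 := Nat.mul_le_mul_left _ h1
      omega
    calc 2 * ii F r = ii F r * 2 := mul_comm _ _
      _ ≤ ii F r * m := Nat.mul_le_mul_left _ hm2
  -- self-duality of the cyclotomic factors
  have : Fact r.Prime := ⟨hc.prime⟩
  obtain ⟨hqi, hodd⟩ := Cfsg.Agent.H48.pow_half_of_mod_four r (q : ZMod r) h42
  have hre : r ∣ q ^ (orderOf (q : ZMod r) / 2) + 1 := by
    rw [← ZMod.natCast_eq_zero_iff]
    push_cast
    rw [hqi]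
    ring
  have hfx : φ ∣ X ^ r - 1 := dvd_trans hdvd (cyclotomic.dvd_X_pow_sub_one r F)
  have hsd : φ ∣ dualPoly σ φ :=
    Cfsg.Agent.H48.dvd_dualPoly_of_odd hK σ hσq r _ hodd hre φ hirr hfx
  have hNd := hN F σ V B T hc.iso hc.ss φ hirr hsd W hW
  obtain ⟨H, L, hHM, hH, hHd, hLH, hL, hTI, hLd⟩ :=
    hPair F σ V B T hc.iso hc.ss φ hirr _ hNd inf_le_right h2
  exact ⟨H, L, hHM.trans inf_le_left, hH, by rw [hHd, hdegφ], hLH, hL, hTI, by rw [hLd, hdegφ]⟩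

example (hN : StUtCompNd.{u,v}) (hPair : StUtPair.{u,v}) : StUtStepSd.{u,v} :=
  utStepSd hN hPair

end Cfsg.Agent.H25.Ut
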