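import Mathlib
import Cfsg.Agent.H42.UtDefs
import Cfsg.Agent.H42.UnAll
import Cfsg.Agent.H99.ElSTR

/-! helper25: piece UT-UPPER of helper42's S5953 project (port of H3/TiUpper). -/

set_option autoImplicit false

namespace Cfsg.Agent.H25.Ut

open Cfsg.Agent.H45 Cfsg.Agent.H42.Spd Cfsg.Agent.H42.Un Cfsg.Agent.H42.Ti Cfsg.Agent.H42.Ut
  Module Polynomial

universe u v

theorem utUpper (hH : StUtHalf.{u,v}) : StUtUpper.{u,v} := by
  intro F _ _ σ V _ _ _ r B T hc W hW hTI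
  have hW' : ∀ v ∈ W, T v ∈ W := fun v hv => (Module.End.mem_invtSubmodule T).1 hW hv
  obtain ⟨a, ha⟩ := Cfsg.Agent.H99.El.finrank_invariant_mod T r hc.prime hc.cast_ne hc.pow W hW'
  have hNdTop : UNd B T ⊤ := hc.iso.und_top
  have hfix := Cfsg.Agent.H42.Un.kFix F σ V r B T hc ⊤ hNdTop
  have hhalf := hH F σ V B T hc.iso (⊤ ⊓ LinearMap.ker (T - 1)) (W ⊓ LinearMap.ker (T - 1)) hfix.2
    (inf_le_inf_right _ le_top) (fun u hu v hv => hTI u hu.1 v hv.1)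
  refine ⟨a, finrank F ↥(W ⊓ LinearMap.ker (T - 1)), ?_, hhalf⟩
  rw [ha, add_comm, mul_comm]
  rfl

example (hH : StUtHalf.{u,v}) : StUtUpper.{u,v} := utUpper hH

end Cfsg.Agent.H25.Ut
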