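import Mathlib
import Cfsg.Agent.H74.W2PDefs
import Cfsg.Agent.H73.W2PCyc

/-!
# S0720 piece LA11a (for helper74): basic properties of `Wsp`

Also the shared library for LA11b and LA11c: pullbacks, the projections onto the `Vh h`,
and the characterisation of `Wsp` as a joint eigenspace inside `Uperp` (`mem_wsp_of_eig`).
-/

set_option autoImplicit false
set_option linter.unusedSectionVars false

namespace Cfsg.Agent.H25.W2P

open Cfsg.Agent.H74.W2P Equiv MulAction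

variable {Ω : Type*} [Fintype Ω] [DecidableEq Ω]

/-- pullback by a permutation as a linear endomorphism of the functions on `Ω` -/
noncomputable def pull (g : Perm Ω) : Module.End ℂ (Ω → ℂ) where
  toFun f := fun ω => f (g ω)
  map_add' _ _ := rfl
  map_smul' _ _ := rfl

theorem pull_apply (g : Perm Ω) (f : Ω → ℂ) (ω : Ω) : pull g f ω = f (g ω) := rfl

theorem pull_mul (g g' : Perm Ω) : pull g * pull g' = pull (g' * g) :=
  LinearMap.ext fun _ => funext fun _ => rfl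

theorem pull_one : pull (1 : Perm Ω) = 1 :=
  LinearMap.ext fun _ => funext fun _ => rfl

theorem pull_pow (g : Perm Ω) (n : ℕ) : pull g ^ n = pull (g ^ n) := by
  induction n with
  | zero => rw [pow_zero, pow_zero, pull_one]
  | succ n ih => rw [pow_succ, ih, pull_mul, ← pow_succ']

theorem zeta_prim' {p : ℕ} (hp : p ≠ 0) : IsPrimitiveRoot (zeta p) p :=
  Complex.isPrimitiveRoot_exp p hp

theorem zeta_ne_zero' (p : ℕ) : zeta p ≠ 0 := Complex.exp_ne_zero _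

/-- matrices of the centralizer algebra commute with the pullbacks by elements of `G` -/
theorem centC_comm {G : Subgroup (Perm Ω)} {A : Matrix Ω Ω ℂ} (hA : CentC G A) {g : Perm Ω}
    (hg : g ∈ G) (f : Ω → ℂ) : A.mulVec (pull g f) = pull g (A.mulVec f) := by
  funext i
  simp only [Matrix.mulVec, dotProduct, pull_apply]
  rw [← Equiv.sum_comp g (fun j => A (g i) j * f j)]
  exact Finset.sum_congr rfl (fun j _ => by rw [hA g hg i j])

theorem centC_commute {G : Subgroup (Perm Ω)} {A : Matrix Ω Ω ℂ} (hA : CentC G A) {g : Perm Ω}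
    (hg : g ∈ G) : Commute (Matrix.mulVecLin A : Module.End ℂ (Ω → ℂ)) (pull g) := by
  apply LinearMap.ext
  intro f
  exact centC_comm hA hg f

theorem centC_of_cent {G : Subgroup (Perm Ω)} {B : Matrix Ω Ω ℤ} (hB : Cent G B) :
    CentC G (B.map (Int.cast : ℤ → ℂ)) := by
  intro g hg i j
  simp only [Matrix.map_apply]
  rw [hB g hg i j]

/-- `Uperp` is stable under the pullbacks by elements of `G` -/
theorem uperp_pull {G : Subgroup (Perm Ω)} {x : Perm Ω} {a₀ : Ω} {f : Ω → ℂ}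
    (hf : f ∈ Uperp G x a₀) {g : Perm Ω} (hg : g ∈ G) : pull g f ∈ Uperp G x a₀ := by
  intro g' hg'
  have h1 : ∑ ω, f ω * sig x a₀ ((g' * g⁻¹) ω) = 0 :=
    hf (g' * g⁻¹) (G.mul_mem hg' (G.inv_mem hg))
  rw [← Equiv.sum_comp g] at h1
  simpa [pull_apply, Perm.mul_apply] using h1

/-- the projection onto `Vh x p h` (a polynomial in the pullback by `x`) -/
noncomputable def prj (x : Perm Ω) (p : ℕ) (h : ZMod p) : Module.End ℂ (Ω → ℂ) :=
  (p : ℂ)⁻¹ • ∑ z ∈ Finset.range p, (zeta p ^ (h.val * z))⁻¹ • pull x ^ z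

theorem pull_mul_prj {x : Perm Ω} {p : ℕ} (hp : p ≠ 0) (hx : x ^ p = 1) (h : ZMod p) :
    pull x * prj x p h = zeta p ^ h.val • prj x p h := by
  have hz : zeta p ^ p = 1 := (zeta_prim' hp).pow_eq_one
  have hz0 := zeta_ne_zero' p
  unfold prj
  rw [mul_smul_comm, smul_comm (zeta p ^ h.val) ((p : ℂ)⁻¹)]
  congr 1
  rw [Finset.mul_sum]
  have e1 : ∀ z ∈ Finset.range p, pull x * ((zeta p ^ (h.val * z))⁻¹ • pull x ^ z) =
      zeta p ^ h.val • ((zeta p ^ (h.val * (z + 1)))⁻¹ • pull x ^ (z + 1)) := by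
    intro z _
    rw [mul_smul_comm, ← pow_succ', smul_smul]
    congr 1
    rw [mul_add, mul_one, pow_add]
    field_simp
  rw [Finset.sum_congr rfl e1, ← Finset.smul_sum]
  congr 1
  have e2 := Finset.sum_range_succ' (fun z => (zeta p ^ (h.val * z))⁻¹ • pull x ^ z) p
  have e3 := Finset.sum_range_succ (fun z => (zeta p ^ (h.val * z))⁻¹ • pull x ^ z) p
  have e4 : (zeta p ^ (h.val * p))⁻¹ • pull x ^ p =
      (zeta p ^ (h.val * 0))⁻¹ • pull x ^ 0 := by
    rw [mul_comm h.val p, pow_mul, hz, one_pow, pull_pow, hx, pull_one, mul_zero, pow_zero,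
      pow_zero]
  rw [e3, e4] at e2
  exact add_right_cancel e2.symm

theorem prj_mem_Vh {x : Perm Ω} {p : ℕ} (hp : p ≠ 0) (hx : x ^ p = 1) (h : ZMod p)
    (f : Ω → ℂ) : prj x p h f ∈ Vh x p h := by
  intro ω
  have h1 := congrArg (fun T : Module.End ℂ (Ω → ℂ) => T f ω) (pull_mul_prj hp hx h)
  exact h1

theorem sum_zmod_val' {n : ℕ} [NeZero n] {B : Type*} [AddCommMonoid B] (g : ℕ → B) :
    ∑ k : ZMod n, g k.val = ∑ i ∈ Finset.range n, g i := by
  cases n with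
  | zero => exact absurd rfl (NeZero.ne 0)
  | succ n => exact Fin.sum_univ_eq_sum_range g (n + 1)

theorem sum_prj {x : Perm Ω} {p : ℕ} [NeZero p] (hp : p.Prime) :
    ∑ h : ZMod p, prj x p h = 1 := by
  have hprim := zeta_prim' hp.ne_zero
  have hz : zeta p ^ p = 1 := hprim.pow_eq_one
  unfold prj
  rw [← Finset.smul_sum, Finset.sum_comm]
  have e1 : ∀ z ∈ Finset.range p, ∑ h : ZMod p, (zeta p ^ (h.val * z))⁻¹ • pull x ^ z =
      (if z = 0 then (p : ℂ) else 0) • pull x ^ z := by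
    intro z hzr
    rw [← Finset.sum_smul]
    congr 1
    rw [sum_zmod_val' (fun i => (zeta p ^ (i * z))⁻¹)]
    split_ifs with hz0
    · subst hz0
      simp
    · have hμ : ∀ i : ℕ, (zeta p ^ (i * z))⁻¹ = ((zeta p ^ z)⁻¹) ^ i := by
        intro i
        rw [mul_comm, pow_mul, inv_pow]
      rw [Finset.sum_congr rfl (fun i _ => hμ i)]
      have hne : (zeta p ^ z)⁻¹ ≠ 1 := by
        intro h1
        rw [inv_eq_one] at h1
        exact hprim.pow_ne_one_of_pos_of_lt hz0 (Finset.mem_range.mp hzr) h1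
      have hgs := mul_geom_sum ((zeta p ^ z)⁻¹) p
      rw [inv_pow, ← pow_mul, mul_comm z p, pow_mul, hz, one_pow, inv_one, sub_self] at hgs
      rcases mul_eq_zero.mp hgs with h2 | h2
      · exact absurd (sub_eq_zero.mp h2) hne
      · exact h2
  rw [Finset.sum_congr rfl e1, Finset.sum_eq_single 0]
  · rw [if_pos rfl, pow_zero, smul_smul, inv_mul_cancel₀ (Nat.cast_ne_zero.mpr hp.ne_zero),
      one_smul]
  · intro z _ hz0
    rw [if_neg hz0, zero_smul]
  · intro h0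
    exact absurd (Finset.mem_range.mpr hp.pos) h0

theorem prj_mem {x : Perm Ω} {p : ℕ} {h : ZMod p} {S : Submodule ℂ (Ω → ℂ)}
    (hS : ∀ f ∈ S, pull x f ∈ S) {f : Ω → ℂ} (hf : f ∈ S) : prj x p h f ∈ S := by
  have hpow : ∀ z : ℕ, (pull x ^ z) f ∈ S := by
    intro z
    induction z with
    | zero => rw [pow_zero]; exact hf
    | succ z ih => rw [pow_succ']; exact hS _ ih
  unfold prj
  rw [LinearMap.smul_apply, LinearMap.sum_apply]
  exact S.smul_mem _ (S.sum_mem fun z _ => by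
    rw [LinearMap.smul_apply]; exact S.smul_mem _ (hpow z))

theorem prj_commute {x : Perm Ω} {p : ℕ} {h : ZMod p} {B : Module.End ℂ (Ω → ℂ)}
    (hB : Commute B (pull x)) : Commute B (prj x p h) :=
  Commute.smul_right (Finset.sum_induction _ (fun T => Commute B T) (fun _ _ => Commute.add_right)
    (Commute.zero_right B) (fun z _ => Commute.smul_right (hB.pow_right z) _)) _

/-! ### `wch` is linear in the matrix -/

theorem wch_add (x : Perm Ω) (a₀ b₀ : Ω) (p : ℕ) (A B : Matrix Ω Ω ℂ) (h : ZMod p) :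
    wch x a₀ b₀ p (A + B) h = wch x a₀ b₀ p A h + wch x a₀ b₀ p B h := by
  unfold wch
  simp only [Matrix.add_apply, add_mul, Finset.sum_add_distrib]
  ring

theorem wch_smul (x : Perm Ω) (a₀ b₀ : Ω) (p : ℕ) (c : ℂ) (A : Matrix Ω Ω ℂ) (h : ZMod p) :
    wch x a₀ b₀ p (c • A) h = c * wch x a₀ b₀ p A h := by
  unfold wch
  simp only [Matrix.smul_apply, smul_eq_mul, mul_sub, Finset.mul_sum]
  congr 1
  · exact Finset.sum_congr rfl (fun z _ => by ring)
  · exact Finset.sum_congr rfl (fun z _ => by ring)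

theorem wch_zero (x : Perm Ω) (a₀ b₀ : Ω) (p : ℕ) (h : ZMod p) :
    wch x a₀ b₀ p 0 h = 0 := by
  unfold wch
  simp

/-- for `k ∈ Eset` the characters `wch · k` and `wch · 1` agree on the whole centralizer
algebra -/
theorem wch_eq_of_mem_Eset {G : Subgroup (Perm Ω)} {x : Perm Ω} {a₀ b₀ : Ω} {p : ℕ}
    (hspan : SpanInt G) {k : ZMod p} (hk : k ∈ Eset G x a₀ b₀ p) {A : Matrix Ω Ω ℂ}
    (hA : CentC G A) : wch x a₀ b₀ p A k = wch x a₀ b₀ p A 1 := by
  have hmem : A ∈ centSub G := hA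
  have hs : centSub G = Submodule.span ℂ
      {A | ∃ B : Matrix Ω Ω ℤ, Cent G B ∧ A = B.map (Int.cast : ℤ → ℂ)} := hspan
  rw [hs] at hmem
  clear hA
  induction hmem using Submodule.span_induction with
  | mem A hA' =>
    obtain ⟨B, hB, rfl⟩ := hA'
    exact hk.2 B hB
  | zero => rw [wch_zero, wch_zero]
  | add A B _ _ ihA ihB => rw [wch_add, wch_add, ihA, ihB]
  | smul c A _ ih => rw [wch_smul, wch_smul, ih]

/-- the centralizer algebra acts on `Wsp` by the character `wch · 1` -/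
theorem wsp_scal {G : Subgroup (Perm Ω)} {p : ℕ} {x : Perm Ω} {a₀ b₀ : Ω}
    (core : Core G p x a₀ b₀) (hspan : SpanInt G) (Λ : Finset (ZMod p))
    (hΛ : ∀ k, k ∈ Λ ↔ k ∈ Eset G x a₀ b₀ p) {A : Matrix Ω Ω ℂ} (hA : CentC G A)
    {f : Ω → ℂ} (hf : f ∈ Wsp G p x a₀ Λ) : A.mulVec f = wch x a₀ b₀ p A 1 • f := by
  have hle : Wsp G p x a₀ Λ ≤ LinearMap.ker ((Matrix.mulVecLin A : Module.End ℂ (Ω → ℂ)) -
      wch x a₀ b₀ p A 1 • (1 : Module.End ℂ (Ω → ℂ))) := by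
    unfold Wsp
    apply iSup₂_le
    intro h hh f hf
    have hE := (hΛ h).mp hh
    rw [LinearMap.mem_ker, LinearMap.sub_apply, LinearMap.smul_apply, Matrix.mulVecLin_apply,
      Module.End.one_apply, sub_eq_zero, core.scalW A hA h hE.1 f hf,
      wch_eq_of_mem_Eset hspan hE hA]
  have h1 := hle hf
  rw [LinearMap.mem_ker, LinearMap.sub_apply, LinearMap.smul_apply, Matrix.mulVecLin_apply,
    Module.End.one_apply, sub_eq_zero] at h1
  exact h1

theorem le_wsp {G : Subgroup (Perm Ω)} {p : ℕ} {x : Perm Ω} {a₀ : Ω} {Λ : Finset (ZMod p)}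
    {h : ZMod p} (hh : h ∈ Λ) : Uperp G x a₀ ⊓ Vh x p h ≤ Wsp G p x a₀ Λ :=
  le_iSup₂ (f := fun h (_ : h ∈ Λ) => Uperp G x a₀ ⊓ Vh x p h) h hh

theorem wsp_le_uperp {G : Subgroup (Perm Ω)} {p : ℕ} {x : Perm Ω} {a₀ : Ω}
    {Λ : Finset (ZMod p)} : Wsp G p x a₀ Λ ≤ Uperp G x a₀ :=
  iSup₂_le (fun _ _ => inf_le_left)

/-- a function of `Uperp ⊓ Vh 0` with sum `0` vanishes -/
theorem eq_zero_of_mem_Vh_zero {G : Subgroup (Perm Ω)} {p : ℕ} {x : Perm Ω} (hyp : Hyp G p x)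
    (a₀ b₀ : Ω) (hb₀ : ¬ x.SameCycle a₀ b₀) {g : Ω → ℂ} (h1 : g ∈ Uperp G x a₀)
    (h2 : g ∈ Vh x p 0) (h3 : ∑ ω, g ω = 0) : g = 0 := by
  have : NeZero p := ⟨hyp.hp.ne_zero⟩
  have hp0 : (p : ℂ) ≠ 0 := Nat.cast_ne_zero.mpr hyp.hp.ne_zero
  have hstep : ∀ ω, g (x ω) = g ω := by
    intro ω
    have := h2 ω
    rwa [ZMod.val_zero, pow_zero, one_mul] at this
  have hpow : ∀ (n : ℕ) (ω : Ω), g ((x ^ n) ω) = g ω := by
    intro n
    induction n with
    | zero => intro ω; rw [pow_zero, Perm.one_apply]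
    | succ n ih => intro ω; rw [pow_succ', Perm.mul_apply, hstep, ih]
  have hcyc : ∀ a ω : Ω, x.SameCycle a ω → g ω = g a := by
    intro a ω hs
    obtain ⟨n, hn⟩ := hs.exists_nat_pow_eq
    rw [← hn, hpow]
  have hg : ∀ ω, g ω = if x.SameCycle a₀ ω then g a₀ else g b₀ := by
    intro ω
    split_ifs with hs
    · exact hcyc a₀ ω hs
    · rcases Cfsg.Agent.H73.W2P.two_cycles hyp a₀ b₀ hb₀ ω with h | h
      · exact absurd h hs
      · exact hcyc b₀ ω h
  obtain ⟨c₁, hc₁⟩ : ∃ c, c = g a₀ := ⟨_, rfl⟩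
  obtain ⟨c₂, hc₂⟩ : ∃ c, c = g b₀ := ⟨_, rfl⟩
  rw [← hc₁, ← hc₂] at hg
  have hS1 : ∑ ω, g ω = (p : ℂ) * c₁ + (p : ℂ) * c₂ := by
    rw [Finset.sum_congr rfl (fun ω _ => hg ω), Finset.sum_ite, Finset.sum_const,
      Finset.sum_const, Cfsg.Agent.H73.W2P.card_cycle hyp a₀,
      Cfsg.Agent.H73.W2P.card_compl_cycle hyp a₀]
    simp [nsmul_eq_mul]
  have hS2 : ∑ ω, g ω * sig x a₀ ω = (p : ℂ) * c₁ - (p : ℂ) * c₂ := by
    have h4 : ∀ ω, g ω * sig x a₀ ω = if x.SameCycle a₀ ω then c₁ else -c₂ := by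
      intro ω
      rw [hg ω]
      unfold sig
      split_ifs <;> ring
    rw [Finset.sum_congr rfl (fun ω _ => h4 ω), Finset.sum_ite, Finset.sum_const,
      Finset.sum_const, Cfsg.Agent.H73.W2P.card_cycle hyp a₀,
      Cfsg.Agent.H73.W2P.card_compl_cycle hyp a₀]
    simp [nsmul_eq_mul]
    ring
  have h5 : ∑ ω, g ω * sig x a₀ ω = 0 := by
    have := h1 1 G.one_mem
    simpa using this
  rw [hS1] at h3
  rw [hS2] at h5
  have hc1 : c₁ = 0 := by
    have : (p : ℂ) * (2 * c₁) = 0 := by linear_combination h3 + h5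
    rcases mul_eq_zero.mp this with h | h
    · exact absurd h hp0
    · simpa using h
  have hc2 : c₂ = 0 := by
    have : (p : ℂ) * (2 * c₂) = 0 := by linear_combination h3 - h5
    rcases mul_eq_zero.mp this with h | h
    · exact absurd h hp0
    · simpa using h
  funext ω
  rw [hg ω, hc1, hc2]
  simp

/-- the all-ones integer matrix -/
def onesMat (Ω : Type*) : Matrix Ω Ω ℤ := fun _ _ => 1

theorem onesMat_cent (G : Subgroup (Perm Ω)) : Cent G (onesMat Ω) := fun _ _ _ _ => rfl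

theorem wch_onesMat {G : Subgroup (Perm Ω)} {p : ℕ} {x : Perm Ω} (hyp : Hyp G p x) (a₀ b₀ : Ω) :
    wch x a₀ b₀ p ((onesMat Ω).map (Int.cast : ℤ → ℂ)) 1 = 0 := by
  have : Fact (1 < p) := ⟨hyp.hp.one_lt⟩
  have hprim := zeta_prim' hyp.hp.ne_zero
  unfold wch
  simp only [Matrix.map_apply, onesMat, Int.cast_one, one_mul, ZMod.val_one]
  rw [Cfsg.Agent.H73.W2P.sum_sig hyp a₀, sub_zero, ← Finset.mul_sum,
    hprim.geom_sum_eq_zero hyp.hp.one_lt, mul_zero]

/-- **Key lemma**: a function of `Uperp` on which the integer centralizer matrices act by the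
character `wch · 1` lies in `Wsp`. -/
theorem mem_wsp_of_eig {G : Subgroup (Perm Ω)} {p : ℕ} {x : Perm Ω} (hyp : Hyp G p x)
    (a₀ b₀ : Ω) (hb₀ : ¬ x.SameCycle a₀ b₀) (core : Core G p x a₀ b₀) (Λ : Finset (ZMod p))
    (hΛ : ∀ k, k ∈ Λ ↔ k ∈ Eset G x a₀ b₀ p) {f : Ω → ℂ} (hfU : f ∈ Uperp G x a₀)
    (hfe : ∀ B : Matrix Ω Ω ℤ, Cent G B → (B.map (Int.cast : ℤ → ℂ)).mulVec f =
      wch x a₀ b₀ p (B.map (Int.cast : ℤ → ℂ)) 1 • f) : f ∈ Wsp G p x a₀ Λ := by
  have hp := hyp.hp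
  have : NeZero p := ⟨hp.ne_zero⟩
  have hxp : x ^ p = 1 := by rw [← hyp.hxord]; exact pow_orderOf_eq_one x
  have hsum : f = ∑ h : ZMod p, prj x p h f := by
    have h1 := congrArg (fun T : Module.End ℂ (Ω → ℂ) => T f) (sum_prj (x := x) hp)
    simp only [LinearMap.sum_apply, Module.End.one_apply] at h1
    exact h1.symm
  rw [hsum]
  apply Submodule.sum_mem
  intro h _
  have h1 : prj x p h f ∈ Uperp G x a₀ :=
    prj_mem (fun f' hf' => uperp_pull hf' hyp.hxG) hfU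
  have h2 : prj x p h f ∈ Vh x p h := prj_mem_Vh hp.ne_zero hxp h f
  have h3 : ∀ B : Matrix Ω Ω ℤ, Cent G B → (B.map (Int.cast : ℤ → ℂ)).mulVec (prj x p h f) =
      wch x a₀ b₀ p (B.map (Int.cast : ℤ → ℂ)) 1 • prj x p h f := by
    intro B hB
    have hc := prj_commute (p := p) (h := h) (centC_commute (centC_of_cent hB) hyp.hxG)
    have h4 := congrArg (fun T : Module.End ℂ (Ω → ℂ) => T f) hc.eq
    simp only [Module.End.mul_apply, Matrix.mulVecLin_apply] at h4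
    rw [h4, hfe B hB, map_smul]
  by_cases hΛh : h ∈ Λ
  · exact le_wsp hΛh ⟨h1, h2⟩
  · by_cases h0 : h = 0
    · subst h0
      have h5 := h3 (onesMat Ω) (onesMat_cent G)
      rw [wch_onesMat hyp a₀ b₀, zero_smul] at h5
      have h6 : ∑ ω, prj x p 0 f ω = 0 := by
        have h7 := congrFun h5 a₀
        simpa [Matrix.mulVec, dotProduct, onesMat] using h7
      rw [eq_zero_of_mem_Vh_zero hyp a₀ b₀ hb₀ h1 h2 h6]
      exact Submodule.zero_mem _
    · have hnE : h ∉ Eset G x a₀ b₀ p := fun hE => hΛh ((hΛ h).mpr hE)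
      have hex : ∃ B : Matrix Ω Ω ℤ, Cent G B ∧
          wch x a₀ b₀ p (B.map (Int.cast : ℤ → ℂ)) h ≠
            wch x a₀ b₀ p (B.map (Int.cast : ℤ → ℂ)) 1 := by
        by_contra hcon
        push Not at hcon
        exact hnE ⟨h0, hcon⟩
      obtain ⟨B, hB, hne⟩ := hex
      have e1 := core.scalW _ (centC_of_cent hB) h h0 (prj x p h f) ⟨h1, h2⟩
      have e2 := h3 B hB
      rw [e1] at e2
      have e3 : (wch x a₀ b₀ p (B.map (Int.cast : ℤ → ℂ)) h -
          wch x a₀ b₀ p (B.map (Int.cast : ℤ → ℂ)) 1) • prj x p h f = 0 := by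
        rw [sub_smul, e2, sub_self]
      rcases smul_eq_zero.mp e3 with e4 | e4
      · exact absurd (sub_eq_zero.mp e4) hne
      · rw [e4]; exact Submodule.zero_mem _

/-- **S0720-LA11a.** -/
theorem wdata_basic {G : Subgroup (Perm Ω)} {p : ℕ} {x : Perm Ω} (hyp : Hyp G p x) (a₀ b₀ : Ω)
    (hb₀ : ¬ x.SameCycle a₀ b₀) (core : Core G p x a₀ b₀) (hspan : SpanInt G)
    (Λ : Finset (ZMod p)) (hΛ : ∀ k, k ∈ Λ ↔ k ∈ Eset G x a₀ b₀ p) :
    Inv G (Wsp G p x a₀ Λ) ∧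
    (∀ h ∈ Λ, Module.finrank ℂ ↥(Wsp G p x a₀ Λ ⊓ Vh x p h) = 1) ∧
    (Wsp G p x a₀ Λ = ⨆ h ∈ Λ, Wsp G p x a₀ Λ ⊓ Vh x p h) ∧
    (∀ A : Matrix Ω Ω ℂ, CentC G A → ∀ f ∈ Wsp G p x a₀ Λ,
      A.mulVec f = wch x a₀ b₀ p A 1 • f) := by
  have hscal : ∀ A : Matrix Ω Ω ℂ, CentC G A → ∀ f ∈ Wsp G p x a₀ Λ,
      A.mulVec f = wch x a₀ b₀ p A 1 • f :=
    fun A hA f hf => wsp_scal core hspan Λ hΛ hA hf
  refine ⟨?_, ?_, ?_, hscal⟩
  · intro g hg f hf
    change pull g f ∈ Wsp G p x a₀ Λ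
    apply mem_wsp_of_eig hyp a₀ b₀ hb₀ core Λ hΛ (uperp_pull (wsp_le_uperp hf) hg)
    intro B hB
    rw [centC_comm (centC_of_cent hB) hg f, hscal _ (centC_of_cent hB) f hf, map_smul]
  · intro h hh
    have h1 : Wsp G p x a₀ Λ ⊓ Vh x p h = Uperp G x a₀ ⊓ Vh x p h :=
      le_antisymm (inf_le_inf_right _ wsp_le_uperp) (le_inf (le_wsp hh) inf_le_right)
    rw [h1]
    exact core.dimW h ((hΛ h).mp hh).1
  · apply le_antisymm
    · change (⨆ h ∈ Λ, Uperp G x a₀ ⊓ Vh x p h) ≤ ⨆ h ∈ Λ, Wsp G p x a₀ Λ ⊓ Vh x p h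
      apply iSup₂_le
      intro h hh
      exact le_trans (le_inf (le_wsp hh) inf_le_right)
        (le_iSup₂ (f := fun h (_ : h ∈ Λ) => Wsp G p x a₀ Λ ⊓ Vh x p h) h hh)
    · exact iSup₂_le (fun _ _ => inf_le_left)

end Cfsg.Agent.H25.W2P
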