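import Mathlib
import Cfsg.Agent.H74.W2PDefs
import Cfsg.Agent.H25.W2PLA11a

/-!
# S0720 piece LA11b (for helper74): `Wsp` is irreducible

Maschke averaging: a `G`-invariant subspace `W'` has a projection in the centralizer algebra,
which acts on `Wsp` by a scalar.
-/

set_option autoImplicit false
set_option linter.unusedSectionVars false
set_option linter.unusedVariables false

namespace Cfsg.Agent.H25.W2P

open Cfsg.Agent.H74.W2P Equiv MulAction

variable {Ω : Type*} [Fintype Ω] [DecidableEq Ω]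

theorem perm_inv_apply (g : Perm Ω) (ω : Ω) : g⁻¹ (g ω) = ω := Equiv.symm_apply_apply g ω

/-- `Wsp` is nonzero (it contains the line `Uperp ⊓ Vh 1`). -/
theorem wsp_ne_bot {G : Subgroup (Perm Ω)} {p : ℕ} {x : Perm Ω} (hyp : Hyp G p x) {a₀ b₀ : Ω}
    (core : Core G p x a₀ b₀) (Λ : Finset (ZMod p))
    (hΛ : ∀ k, k ∈ Λ ↔ k ∈ Eset G x a₀ b₀ p) : Wsp G p x a₀ Λ ≠ ⊥ := by
  have hfact : Fact p.Prime := ⟨hyp.hp⟩
  have h1 : (1 : ZMod p) ∈ Λ := (hΛ 1).mpr ⟨one_ne_zero, fun _ _ => rfl⟩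
  intro hbot
  have h2 : Uperp G x a₀ ⊓ Vh x p 1 = ⊥ := by
    apply le_antisymm _ bot_le
    rw [← hbot]
    exact le_wsp h1
  have h3 := core.dimW 1 one_ne_zero
  rw [h2, finrank_bot] at h3
  exact absurd h3 (by norm_num)

/-- **Maschke**: a `G`-invariant subspace is the image of a projection lying in the centralizer
algebra. -/
theorem exists_centC_proj (G : Subgroup (Perm Ω)) (W' : Submodule ℂ (Ω → ℂ))
    (hinv : Inv G W') :
    ∃ M : Matrix Ω Ω ℂ, CentC G M ∧ (∀ f, M.mulVec f ∈ W') ∧ (∀ w ∈ W', M.mulVec w = w) := by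
  classical
  obtain ⟨r, hr⟩ := LinearMap.exists_leftInverse_of_injective W'.subtype (Submodule.ker_subtype W')
  have hrid : ∀ w (hw : w ∈ W'), r w = ⟨w, hw⟩ := by
    intro w hw
    have h1 := congrArg (fun T : W' →ₗ[ℂ] W' => T ⟨w, hw⟩) hr
    simpa using h1
  have hfin : Fintype G := Fintype.ofFinite G
  have hcard : (Fintype.card G : ℂ) ≠ 0 := Nat.cast_ne_zero.mpr Fintype.card_ne_zero
  -- the matrix of the (non-equivariant) projection
  obtain ⟨M₀, hM₀⟩ : ∃ M₀ : Matrix Ω Ω ℂ, ∀ v : Ω → ℂ, M₀.mulVec v = (r v : Ω → ℂ) :=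
    ⟨LinearMap.toMatrix' (W'.subtype ∘ₗ r), fun v => by
      rw [LinearMap.toMatrix'_mulVec]; rfl⟩
  refine ⟨fun i j => (Fintype.card G : ℂ)⁻¹ * ∑ g : G, M₀ ((g : Perm Ω) i) ((g : Perm Ω) j),
    ?_, ?_, ?_⟩
  · intro k hk i j
    show (Fintype.card G : ℂ)⁻¹ * ∑ g : G, M₀ ((g : Perm Ω) (k i)) ((g : Perm Ω) (k j)) =
      (Fintype.card G : ℂ)⁻¹ * ∑ g : G, M₀ ((g : Perm Ω) i) ((g : Perm Ω) j)
    congr 1
    exact Equiv.sum_comp (Equiv.mulRight (⟨k, hk⟩ : G))
      (fun g : G => M₀ ((g : Perm Ω) i) ((g : Perm Ω) j))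
  all_goals
    have hmv : ∀ f : Ω → ℂ, Matrix.mulVec (fun i j => (Fintype.card G : ℂ)⁻¹ *
        ∑ g : G, M₀ ((g : Perm Ω) i) ((g : Perm Ω) j)) f =
        (Fintype.card G : ℂ)⁻¹ • ∑ g : G, pull (g : Perm Ω)
          ((r (pull ((g : Perm Ω)⁻¹) f) : W') : Ω → ℂ) := by
      intro f
      funext i
      simp only [Matrix.mulVec, dotProduct, Pi.smul_apply, Finset.sum_apply, smul_eq_mul,
        pull_apply]
      rw [Finset.sum_congr rfl (fun j _ => mul_assoc _ _ _), ← Finset.mul_sum]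
      congr 1
      rw [Finset.sum_congr rfl (fun j _ => Finset.sum_mul _ _ _), Finset.sum_comm]
      apply Finset.sum_congr rfl
      intro g _
      rw [← hM₀]
      simp only [Matrix.mulVec, dotProduct, pull_apply]
      rw [← Equiv.sum_comp (g : Perm Ω)
        (fun j => M₀ ((g : Perm Ω) i) j * f ((g : Perm Ω)⁻¹ j))]
      apply Finset.sum_congr rfl
      intro j _
      rw [perm_inv_apply]
  · intro f
    rw [hmv f]
    apply W'.smul_mem
    apply W'.sum_mem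
    intro g _
    exact hinv (g : Perm Ω) g.2 _ (r _).2
  · intro w hw
    rw [hmv w]
    have h1 : ∀ g : G, pull (g : Perm Ω) ((r (pull ((g : Perm Ω)⁻¹) w) : W') : Ω → ℂ) = w := by
      intro g
      have h2 : pull ((g : Perm Ω)⁻¹) w ∈ W' := hinv _ (G.inv_mem g.2) w hw
      rw [hrid _ h2]
      funext ω
      simp only [pull_apply]
      rw [perm_inv_apply]
    rw [Finset.sum_congr rfl (fun g _ => h1 g), Finset.sum_const, Finset.card_univ,
      ← Nat.cast_smul_eq_nsmul ℂ, smul_smul, inv_mul_cancel₀ hcard, one_smul]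

/-- **S0720-LA11b.** -/
theorem wdata_irr {G : Subgroup (Perm Ω)} {p : ℕ} {x : Perm Ω} (hyp : Hyp G p x) (a₀ b₀ : Ω)
    (hb₀ : ¬ x.SameCycle a₀ b₀) (core : Core G p x a₀ b₀) (hspan : SpanInt G)
    (Λ : Finset (ZMod p)) (hΛ : ∀ k, k ∈ Λ ↔ k ∈ Eset G x a₀ b₀ p)
    (hinv : Inv G (Wsp G p x a₀ Λ))
    (hscal : ∀ A : Matrix Ω Ω ℂ, CentC G A → ∀ f ∈ Wsp G p x a₀ Λ,
      A.mulVec f = wch x a₀ b₀ p A 1 • f) :
    Irr G (Wsp G p x a₀ Λ) := by
  refine ⟨wsp_ne_bot hyp core Λ hΛ, ?_⟩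
  intro W' hW' hinv'
  by_cases hbot : W' = ⊥
  · exact Or.inl hbot
  · right
    apply le_antisymm hW'
    obtain ⟨M, hM, hMmem, hMid⟩ := exists_centC_proj G W' hinv'
    obtain ⟨w, hw, hw0⟩ := Submodule.exists_mem_ne_zero_of_ne_bot hbot
    have h1 := hscal M hM w (hW' hw)
    rw [hMid w hw] at h1
    have hc : wch x a₀ b₀ p M 1 = 1 := by
      by_contra hne
      apply hw0
      have h2 : (1 - wch x a₀ b₀ p M 1) • w = 0 := by
        rw [sub_smul, one_smul, ← h1, sub_self]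
      rcases smul_eq_zero.mp h2 with h3 | h3
      · exact absurd (sub_eq_zero.mp h3).symm hne
      · exact h3
    intro f hf
    have h3 := hscal M hM f hf
    rw [hc, one_smul] at h3
    rw [← h3]
    exact hMmem f

end Cfsg.Agent.H25.W2P
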