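import Mathlib
import Cfsg.Agent.H74.W2PDefs
import Cfsg.Agent.H25.W2PLA11b

/-!
# S0720 piece LA11c (for helper74): an `H`-invariant vector of `Wsp` with coordinates in `ℚ(ζ)`

`Wsp` is cut out of `Ω → ℂ` by linear equations with coefficients in `K = ℚ(ζ)`
(`mem_wsp_of_eig`), so a `K`-linear functional `φ : ℂ → K` maps a complex solution to a
`K`-rational one; the `H`-invariance is one more family of such equations.
-/

set_option autoImplicit false
set_option linter.unusedSectionVars false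
set_option linter.unusedVariables false

namespace Cfsg.Agent.H25.W2P

open Cfsg.Agent.H74.W2P Equiv MulAction

variable {Ω : Type*} [Fintype Ω] [DecidableEq Ω]

/-- `wch` of an integer matrix lies in `ℚ(ζ)`. -/
theorem wch_mem_adjoin (x : Perm Ω) (a₀ b₀ : Ω) (p : ℕ) (B : Matrix Ω Ω ℤ) (h : ZMod p) :
    wch x a₀ b₀ p (B.map (Int.cast : ℤ → ℂ)) h ∈ IntermediateField.adjoin ℚ {zeta p} := by
  have hζ : zeta p ∈ IntermediateField.adjoin ℚ {zeta p} :=
    IntermediateField.mem_adjoin_simple_self ℚ (zeta p)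
  unfold wch
  apply sub_mem
  · apply sum_mem
    intro z _
    apply mul_mem
    · simp only [Matrix.map_apply]
      exact add_mem (intCast_mem _ _) (intCast_mem _ _)
    · exact pow_mem hζ _
  · apply sum_mem
    intro j _
    apply mul_mem
    · simp only [Matrix.map_apply]
      exact intCast_mem _ _
    · unfold sig
      split_ifs
      · exact one_mem _
      · exact neg_mem (one_mem _)

/-- A `K`-linear functional turns a complex vector into a `K`-rational one satisfying the same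
`K`-linear relations. -/
theorem exists_rat_vector (K : IntermediateField ℚ ℂ) {ι : Type*} [Fintype ι] (v : ι → ℂ)
    (i₀ : ι) (hv : v i₀ ≠ 0) :
    ∃ F : ι → K, F i₀ = 1 ∧ (∀ i j, v i = v j → F i = F j) ∧
      ∀ (c : ι → K) (w : K) (i : ι), (∑ j, (c j : ℂ) * v j = (w : ℂ) * v i) →
        (∑ j, c j * F j = w * F i) := by
  obtain ⟨φ, hφ⟩ := LinearMap.exists_leftInverse_of_injective
    (LinearMap.toSpanSingleton K ℂ (v i₀)) (by
      rw [LinearMap.ker_eq_bot]
      intro k k' hkk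
      simp only [LinearMap.toSpanSingleton_apply] at hkk
      exact smul_left_injective K hv hkk)
  refine ⟨fun j => φ (v j), ?_, ?_, ?_⟩
  · have h1 := congrArg (fun T : K →ₗ[K] K => T 1) hφ
    simpa [LinearMap.toSpanSingleton_apply] using h1
  · intro i j hij
    show φ (v i) = φ (v j)
    rw [hij]
  · intro c w i h
    have e1 : ∀ (k : K) (z : ℂ), (k : ℂ) * z = k • z := fun k z => by
      rw [Algebra.smul_def]; rfl
    simp only [e1] at h
    have h1 := congrArg φ h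
    simpa only [map_sum, map_smul, smul_eq_mul] using h1

/-- **S0720-LA11c.** -/
theorem wdata_rat {G : Subgroup (Perm Ω)} {p : ℕ} {x : Perm Ω} (hyp : Hyp G p x) (a₀ b₀ : Ω)
    (hb₀ : ¬ x.SameCycle a₀ b₀) (core : Core G p x a₀ b₀) (htr : Transfer x a₀ b₀ p)
    (hspan : SpanInt G) (Λ : Finset (ZMod p)) (hΛ : ∀ k, k ∈ Λ ↔ k ∈ Eset G x a₀ b₀ p) :
    ∃ F ∈ Wsp G p x a₀ Λ, F ≠ 0 ∧ (∀ g ∈ G, g a₀ = a₀ → ∀ ω, F (g ω) = F ω) ∧
      ∀ ω, F ω ∈ Algebra.adjoin ℚ {zeta p} := by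
  classical
  obtain ⟨hinv, -, -, hscal⟩ := wdata_basic hyp a₀ b₀ hb₀ core hspan Λ hΛ
  obtain ⟨v₀, hv₀, hv₀0⟩ := Submodule.exists_mem_ne_zero_of_ne_bot (wsp_ne_bot hyp core Λ hΛ)
  obtain ⟨ω₀, hω₀⟩ : ∃ ω₀, v₀ ω₀ ≠ 0 := by
    by_contra hcon
    push Not at hcon
    exact hv₀0 (funext hcon)
  have htrans : IsPretransitive G Ω := hyp.hprim.toIsPretransitive
  obtain ⟨g₀, hg₀⟩ := exists_smul_eq G a₀ ω₀
  have hg₀' : (g₀ : Perm Ω) a₀ = ω₀ := hg₀
  have hv₁ : pull (g₀ : Perm Ω) v₀ ∈ Wsp G p x a₀ Λ := hinv _ g₀.2 v₀ hv₀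
  -- the sum over the stabilizer of `a₀`
  obtain ⟨S, hS⟩ : ∃ S : Finset (Perm Ω), ∀ g, g ∈ S ↔ (g ∈ G ∧ g a₀ = a₀) :=
    ⟨Finset.univ.filter (fun g => g ∈ G ∧ g a₀ = a₀), fun g => by simp⟩
  obtain ⟨v₂, hv₂def⟩ : ∃ v₂ : Ω → ℂ, v₂ = ∑ g ∈ S, pull g (pull (g₀ : Perm Ω) v₀) := ⟨_, rfl⟩
  have hv₂ : v₂ ∈ Wsp G p x a₀ Λ := by
    rw [hv₂def]
    exact Submodule.sum_mem _ (fun g hg => hinv g ((hS g).mp hg).1 _ hv₁)
  have hS1 : (1 : Perm Ω) ∈ S := (hS 1).mpr ⟨G.one_mem, rfl⟩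
  have hc : v₂ a₀ ≠ 0 := by
    have hv₂a : v₂ a₀ = (S.card : ℂ) * v₀ ω₀ := by
      rw [hv₂def, Finset.sum_apply]
      rw [Finset.sum_congr rfl (fun g hg =>
        show pull g (pull (g₀ : Perm Ω) v₀) a₀ = v₀ ω₀ from by
          rw [pull_apply, pull_apply, ((hS g).mp hg).2, hg₀'])]
      rw [Finset.sum_const, nsmul_eq_mul]
    rw [hv₂a]
    exact mul_ne_zero (Nat.cast_ne_zero.mpr (Finset.card_ne_zero.mpr ⟨1, hS1⟩)) hω₀
  have hv₂H : ∀ k ∈ G, k a₀ = a₀ → ∀ ω, v₂ (k ω) = v₂ ω := by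
    intro k hk hka ω
    rw [hv₂def, Finset.sum_apply, Finset.sum_apply]
    have hka' : k⁻¹ a₀ = a₀ := by
      rw [Perm.inv_eq_iff_eq]; exact hka.symm
    apply Finset.sum_bij' (fun g _ => g * k) (fun g _ => g * k⁻¹)
    · intro g hg
      rw [hS] at hg ⊢
      exact ⟨G.mul_mem hg.1 hk, by rw [Perm.mul_apply, hka, hg.2]⟩
    · intro g hg
      rw [hS] at hg ⊢
      exact ⟨G.mul_mem hg.1 (G.inv_mem hk), by rw [Perm.mul_apply, hka', hg.2]⟩
    · intro g _
      group
    · intro g _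
      group
    · intro g _
      rfl
  -- the rational vector
  obtain ⟨F', hF'1, hF'eq, hF'rel⟩ :=
    exists_rat_vector (IntermediateField.adjoin ℚ {zeta p}) v₂ a₀ hc
  refine ⟨fun ω => ((F' ω : IntermediateField.adjoin ℚ {zeta p}) : ℂ), ?_, ?_, ?_, ?_⟩
  · -- membership in `Wsp`
    apply mem_wsp_of_eig hyp a₀ b₀ hb₀ core Λ hΛ
    · intro g hg
      have h1 : ∑ ω, v₂ ω * sig x a₀ (g ω) = 0 := wsp_le_uperp hv₂ g hg
      have h2 := hF'rel (fun ω => if x.SameCycle a₀ (g ω) then 1 else -1) 0 a₀ (by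
        rw [ZeroMemClass.coe_zero, zero_mul, ← h1]
        apply Finset.sum_congr rfl
        intro ω _
        unfold sig
        split_ifs <;> simp)
      rw [zero_mul] at h2
      have h3 := congrArg (fun k : IntermediateField.adjoin ℚ {zeta p} => (k : ℂ)) h2
      simp only [ZeroMemClass.coe_zero] at h3
      rw [← h3]
      push_cast
      apply Finset.sum_congr rfl
      intro ω _
      unfold sig
      split_ifs <;> simp
    · intro B hB
      funext i
      have h1 := congrFun (hscal _ (centC_of_cent hB) v₂ hv₂) i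
      simp only [Matrix.mulVec, dotProduct, Matrix.map_apply, Pi.smul_apply, smul_eq_mul] at h1
      have h2 := hF'rel (fun j => ((B i j : ℤ) : IntermediateField.adjoin ℚ {zeta p}))
        ⟨_, wch_mem_adjoin x a₀ b₀ p B 1⟩ i (by
          rw [← h1]
          apply Finset.sum_congr rfl
          intro j _
          simp)
      have h3 := congrArg (fun k : IntermediateField.adjoin ℚ {zeta p} => (k : ℂ)) h2
      simp only [Matrix.mulVec, dotProduct, Matrix.map_apply, Pi.smul_apply, smul_eq_mul]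
      push_cast at h3
      exact h3
  · intro h0
    have h1 := congrFun h0 a₀
    simp only [hF'1, Pi.zero_apply, OneMemClass.coe_one] at h1
    exact one_ne_zero h1
  · intro g hg hga ω
    show ((F' (g ω) : IntermediateField.adjoin ℚ {zeta p}) : ℂ) = F' ω
    rw [hF'eq (g ω) ω (hv₂H g hg hga ω)]
  · intro ω
    have hz : zeta p ^ p = 1 := (zeta_prim' hyp.hp.ne_zero).pow_eq_one
    have hint : IsIntegral ℚ (zeta p) :=
      IsIntegral.of_pow hyp.hp.pos (by rw [hz]; exact isIntegral_one)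
    rw [← IntermediateField.adjoin_simple_toSubalgebra_of_isAlgebraic hint.isAlgebraic]
    exact (F' ω).2

end Cfsg.Agent.H25.W2P
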