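import Mathlib
import Cfsg.Agent.H74.W2PDefs

/-!
# S0720 piece T1-ODD (for helper74): reduction to the hypothesis package `Hyp`
-/

set_option autoImplicit false

namespace Cfsg.Agent.H25.W2P

open Cfsg.Agent.H74.W2P Equiv MulAction

variable {Ω : Type*} [Fintype Ω] [DecidableEq Ω]

/-- In a primitive, not 2-transitive group of degree `2p`, elements of order `p` have no fixed
point (Jordan). -/
theorem no_fix_of_order {G : Subgroup (Perm Ω)} {p : ℕ} (hp : p.Prime)
    (hcard : Fintype.card Ω = 2 * p) (hG : IsPreprimitive G Ω)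
    (hnot2 : ¬ IsMultiplyPretransitive G Ω 2) {y : Perm Ω} (hyG : y ∈ G) (hy : orderOf y = p) :
    ∀ ω : Ω, y ω ≠ ω := by
  obtain ⟨n, hn⟩ := Equiv.Perm.cycleType_prime_order (σ := y) (by rw [hy]; exact hp)
  rw [hy] at hn
  have hsum : y.cycleType.sum = y.support.card := Equiv.Perm.sum_cycleType y
  rw [hn, Multiset.sum_replicate, smul_eq_mul] at hsum
  have hle : y.support.card ≤ 2 * p := by rw [← hcard]; exact Finset.card_le_univ _
  have hp1 : 1 < p := hp.one_lt
  have hn1 : n = 0 ∨ n = 1 := by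
    have h1 : (n + 1) * p ≤ 2 * p := by rw [hsum]; exact hle
    have h2 := Nat.le_of_mul_le_mul_right h1 hp.pos
    omega
  rcases hn1 with h0 | h1
  · exfalso
    apply hnot2
    rw [h0] at hn hsum
    have hcyc : y.IsCycle := by
      rw [← Equiv.Perm.card_cycleType_eq_one, hn]; simp
    have hsc : Set.ncard ((y.support : Set Ω)ᶜ) = (p - 1) + 1 := by
      apply Nat.add_left_cancel (n := (y.support : Set Ω).ncard)
      rw [Set.ncard_add_ncard_compl, Set.ncard_coe_finset, ← hsum, Nat.card_eq_fintype_card, hcard]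
      omega
    exact MulAction.IsPreprimitive.is_two_pretransitive hG hsc
      (by rw [Nat.card_eq_fintype_card, hcard]; omega) (Equiv.Perm.isPretransitive_of_isCycle_mem hcyc hyG)
  · intro ω
    rw [h1] at hsum
    have hu : y.support = Finset.univ := by
      rw [← Finset.card_eq_iff_eq_univ, ← hsum, hcard]
    have hmem : ω ∈ y.support := by rw [hu]; exact Finset.mem_univ ω
    exact Equiv.Perm.mem_support.mp hmem

/-- **S0720-T1-ODD.** -/
theorem reduce_odd {G : Subgroup (Perm Ω)} {p : ℕ} (hp : p.Prime) (hp2 : p ≠ 2)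
    (hcard : Fintype.card Ω = 2 * p) (hG : IsPreprimitive G Ω)
    (hnot2 : ¬ IsMultiplyPretransitive G Ω 2) : ∃ x : Perm Ω, Hyp G p x := by
  have hfact : Fact p.Prime := ⟨hp⟩
  have hpos : 0 < Fintype.card Ω := by rw [hcard]; have := hp.pos; omega
  obtain ⟨a⟩ := Fintype.card_pos_iff.mp hpos
  have htr : IsPretransitive G Ω := hG.toIsPretransitive
  have hdvd : p ∣ Nat.card G := by
    have h1 : (stabilizer G a).index = Nat.card Ω := MulAction.index_stabilizer_of_transitive G a
    have h2 : (stabilizer G a).index ∣ Nat.card G := Subgroup.index_dvd_card _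
    rw [h1, Nat.card_eq_fintype_card, hcard] at h2
    exact (Dvd.intro_left 2 rfl).trans h2
  obtain ⟨x, hx⟩ := exists_prime_orderOf_dvd_card' p hdvd
  have hx' : orderOf (x : Perm Ω) = p := by rw [Subgroup.orderOf_coe]; exact hx
  refine ⟨(x : Perm Ω), hp, hp2, hcard, hG, x.2, hx',
    no_fix_of_order hp hcard hG hnot2 x.2 hx', ?_, hnot2⟩
  intro hsq
  obtain ⟨K, hK⟩ := Sylow.exists_subgroup_card_pow_prime p hsq
  have hinj : Function.Injective (fun k : K => ((k : G) : Perm Ω) a) := by
    intro k k' hkk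
    by_contra hne
    have hne1 : k⁻¹ * k' ≠ 1 := by
      intro h1
      apply hne
      have h2 : k' = k * (k⁻¹ * k') := by group
      rw [h2, h1, mul_one]
    have hfix : (((k⁻¹ * k' : K) : G) : Perm Ω) a = a := by
      have h3 : ((k : G) : Perm Ω) a = ((k' : G) : Perm Ω) a := hkk
      simp only [Subgroup.coe_mul, Subgroup.coe_inv, Perm.mul_apply]
      rw [← h3]
      simp
    have hord : orderOf (k⁻¹ * k') ∣ p ^ 2 := by rw [← hK]; exact orderOf_dvd_natCard _
    have hpd : p ∣ orderOf (k⁻¹ * k') := by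
      obtain ⟨j, -, hj⟩ := (Nat.dvd_prime_pow hp).mp hord
      rcases Nat.eq_zero_or_pos j with h0 | hjpos
      · exfalso
        rw [h0, pow_zero, orderOf_eq_one_iff] at hj
        exact hne1 hj
      · rw [hj]; exact dvd_pow_self p (by omega)
    have hz : orderOf ((k⁻¹ * k') ^ (orderOf (k⁻¹ * k') / p)) = p :=
      orderOf_pow_orderOf_div (orderOf_pos _).ne' hpd
    have hz' : orderOf ((((k⁻¹ * k') ^ (orderOf (k⁻¹ * k') / p) : K) : G) : Perm Ω) = p := by
      rw [Subgroup.orderOf_coe, Subgroup.orderOf_coe]; exact hz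
    have hnf := no_fix_of_order hp hcard hG hnot2
      (y := ((((k⁻¹ * k') ^ (orderOf (k⁻¹ * k') / p) : K) : G) : Perm Ω)) (SetLike.coe_mem _) hz' a
    apply hnf
    simp only [Subgroup.coe_pow]
    exact Equiv.Perm.pow_apply_eq_self_of_apply_eq_self hfix _
  have hle : Nat.card K ≤ Nat.card Ω := Nat.card_le_card_of_injective _ hinj
  rw [hK, Nat.card_eq_fintype_card, hcard] at hle
  have hp3 : 3 ≤ p := by have := hp.two_le; omega
  nlinarith

end Cfsg.Agent.H25.W2P
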