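import Mathlib
import Cfsg.Agent.H74.W2PDefs

/-!
# S0720 piece T1-P2 (for helper74): primitive groups of degree 4 are 2-transitive
-/

set_option autoImplicit false

namespace Cfsg.Agent.H25.W2P

open Cfsg.Agent.H74.W2P Equiv MulAction

variable {Ω : Type*} [Fintype Ω] [DecidableEq Ω]

/-- **S0720-T1-P2.** -/
theorem two_trans_of_card_four {G : Subgroup (Perm Ω)} (hcard : Fintype.card Ω = 4)
    (hG : IsPreprimitive G Ω) : IsMultiplyPretransitive G Ω 2 := by
  have hNat : Nat.card Ω = 4 := by rw [Nat.card_eq_fintype_card, hcard]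
  by_cases h3 : 3 ∣ Nat.card G
  · have hfact : Fact (Nat.Prime 3) := ⟨Nat.prime_three⟩
    obtain ⟨g, hg⟩ := exists_prime_orderOf_dvd_card' 3 h3
    have hg3 : orderOf (g : Perm Ω) = 3 := by rw [Subgroup.orderOf_coe]; exact hg
    obtain ⟨n, hn⟩ := Equiv.Perm.cycleType_prime_order (σ := (g : Perm Ω))
      (by rw [hg3]; exact Nat.prime_three)
    rw [hg3] at hn
    have hsum : (g : Perm Ω).cycleType.sum = (g : Perm Ω).support.card :=
      Equiv.Perm.sum_cycleType _
    rw [hn, Multiset.sum_replicate, smul_eq_mul] at hsum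
    have hle : (g : Perm Ω).support.card ≤ 4 := by rw [← hcard]; exact Finset.card_le_univ _
    have hn0 : n = 0 := by omega
    rw [hn0] at hn hsum
    have hcyc : (g : Perm Ω).IsCycle := by
      rw [← Equiv.Perm.card_cycleType_eq_one, hn]; simp
    have hsc : Set.ncard (((g : Perm Ω).support : Set Ω)ᶜ) = 0 + 1 := by
      apply Nat.add_left_cancel (n := (((g : Perm Ω).support : Set Ω)).ncard)
      rw [Set.ncard_add_ncard_compl, Set.ncard_coe_finset, ← hsum, hNat]
    exact MulAction.IsPreprimitive.is_two_pretransitive hG hsc (by rw [hNat]; norm_num)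
      (Equiv.Perm.isPretransitive_of_isCycle_mem hcyc g.2)
  · exfalso
    have hfact : Fact (Nat.Prime 2) := ⟨Nat.prime_two⟩
    have hdvd : Nat.card G ∣ 2 ^ 3 * 3 := by
      have h1 := Subgroup.card_subgroup_dvd_card G
      rw [Nat.card_perm, hNat] at h1
      exact h1
    have hc : Nat.Coprime (Nat.card G) 3 :=
      ((Nat.Prime.coprime_iff_not_dvd Nat.prime_three).mpr h3).symm
    have hdvd8 : Nat.card G ∣ 2 ^ 3 := Nat.Coprime.dvd_of_dvd_mul_right hc hdvd
    obtain ⟨k, -, hk⟩ := (Nat.dvd_prime_pow Nat.prime_two).mp hdvd8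
    have hp : IsPGroup 2 G := IsPGroup.of_card hk
    have htr : IsPretransitive G Ω := hG.toIsPretransitive
    obtain ⟨a⟩ : Nonempty Ω := Fintype.card_pos_iff.mp (by rw [hcard]; norm_num)
    have hnt : Nontrivial G := by
      by_contra hnn
      rw [not_nontrivial_iff_subsingleton] at hnn
      have hall : ∀ b : Ω, b = a := by
        intro b
        obtain ⟨g, hg⟩ := exists_smul_eq G a b
        rw [← hg, Subsingleton.elim g 1, one_smul]
      have hle1 : Fintype.card Ω ≤ 1 :=
        Fintype.card_le_one_iff.mpr (fun x y => by rw [hall x, hall y])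
      omega
    have hcnt := hp.center_nontrivial
    have h2 : 2 ∣ Nat.card (Subgroup.center G) := by
      have hpc : IsPGroup 2 (Subgroup.center G) := hp.to_subgroup _
      obtain ⟨j, hj⟩ := IsPGroup.iff_card.mp hpc
      rcases Nat.eq_zero_or_pos j with h0 | hjpos
      · exfalso
        rw [h0, pow_zero] at hj
        have hss := (Nat.card_eq_one_iff_unique.mp hj).1
        exact not_subsingleton _ hss
      · rw [hj]; exact dvd_pow_self 2 (by omega)
    obtain ⟨z, hz⟩ := exists_prime_orderOf_dvd_card' 2 h2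
    have hzc : ∀ g : G, g * (z : G) = (z : G) * g := fun g => Subgroup.mem_center_iff.mp z.2 g
    have hN : (Subgroup.zpowers (z : G)).Normal := by
      constructor
      intro n hn g
      obtain ⟨i, rfl⟩ := Subgroup.mem_zpowers_iff.mp hn
      have hcomm : Commute g ((z : G) ^ i) := Commute.zpow_right (hzc g) i
      have h5 : g * (z : G) ^ i * g⁻¹ = (z : G) ^ i := by
        rw [hcomm.eq]; group
      rw [h5]; exact Subgroup.zpow_mem_zpowers _ i
    have hNcard : Nat.card (Subgroup.zpowers (z : G)) = 2 := by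
      rw [Nat.card_zpowers, Subgroup.orderOf_coe, hz]
    have hfix : fixedPoints (Subgroup.zpowers (z : G)) Ω ≠ Set.univ := by
      intro hf
      have hz1 : (z : G) = 1 := by
        apply Subtype.ext
        ext b
        have hb : b ∈ fixedPoints (Subgroup.zpowers (z : G)) Ω := by rw [hf]; trivial
        have h6 := hb ⟨(z : G), Subgroup.mem_zpowers _⟩
        exact h6
      have h7 : orderOf (z : G) = 1 := by rw [hz1, orderOf_one]
      rw [Subgroup.orderOf_coe, hz] at h7
      omega
    have htrN : IsPretransitive (Subgroup.zpowers (z : G)) Ω :=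
      IsQuasiPreprimitive.isPretransitive_of_normal hfix
    have hle : Nat.card Ω ≤ Nat.card (Subgroup.zpowers (z : G)) :=
      Nat.card_le_card_of_surjective (fun n : Subgroup.zpowers (z : G) => n • a)
        (fun b => exists_smul_eq _ a b)
    rw [hNat, hNcard] at hle
    omega

end Cfsg.Agent.H25.W2P
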