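import Mathlib

set_option autoImplicit false

/-! Step (Z) sub-project (helper58): a shared pure lemma — a subgroup of prime order is generated
by any of its nontrivial elements. -/

namespace Cfsg.Agent.H25.KU

universe u

theorem prime_gen {G : Type u} [Group G] [Finite G] (A₀ : Subgroup G) (r : ℕ) [Fact r.Prime]
    (h : Nat.card A₀ = r) : ∃ a0 ∈ A₀, orderOf a0 = r ∧ ∀ y ∈ A₀, ∃ n : ℕ, y = a0 ^ n := by
  have hr : r.Prime := Fact.out
  have hnt : Nontrivial ↥A₀ := by
    rw [← Finite.one_lt_card_iff_nontrivial, h]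
    exact hr.one_lt
  obtain ⟨g, hg⟩ := exists_ne (1 : ↥A₀)
  refine ⟨g.1, g.2, ?_, ?_⟩
  · have h1 : orderOf g ∣ r := by
      rw [← h]
      exact orderOf_dvd_natCard g
    rw [Subgroup.orderOf_coe]
    rcases (Nat.dvd_prime hr).1 h1 with h2 | h2
    · exact absurd (orderOf_eq_one_iff.1 h2) hg
    · exact h2
  · intro y hy
    have hm : (⟨y, hy⟩ : ↥A₀) ∈ Submonoid.powers g := mem_powers_of_prime_card h hg
    obtain ⟨n, hn⟩ := (Submonoid.mem_powers_iff _ _).1 hm
    refine ⟨n, ?_⟩
    have e := congrArg Subtype.val hn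
    simpa using e.symm

end Cfsg.Agent.H25.KU
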