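import Mathlib
import Cfsg.Agent.H58.KUDefs
import Cfsg.Agent.H25.ZBase

set_option autoImplicit false

/-! Step (Z) sub-project (helper58), piece Z-EDER (pure): if `E` normalizes a subgroup `A₀` of
prime order then `E'` centralizes it. -/

namespace Cfsg.Agent.H25.KU

open Cfsg Cfsg.Agent.H58.KU
open scoped commutatorElement

universe u

theorem zEDer {G : Type u} [Group G] [Finite G] : StZEDer G := by
  intro E A₀ r _ hcard hEN
  obtain ⟨a0, ha0, hord, hgen⟩ := prime_gen A₀ r hcard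
  rw [Subgroup.commutator_le]
  intro x hx y hy
  have hxN := hEN hx
  have hyN := hEN hy
  obtain ⟨i, hi⟩ := hgen _ (((Subgroup.mem_normalizer_iff.1 hxN) a0).1 ha0)
  obtain ⟨j, hj⟩ := hgen _ (((Subgroup.mem_normalizer_iff.1 hyN) a0).1 ha0)
  have exy : (x * y) * a0 * (x * y)⁻¹ = a0 ^ (i * j) := by
    have e : (x * y) * a0 * (x * y)⁻¹ = x * (y * a0 * y⁻¹) * x⁻¹ := by group
    rw [e, hj, ← conj_pow, hi, ← pow_mul]
  have eyx : (y * x) * a0 * (y * x)⁻¹ = a0 ^ (i * j) := by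
    have e : (y * x) * a0 * (y * x)⁻¹ = y * (x * a0 * x⁻¹) * y⁻¹ := by group
    rw [e, hi, ← conj_pow, hj, ← pow_mul, mul_comm]
  have key : ∀ c ∈ A₀, (x * y) * c * (x * y)⁻¹ = (y * x) * c * (y * x)⁻¹ := by
    intro c hc
    obtain ⟨n, rfl⟩ := hgen c hc
    rw [← conj_pow, ← conj_pow, exy, eyx]
  rw [Subgroup.mem_centralizer_iff]
  intro h hh
  have hyxN : (y * x)⁻¹ ∈ Subgroup.normalizer (A₀ : Set G) := inv_mem (mul_mem hyN hxN)
  have hc : (y * x)⁻¹ * h * ((y * x)⁻¹)⁻¹ ∈ A₀ := ((Subgroup.mem_normalizer_iff.1 hyxN) h).1 hh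
  have hk := key _ hc
  have hk2 : (y * x) * ((y * x)⁻¹ * h * ((y * x)⁻¹)⁻¹) * (y * x)⁻¹ = h := by group
  rw [hk2] at hk
  rw [commutatorElement_def]
  symm
  calc x * y * x⁻¹ * y⁻¹ * h
      = ((x * y) * ((y * x)⁻¹ * h * ((y * x)⁻¹)⁻¹) * (x * y)⁻¹) * (x * y * x⁻¹ * y⁻¹) := by group
    _ = h * (x * y * x⁻¹ * y⁻¹) := by rw [hk]

example {G : Type u} [Group G] [Finite G] : Cfsg.Agent.H58.KU.StZEDer G := zEDer

end Cfsg.Agent.H25.KU
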