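import Mathlib
import Cfsg.Agent.H58.KUDefs
import Cfsg.Agent.H25.ZBase

set_option autoImplicit false

/-! Step (Z) sub-project (helper58), piece Z-ER (pure): an `r`-element normalizing a subgroup of
order `r` centralizes it. -/

namespace Cfsg.Agent.H25.KU

open Cfsg Cfsg.Agent.H58.KU

universe u

theorem zER {G : Type u} [Group G] [Finite G] : StZER G := by
  intro A₀ r _ hcard x hx hxo
  obtain ⟨a, ha⟩ := hxo
  have hr : r.Prime := Fact.out
  obtain ⟨a0, ha0, hord, hgen⟩ := prime_gen A₀ r hcard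
  have hxa : x * a0 * x⁻¹ ∈ A₀ := ((Subgroup.mem_normalizer_iff.1 hx) a0).1 ha0
  obtain ⟨j, hj⟩ := hgen _ hxa
  have hpow : ∀ k : ℕ, x ^ k * a0 * (x ^ k)⁻¹ = a0 ^ (j ^ k) := by
    intro k
    induction k with
    | zero => simp
    | succ k ih =>
      have e : x ^ (k + 1) * a0 * (x ^ (k + 1))⁻¹ = x * (x ^ k * a0 * (x ^ k)⁻¹) * x⁻¹ := by
        rw [pow_succ']
        group
      rw [e, ih, ← conj_pow, hj, ← pow_mul, pow_succ']
  have h1 := hpow (orderOf x)
  rw [pow_orderOf_eq_one, ha] at h1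
  have h2 : a0 ^ (j ^ (r ^ a)) = a0 ^ 1 := by
    rw [← h1]
    simp
  rw [pow_eq_pow_iff_modEq, hord] at h2
  have h3 : ((j : ZMod r)) = 1 := by
    have h4 := (ZMod.natCast_eq_natCast_iff _ _ _).2 h2
    push_cast at h4
    rwa [ZMod.pow_card_pow] at h4
  have h5 : j ≡ 1 [MOD r] := by
    rw [← ZMod.natCast_eq_natCast_iff]
    push_cast
    exact h3
  have h6 : x * a0 * x⁻¹ = a0 := by
    rw [hj]
    have e : a0 ^ j = a0 ^ 1 := by
      rw [pow_eq_pow_iff_modEq, hord]
      exact h5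
    rw [e, pow_one]
  have hcomm : x * a0 = a0 * x := by
    calc x * a0 = (x * a0 * x⁻¹) * x := by group
      _ = a0 * x := by rw [h6]
  rw [Subgroup.mem_centralizer_iff]
  intro y hy
  obtain ⟨n, rfl⟩ := hgen y hy
  exact ((Commute.pow_right (show Commute x a0 from hcomm) n).eq).symm

example {G : Type u} [Group G] [Finite G] : Cfsg.Agent.H58.KU.StZER G := zER

end Cfsg.Agent.H25.KU
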