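import Mathlib
import Cfsg.Agent.H58.KUDefs

set_option autoImplicit false

/-! Step (Z) sub-project (helper58), piece Z-PPGEN (pure): a subgroup `C` containing every
element of prime-power order of `E` contains `E`. -/

namespace Cfsg.Agent.H25.KU

open Cfsg Cfsg.Agent.H58.KU

universe u

theorem ppGen {G : Type u} [Group G] [Finite G] : StPPGen G := by
  intro E C h
  have key : ∀ n : ℕ, ∀ x ∈ E, orderOf x = n → x ∈ C := by
    intro n
    induction n using Nat.strong_induction_on with
    | _ n ih =>
      intro x hx hn
      have hnpos : 0 < n := by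
        rw [← hn]
        exact orderOf_pos x
      by_cases h1 : n = 1
      · rw [h1, orderOf_eq_one_iff] at hn
        rw [hn]
        exact C.one_mem
      · obtain ⟨q, hq, hqn⟩ := Nat.exists_prime_and_dvd h1
        obtain ⟨a, ha⟩ : ∃ a, a = n.factorization q := ⟨_, rfl⟩
        obtain ⟨m, hm⟩ : ∃ m, m = n / q ^ a := ⟨_, rfl⟩
        have hprod : q ^ a * m = n := by
          rw [hm, ha]
          exact Nat.ordProj_mul_ordCompl_eq_self n q
        have hapos : 0 < a := by
          rw [ha]
          exact hq.factorization_pos_of_dvd hnpos.ne' hqn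
        have hcop : Nat.Coprime (q ^ a) m := by
          rw [hm, ha]
          exact (Nat.coprime_ordCompl hq hnpos.ne').pow_left _
        by_cases hm1 : m = 1
        · apply h x hx ⟨q, a, hq, ?_⟩
          rw [hn, ← hprod, hm1, mul_one]
        · have hmpos : 0 < m := by
            rcases Nat.eq_zero_or_pos m with h0 | h0
            · rw [h0, mul_zero] at hprod
              omega
            · exact h0
          have hqa2 : 2 ≤ q ^ a := by
            calc 2 ≤ q := hq.two_le
              _ = q ^ 1 := (pow_one q).symm
              _ ≤ q ^ a := Nat.pow_le_pow_right hq.pos hapos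
          have hqapos : 0 < q ^ a := by omega
          have ho1 : orderOf (x ^ (q ^ a)) = m := by
            rw [orderOf_pow_of_dvd hqapos.ne' (by rw [hn, ← hprod]; exact Dvd.intro _ rfl), hn,
              ← hprod, Nat.mul_div_cancel_left _ hqapos]
          have ho2 : orderOf (x ^ m) = q ^ a := by
            rw [orderOf_pow_of_dvd hmpos.ne' (by rw [hn, ← hprod]; exact Dvd.intro_left _ rfl), hn,
              ← hprod, Nat.mul_div_cancel _ hmpos]
          have hlt1 : m < n := by
            rw [← hprod]
            nlinarith
          have hlt2 : q ^ a < n := by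
            rw [← hprod]
            have : 2 ≤ m := by omega
            nlinarith
          have hx1 : x ^ (q ^ a) ∈ C := ih m hlt1 _ (E.pow_mem hx _) ho1
          have hx2 : x ^ m ∈ C := ih (q ^ a) hlt2 _ (E.pow_mem hx _) ho2
          have hb := Nat.gcd_eq_gcd_ab (q ^ a) m
          rw [show Nat.gcd (q ^ a) m = 1 from hcop] at hb
          have hxe : x = (x ^ (q ^ a)) ^ (Nat.gcdA (q ^ a) m) * (x ^ m) ^ (Nat.gcdB (q ^ a) m) := by
            rw [← zpow_natCast x (q ^ a), ← zpow_natCast x m, ← zpow_mul, ← zpow_mul, ← zpow_add,
              ← hb]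
            simp
          rw [hxe]
          exact C.mul_mem (C.zpow_mem hx1 _) (C.zpow_mem hx2 _)
  intro x hx
  exact key _ x hx rfl

example {G : Type u} [Group G] [Finite G] : Cfsg.Agent.H58.KU.StPPGen G := ppGen

end Cfsg.Agent.H25.KU
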